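import Mathlib
import Cfsg.Agent.Lib.Held.Code
import Cfsg.Agent.Lib.L72.Defs

/-!
# The model group `Λ² W ⋊ GL(5, 2)` and its codes (plans/L5R.md)
-/

set_option autoImplicit false
set_option Elab.async false

namespace CfsgLib.L5R

open Matrix CfsgLib.Held CfsgLib.MOrb CfsgLib.L72

theorem two_eq (X : Mat) : X + X = 0 := by ext a b; simp [CharTwo.add_self_eq_zero]

/-- alternating matrices -/
def Alt : AddSubgroup Mat where
  carrier := {X | (∀ i j, X i j = X j i) ∧ ∀ i, X i i = 0}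
  zero_mem' := ⟨fun _ _ => rfl, fun _ => rfl⟩
  add_mem' ha hb := ⟨fun i j => by rw [Matrix.add_apply, Matrix.add_apply, ha.1 i j, hb.1 i j],
    fun i => by rw [Matrix.add_apply, ha.2, hb.2, add_zero]⟩
  neg_mem' ha := ⟨fun i j => by rw [Matrix.neg_apply, Matrix.neg_apply, ha.1 i j], fun i => by rw [Matrix.neg_apply, ha.2, neg_zero]⟩

theorem alt_tr (X : Alt) : X.1ᵀ = X.1 := by ext i j; exact X.2.1 j i

theorem act_mem (g : Mat) (X : Alt) : g * X.1 * gᵀ ∈ Alt := by
  refine ⟨fun i j => ?_, fun i => ?_⟩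
  · have : (g * X.1 * gᵀ)ᵀ = g * X.1 * gᵀ := by
      rw [transpose_mul, transpose_mul, transpose_transpose, alt_tr, Matrix.mul_assoc]
    exact (congrFun (congrFun this j) i)
  · obtain ⟨X, h1, h2⟩ := X
    simp only [Matrix.mul_apply, Fin.sum_univ_five, transpose_apply, h2, h1 1 0, h1 2 0, h1 3 0, h1 4 0, h1 2 1,
      h1 3 1, h1 4 1, h1 3 2, h1 4 2, h1 4 3]
    have : (2 : ZMod 2) = 0 := rfl
    linear_combination (g i 0 * g i 1 * X 0 1 + g i 0 * g i 2 * X 0 2 + g i 0 * g i 3 * X 0 3 + g i 0 * g i 4 * X 0 4 +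
      g i 1 * g i 2 * X 1 2 + g i 1 * g i 3 * X 1 3 + g i 1 * g i 4 * X 1 4 + g i 2 * g i 3 * X 2 3 +
      g i 2 * g i 4 * X 2 4 + g i 3 * g i 4 * X 3 4) * this

instance : DistribMulAction (GN 5) Alt where
  smul g X := ⟨g.1 * X.1 * g.1ᵀ, act_mem _ X⟩
  one_smul X := Subtype.ext (by change (1 : Mat) * X.1 * (1 : Mat)ᵀ = X.1; simp)
  mul_smul g h X := Subtype.ext (by
    change g.1 * h.1 * X.1 * (g.1 * h.1)ᵀ = g.1 * (h.1 * X.1 * h.1ᵀ) * g.1ᵀ
    simp only [transpose_mul, Matrix.mul_assoc])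
  smul_zero g := Subtype.ext (by change g.1 * (0 : Mat) * g.1ᵀ = 0; simp)
  smul_add g X Y := Subtype.ext (by
    change g.1 * (X.1 + Y.1) * g.1ᵀ = g.1 * X.1 * g.1ᵀ + g.1 * Y.1 * g.1ᵀ
    rw [Matrix.mul_add, Matrix.add_mul])

theorem coe_smul (g : GN 5) (X : Alt) : (g • X).1 = g.1 * X.1 * g.1ᵀ := rfl

theorem alt_two (X : Alt) : X + X = 0 := Subtype.ext (two_eq _)

/-- `e_i ∧ e_j` -/
def wd (i j : Fin 5) : Alt :=
  ⟨Matrix.of fun a b => if a ≠ b ∧ ((a = i ∧ b = j) ∨ (a = j ∧ b = i)) then 1 else 0,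
    fun a b => by simp only [of_apply]; exact if_congr (by tauto) rfl rfl, fun a => by simp⟩

/-- `u ∧ v` -/
def wv (u v : Fin 5 → ZMod 2) : Alt :=
  ⟨Matrix.of fun a b => u a * v b + v a * u b, fun a b => by simp only [of_apply]; ring,
    fun a => by simp only [of_apply, mul_comm (v a)]; exact CharTwo.add_self_eq_zero _⟩

/-- the model group `Λ² W ⋊ GL(5, 2)` -/
@[ext] structure Mo where
  /-- the module part -/
  x : Alt
  /-- the linear part -/
  g : GN 5
  deriving DecidableEq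

instance : Group Mo where
  mul a b := ⟨a.x + a.g • b.x, a.g * b.g⟩
  one := ⟨0, 1⟩
  inv a := ⟨a.g⁻¹ • a.x, a.g⁻¹⟩
  mul_assoc a b c := Mo.ext (by
    change a.x + a.g • b.x + (a.g * b.g) • c.x = a.x + a.g • (b.x + b.g • c.x)
    rw [smul_add, mul_smul, add_assoc]) (mul_assoc a.g b.g c.g)
  one_mul a := Mo.ext (by change 0 + (1 : GN 5) • a.x = a.x; simp) (one_mul a.g)
  mul_one a := Mo.ext (by change a.x + a.g • (0 : Alt) = a.x; simp) (mul_one a.g)
  inv_mul_cancel a := Mo.ext (alt_two _) (inv_mul_cancel a.g)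

theorem mul_x (a b : Mo) : (a * b).x = a.x + a.g • b.x := rfl
theorem mul_g (a b : Mo) : (a * b).g = a.g * b.g := rfl
theorem one_x : (1 : Mo).x = 0 := rfl
theorem one_g : (1 : Mo).g = 1 := rfl
theorem inv_x (a : Mo) : a⁻¹.x = a.g⁻¹ • a.x := rfl
theorem inv_g (a : Mo) : a⁻¹.g = a.g⁻¹ := rfl

instance : Finite Mo := Finite.of_injective (fun a : Mo => (a.x, a.g)) fun _ _ h =>
  Mo.ext (congrArg Prod.fst h) (congrArg Prod.snd h)

/-- the projection to `GL(5, 2)` -/
def pi : Mo →* GN 5 := MonoidHom.mk' Mo.g mul_g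

/-- the complement -/
def io0 : GN 5 →* Mo := MonoidHom.mk' (fun g => ⟨0, g⟩) fun a b => Mo.ext (by simp [mul_x]) rfl

/-- the module -/
def th (X : Alt) : Mo := ⟨X, 1⟩

theorem th_add (X Y : Alt) : th (X + Y) = th X * th Y := Mo.ext (by simp [mul_x, th]) (mul_one _).symm
theorem th_zero : th 0 = 1 := rfl
theorem th_mul_io0 (a : Mo) : th a.x * io0 a.g = a := Mo.ext (by simp [mul_x, th, io0]) (one_mul _)
theorem conj_th (a : Mo) (X : Alt) : a * th X * a⁻¹ = th (a.g • X) :=
  Mo.ext (by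
    simp only [mul_x, mul_g, inv_x, th, mul_one, smul_inv_smul]
    rw [add_comm a.x, add_assoc, alt_two, add_zero]) (by simp [mul_g, inv_g, th])

/-- `θ(e_i ∧ e_j)` -/
def t (i j : Fin 5) : Mo := th (wd i j)
/-- the transvection `e_j ↦ e_j + e_i` -/
def e (i j : Fin 5) : Mo := io0 (E i j)
/-- the permutation matrix of `(i j)` -/
def n (i j : Fin 5) : Mo := io0 (sw i j)

/-! ### pattern subgroups -/

/-- patterns -/
abbrev Pt := Fin 5 → Fin 5 → Bool

/-- closure test for the linear part -/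
def okG (P : Pt) : Prop := ∀ i j k : Fin 5, P i j → (k ≠ i ∧ P i k) ∨ (k ≠ j ∧ P k j) ∨ (k = i ∧ k = j)

/-- closure test for the module part -/
def okX (P R : Pt) : Prop := ∀ i j a b : Fin 5, R i j → (a ≠ i ∧ P i a) ∨ (b ≠ j ∧ P j b) ∨ R a b ∨ R b a ∨ a = b

instance (P : Pt) : Decidable (okG P) := by unfold okG; infer_instance
instance (P R : Pt) : Decidable (okX P R) := by unfold okX; infer_instance

/-- a subset of a finite group closed under products -/
def ofMul {G : Type*} [Group G] [Finite G] (S : Set G) (h1 : 1 ∈ S) (hm : ∀ a ∈ S, ∀ b ∈ S, a * b ∈ S) :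
    Subgroup G where
  carrier := S
  one_mem' := h1
  mul_mem' ha hb := hm _ ha _ hb
  inv_mem' {a} ha := by
    have h : ∀ k, a ^ k ∈ S := fun k => by
      induction k with
      | zero => rwa [pow_zero]
      | succ k ih => rw [pow_succ]; exact hm _ ih _ ha
    have h2 : a ^ (orderOf a - 1) * a = 1 := by
      rw [← pow_succ, Nat.sub_add_cancel (orderOf_pos a), pow_orderOf_eq_one]
    rw [← eq_inv_of_mul_eq_one_left h2]
    exact h _

theorem patG_mul {P : Pt} (h : okG P) {a b : Mat} (ha : ∀ i j, P i j → a i j = (1 : Mat) i j)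
    (hb : ∀ i j, P i j → b i j = (1 : Mat) i j) (i j : Fin 5) (hp : P i j) : (a * b) i j = (1 : Mat) i j := by
  rw [← Matrix.one_mul (1 : Mat), Matrix.mul_apply, Matrix.mul_apply]
  refine Finset.sum_congr rfl fun k _ => ?_
  rcases h i j k hp with ⟨h1, h2⟩ | ⟨h1, h2⟩ | ⟨rfl, rfl⟩
  · rw [ha _ _ h2, one_apply_ne h1.symm, zero_mul, zero_mul]
  · rw [hb _ _ h2, one_apply_ne h1, mul_zero, mul_zero]
  · rw [ha _ _ hp, hb _ _ hp]

/-- the matrices that agree with the identity at the places of `P` -/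
def patG (P : Pt) (h : okG P := by decide) : Subgroup (GN 5) :=
  ofMul {g | ∀ i j, P i j → g.1 i j = (1 : Mat) i j} (fun _ _ _ => rfl) fun _ ha _ hb => patG_mul h ha hb

theorem mem_patG {P : Pt} {h : okG P} {g : GN 5} : g ∈ patG P h ↔ ∀ i j, P i j → g.1 i j = (1 : Mat) i j := Iff.rfl

/-- the linear part agrees with the identity at the places of `P`, the module part vanishes at the places of `R` -/
def pat (P R : Pt) (h : okG P := by decide) (h' : okX P R := by decide) : Subgroup Mo :=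
  ofMul {m | (∀ i j, P i j → m.g.1 i j = (1 : Mat) i j) ∧ ∀ i j, R i j → m.x.1 i j = 0}
    ⟨fun _ _ _ => rfl, fun _ _ _ => rfl⟩ fun a ha b hb => ⟨patG_mul h ha.1 hb.1, fun i j hr => by
      change a.x.1 i j + (a.g.1 * b.x.1 * a.g.1ᵀ) i j = 0
      rw [ha.2 i j hr, zero_add, Matrix.mul_apply]
      refine Finset.sum_eq_zero fun l _ => ?_
      rw [Matrix.mul_apply, Finset.sum_mul]
      refine Finset.sum_eq_zero fun k _ => ?_
      rcases h' i j k l hr with ⟨h1, h2⟩ | ⟨h1, h2⟩ | h1 | h1 | rfl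
      · rw [ha.1 _ _ h2, one_apply_ne h1.symm, zero_mul, zero_mul]
      · rw [transpose_apply, ha.1 _ _ h2, one_apply_ne h1.symm, mul_zero]
      · rw [hb.2 _ _ h1, mul_zero, zero_mul]
      · rw [b.x.2.1, hb.2 _ _ h1, mul_zero, zero_mul]
      · rw [b.x.2.2, mul_zero, zero_mul]⟩

theorem mem_pat {P R : Pt} {h : okG P} {h' : okX P R} {m : Mo} :
    m ∈ pat P R h h' ↔ (∀ i j, P i j → m.g.1 i j = (1 : Mat) i j) ∧ ∀ i j, R i j → m.x.1 i j = 0 := Iff.rfl

instance (P : Pt) (h : okG P) (g : GN 5) : Decidable (g ∈ patG P h) :=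
  decidable_of_iff (∀ i j : Fin 5, (!P i j || decide (g.1 i j = if i = j then 1 else 0)) = true)
    (by simp [mem_patG, imp_iff_not_or, one_apply])
instance (P R : Pt) (h : okG P) (h' : okX P R) (m : Mo) : Decidable (m ∈ pat P R h h') :=
  decidable_of_iff (∀ i j : Fin 5, ((!P i j || decide (m.g.1 i j = if i = j then 1 else 0)) &&
    (!R i j || decide (m.x.1 i j = 0))) = true) (by simp [mem_pat, imp_iff_not_or, one_apply, forall_and])

/-! ### codes: bits `0..24` code the module part, bits `25..49` the linear part -/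

/-- spread five bits with stride five -/
def spr (r : ℕ) : ℕ := Nat.land (Nat.shiftRight
  0x84210c21082108030840084010c20082100030800080210c01082008030040080010c000820000300000042108210801080208400040108200801000208000002108010800080200400000108000800000200000
  (Nat.mul 21 r)) 0x1fffff

/-- transpose of a code -/
noncomputable def tr (a : ℕ) : ℕ := frc a fun a =>
  Nat.lor (Nat.lor (Nat.lor (Nat.lor (spr (Nat.land a 31)) (Nat.shiftLeft (spr (Nat.land (Nat.shiftRight a 5) 31)) 1))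
    (Nat.shiftLeft (spr (Nat.land (Nat.shiftRight a 10) 31)) 2))
    (Nat.shiftLeft (spr (Nat.land (Nat.shiftRight a 15) 31)) 3))
    (Nat.shiftLeft (spr (Nat.land (Nat.shiftRight a 20) 31)) 4)

theorem spr_spec : ∀ r < 32, spr r < 2 ^ 21 ∧ ∀ i < 25, (spr r).testBit i = (decide (i % 5 = 0) && r.testBit (i / 5)) := by
  decide +kernel

theorem dec_tr (a : ℕ) : dec (tr a) = (dec a)ᵀ := by
  have h : ∀ k, (a >>> k) &&& 31 < 32 := fun k => Nat.and_lt_two_pow (n := 5) _ (by norm_num)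
  have e : tr a = spr ((a >>> 0) &&& 31) <<< 0 ||| spr ((a >>> 5) &&& 31) <<< 1 ||| spr ((a >>> 10) &&& 31) <<< 2 |||
      spr ((a >>> 15) &&& 31) <<< 3 ||| spr ((a >>> 20) &&& 31) <<< 4 := by rw [tr, frc_eq]; rfl
  have k : ∀ s (j : ℕ) (i l : Fin 5), j < 5 → (spr ((a >>> s) &&& 31) <<< j).testBit (5 * i.val + l.val) =
      (decide (l.val = j) && a.testBit (s + i.val)) := fun s j i l hj => by
    rw [Nat.testBit_shiftLeft]
    by_cases h1 : l.val = j
    · rw [(spr_spec _ (h s)).2 _ (by omega), show (5 * i.val + l.val - j) / 5 = i.val by omega, Nat.testBit_and,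
        Nat.testBit_shiftRight, show Nat.testBit 31 i.val = true by revert i; decide]
      simp [h1]
    · by_cases h2 : 5 * i.val + l.val ≥ j
      · rw [(spr_spec _ (h s)).2 _ (by omega), show decide ((5 * i.val + l.val - j) % 5 = 0) = false by simp; omega]
        simp [h1]
      · simp [h1, h2]
  ext i l
  simp only [dec, of_apply, transpose_apply, e, Nat.testBit_or, k _ _ _ _ (by norm_num : 0 < 5),
    k _ _ _ _ (by norm_num : 1 < 5), k _ _ _ _ (by norm_num : 2 < 5), k _ _ _ _ (by norm_num : 3 < 5),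
    k _ _ _ _ (by norm_num : 4 < 5)]
  fin_cases l <;> simp

theorem tr_lt (a : ℕ) : tr a < 2 ^ 25 := by
  have h : ∀ k j, j < 5 → spr ((a >>> k) &&& 31) <<< j < 2 ^ 25 := fun k j hj => by
    rw [Nat.shiftLeft_eq]
    calc _ < 2 ^ 21 * 2 ^ j := Nat.mul_lt_mul_of_pos_right
          (spr_spec _ (Nat.and_lt_two_pow (n := 5) _ (by norm_num))).1 (by positivity)
      _ ≤ 2 ^ 21 * 2 ^ 4 := Nat.mul_le_mul_left _ (Nat.pow_le_pow_right (by norm_num) (by omega))
  rw [tr, frc_eq]
  exact Nat.or_lt_two_pow (Nat.or_lt_two_pow (Nat.or_lt_two_pow (Nat.or_lt_two_pow (h 0 0 (by norm_num))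
    (h 5 1 (by norm_num))) (h 10 2 (by norm_num))) (h 15 3 (by norm_num))) (h 20 4 (by norm_num))

/-- the code of `g • X` -/
noncomputable def acC (g x : ℕ) : ℕ := frc g fun g => mul (mul g x) (tr g)

theorem dec_acC (g x : ℕ) : dec (acC g x) = dec g * dec x * (dec g)ᵀ := by
  rw [acC, frc_eq, dec_mul, dec_mul, dec_tr]

theorem acC_lt (g x : ℕ) : acC g x < 2 ^ 25 := by rw [acC, frc_eq]; exact mul_lt _ _

/-- module part of a code -/
def cx (c : ℕ) : ℕ := Nat.land c 0x1ffffff
/-- linear part of a code -/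
def cg (c : ℕ) : ℕ := Nat.shiftRight c 25
/-- the code with given parts -/
def pr (a b : ℕ) : ℕ := Nat.add a (Nat.shiftLeft b 25)
/-- the code of the identity -/
def oneC : ℕ := nat_lit 571885666435072

theorem cx_eq (c : ℕ) : cx c = c % 2 ^ 25 := Nat.and_two_pow_sub_one_eq_mod c 25
theorem cg_eq (c : ℕ) : cg c = c / 2 ^ 25 := Nat.shiftRight_eq_div_pow c 25
theorem pr_eq (a b : ℕ) : pr a b = a + b * 2 ^ 25 := congrArg (a + ·) (Nat.shiftLeft_eq b 25)
theorem cx_lt (c : ℕ) : cx c < 2 ^ 25 := cx_eq c ▸ Nat.mod_lt _ (by norm_num)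

/-- product of codes -/
noncomputable def mulC (c d : ℕ) : ℕ := frc c fun c => frc d fun d => frc (cg c) fun g =>
  pr (Nat.xor (cx c) (acC g (cx d))) (mul g (cg d))

/-- `c` is the code of `m` -/
structure Cd (m : Mo) (c : ℕ) : Prop where
  lt : c < 2 ^ 50
  x : m.x.1 = dec (cx c)
  g : m.g.1 = dec (cg c)

theorem cd_pr {m : Mo} {a b : ℕ} (ha : a < 2 ^ 25) (hb : b < 2 ^ 25) (h1 : m.x.1 = dec a) (h2 : m.g.1 = dec b) :
    Cd m (pr a b) := by
  refine ⟨by rw [pr_eq]; omega, ?_, ?_⟩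
  · rw [h1, cx_eq, pr_eq, show (a + b * 2 ^ 25) % 2 ^ 25 = a by omega]
  · rw [h2, cg_eq, pr_eq, show (a + b * 2 ^ 25) / 2 ^ 25 = b by omega]

instance (m : Mo) (c : ℕ) : Decidable (Cd m c) :=
  decidable_of_iff (c < 2 ^ 50 ∧ m.x.1 = dec (cx c) ∧ m.g.1 = dec (cg c)) ⟨fun h => ⟨h.1, h.2.1, h.2.2⟩, fun h => ⟨h.1, h.2, h.3⟩⟩

theorem exists_cd (m : Mo) : ∃ c, Cd m c := ⟨_, cd_pr (enc_lt _) (enc_lt _) (dec_enc _).symm (dec_enc _).symm⟩

theorem cd_one : Cd 1 oneC := by decide +kernel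

variable {m m' : Mo} {c d : ℕ}

theorem Cd.cg_lt (h : Cd m c) : cg c < 2 ^ 25 := by have := h.lt; rw [cg_eq]; omega

theorem Cd.mul (h : Cd m c) (h' : Cd m' d) : Cd (m * m') (mulC c d) := by
  rw [mulC, frc_eq, frc_eq, frc_eq]
  refine cd_pr (Nat.xor_lt_two_pow (cx_lt c) (acC_lt _ _)) (mul_lt _ _) ?_ ?_
  · exact (congrArg₂ (· + ·) h.x (by rw [dec_acC, ← h.g, ← h'.x]; rfl)).trans (dec_xor _ _).symm
  · rw [dec_mul, ← h.g, ← h'.g]; rfl

theorem Cd.eq_iff (h : Cd m c) (h' : Cd m' d) : m = m' ↔ c = d := by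
  refine ⟨fun e => ?_, fun e => Mo.ext (Subtype.ext (by rw [h.x, h'.x, e])) (Units.ext (by rw [h.g, h'.g, e]))⟩
  have h1 := dec_inj (cx_lt c) (cx_lt d) (by rw [← h.x, ← h'.x, e])
  have h2 := dec_inj h.cg_lt h'.cg_lt (by rw [← h.g, ← h'.g, e])
  rw [cx_eq, cx_eq] at h1
  rw [cg_eq, cg_eq] at h2
  omega

theorem Cd.eq_one (h : Cd m c) : m = 1 ↔ c = oneC := h.eq_iff cd_one

theorem Cd.inv_eq (h : Cd m c) (h' : Cd m' d) (e : mulC c d = oneC) : m⁻¹ = m' :=
  inv_eq_of_mul_eq_one_right ((h.mul h').eq_one.2 e)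

theorem Cd.comm_iff (h : Cd m c) (h' : Cd m' d) : m * m' = m' * m ↔ mulC c d = mulC d c := (h.mul h').eq_iff (h'.mul h)

/-- the fifteenth power (the inverse of an element of `T0`) -/
noncomputable def p15 (c : ℕ) : ℕ := frc (mulC c (mulC c c)) fun a => frc (mulC a a) fun b => mulC a (mulC b b)

theorem Cd.p15 (h : Cd m c) : Cd (m ^ 15) (p15 c) := by
  rw [L5R.p15, frc_eq, frc_eq, show m ^ 15 = m * (m * m) * (m * (m * m) * (m * (m * m)) * (m * (m * m) * (m * (m * m)))) by
    simp only [pow_succ, pow_zero, one_mul, mul_assoc]]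
  have a := h.mul (h.mul h)
  exact a.mul ((a.mul a).mul (a.mul a))

/-- test: `c` codes an element whose linear part has the inverse `b` -/
noncomputable def okC (c b : ℕ) : Bool := frc c fun c => and (and (Nat.blt c 1125899906842624) (Nat.beq (mul (cg c) b) one))
  (and (Nat.beq (tr c) (cx c)) (Nat.beq (Nat.land c one) 0))

theorem dec_cx (c : ℕ) : dec (cx c) = dec c := by
  ext i j
  simp only [dec, of_apply, cx_eq, Nat.testBit_mod_two_pow, show 5 * i.val + j.val < 25 by omega, decide_true, Bool.true_and]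

theorem exists_of_okC {b : ℕ} (h : okC c b = true) : ∃ m, Cd m c := by
  simp only [okC, frc_eq, Bool.and_eq_true, Nat.blt_eq, Nat.beq_eq] at h
  obtain ⟨⟨h1, h2⟩, h3, h4⟩ := h
  have h5 : dec (cg c) * dec b = 1 := by rw [← dec_mul, h2, dec_one]
  refine ⟨⟨⟨dec (cx c), fun i j => ?_, fun i => ?_⟩, ⟨dec (cg c), dec b, h5, mul_eq_one_comm.1 h5⟩⟩, h1, rfl, rfl⟩
  · conv_lhs => rw [← h3, dec_tr, ← dec_cx]
    rfl
  · have h6 : (c &&& one).testBit (5 * i.val + i.val) = false := by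
      rw [show c &&& one = 0 from h4, Nat.zero_testBit]
    rw [Nat.testBit_and, show one.testBit (5 * i.val + i.val) = true by clear h6; revert i; decide, Bool.and_true] at h6
    rw [dec_cx]
    simp [dec, h6]

/-- the element with the code `c` -/
noncomputable def el (c : ℕ) : Mo := by
  classical
  exact if h : ∃ m, Cd m c then h.choose else 1

theorem cd_el {b : ℕ} (h : okC c b = true) : Cd (el c) c := by
  have := exists_of_okC h
  rw [el, dif_pos this]
  exact this.choose_spec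

/-- the mask of a pair of patterns -/
def mkM (P R : Pt) : ℕ := Nat.ofBits fun k : Fin 50 =>
  if h : k.val < 25 then R ⟨k.val / 5, by omega⟩ ⟨k.val % 5, by omega⟩ else P ⟨(k.val - 25) / 5, by omega⟩ ⟨k.val % 5, by omega⟩

/-- membership test with a mask -/
def inM (M c : ℕ) : Bool := Nat.beq (Nat.land (Nat.xor c oneC) M) 0

theorem Cd.bit_x (h : Cd m c) (i j : Fin 5) : m.x.1 i j = if c.testBit (5 * i.val + j.val) then 1 else 0 := by
  rw [h.x, dec_cx]; rfl

theorem Cd.bit_g (h : Cd m c) (i j : Fin 5) : m.g.1 i j = if c.testBit (25 + (5 * i.val + j.val)) then 1 else 0 := by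
  rw [h.g, ← Nat.testBit_shiftRight]; rfl

theorem ite_inj {a b : Bool} : (if a = true then (1 : ZMod 2) else 0) = (if b = true then 1 else 0) ↔ a = b := by
  revert a b; decide

theorem Cd.mem_bits {P R : Pt} {h1 : okG P} {h2 : okX P R} (h : Cd m c) :
    m ∈ pat P R h1 h2 ↔ ∀ k, (mkM P R).testBit k = true → c.testBit k = oneC.testBit k := by
  have ex : ∀ i j : Fin 5, (mkM P R).testBit (5 * i.val + j.val) = R i j := fun i j => by
    rw [mkM, Nat.testBit_ofBits_lt _ _ (by omega), dif_pos (show 5 * i.val + j.val < 25 by omega)]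
    congr 1 <;> exact Fin.ext (by simp; try omega)
  have eg : ∀ i j : Fin 5, (mkM P R).testBit (25 + (5 * i.val + j.val)) = P i j := fun i j => by
    rw [mkM, Nat.testBit_ofBits_lt _ _ (by omega), dif_neg (show ¬ 25 + (5 * i.val + j.val) < 25 by omega)]
    congr 1 <;> exact Fin.ext (by simp; try omega)
  refine ⟨fun ⟨a, b⟩ k hk => ?_, fun a => ⟨fun i j hp => ?_, fun i j hp => ?_⟩⟩
  · have h3 : k < 50 := by
      by_contra h3
      rw [mkM, Nat.testBit_ofBits_ge _ _ (by omega)] at hk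
      exact absurd hk (by simp)
    by_cases h4 : k < 25
    · obtain ⟨i, j, rfl⟩ := bit_of_lt h4
      exact ite_inj.1 ((h.bit_x i j).symm.trans ((b i j (ex i j ▸ hk)).trans (cd_one.bit_x i j)))
    · obtain ⟨i, j, e⟩ := bit_of_lt (show k - 25 < 25 by omega)
      obtain rfl : k = 25 + (5 * i.val + j.val) := by omega
      exact ite_inj.1 ((h.bit_g i j).symm.trans ((a i j (eg i j ▸ hk)).trans (cd_one.bit_g i j)))
  · rw [h.bit_g, a _ (eg i j ▸ hp)]; exact (cd_one.bit_g i j).symm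
  · rw [h.bit_x, a _ (ex i j ▸ hp)]; exact (cd_one.bit_x i j).symm

/-- membership in a pattern subgroup; `M` is the numeral of the mask (`hM` by `decide +kernel`) -/
theorem Cd.mem_iff {P R : Pt} {h1 : okG P} {h2 : okX P R} (h : Cd m c) {M : ℕ} (hM : mkM P R = M) :
    m ∈ pat P R h1 h2 ↔ inM M c = true := by
  rw [h.mem_bits, hM, inM, Nat.beq_eq]
  change _ ↔ (c ^^^ oneC) &&& M = 0
  refine ⟨fun a => Nat.eq_of_testBit_eq fun k => ?_, fun a k hk => ?_⟩
  · rw [Nat.testBit_and, Nat.testBit_xor, Nat.zero_testBit]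
    cases e : M.testBit k
    · simp
    · simp [a k e]
  · have := congrArg (·.testBit k) a
    simpa [Nat.testBit_and, Nat.testBit_xor, hk] using this

/-- symmetrise the module part -/
noncomputable def sy (h : ℕ) : ℕ := frc h fun h => Nat.xor h (tr h)

/-- loop over the codes that differ from the identity only at the places `bs` (upper places in the module part) -/
noncomputable def lp (bs : List ℕ) (f : ℕ → Bool) : Bool := allP bs (fun h => frc (sy h) f) oneC

theorem Cd.loop {P R : Pt} {h1 : okG P} {h2 : okX P R} (h : Cd m c) (hm : m ∈ pat P R h1 h2) {bs : List ℕ}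
    (hbs : ∀ k < 50, k ∈ bs ∨ (mkM P R).testBit k = true ∨ (k < 25 ∧ k % 5 ≤ k / 5)) {f : ℕ → Bool}
    (hf : lp bs f = true) : f c = true := by
  have b1 : ∀ k, (c &&& 0x3fffffe08639e).testBit k = (c.testBit k && decide (k < 50 ∧ ¬ (k < 25 ∧ k % 5 ≤ k / 5))) :=
    fun k => by
      rw [Nat.testBit_and]
      congr 1
      by_cases hk : k < 50
      · revert k; decide +kernel
      · rw [Nat.testBit_lt_two_pow (lt_of_lt_of_le (by norm_num) (Nat.pow_le_pow_right (by norm_num) (not_lt.1 hk)))]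
        simp [hk]
  have b2 : ∀ k, 50 ≤ k → ∀ x < 2 ^ 50, x.testBit k = false := fun k hk x hx =>
    Nat.testBit_lt_two_pow (hx.trans_le (Nat.pow_le_pow_right (by norm_num) hk))
  have e : sy (c &&& 0x3fffffe08639e) = c := by
    rw [sy, frc_eq]
    refine Nat.eq_of_testBit_eq fun k => ?_
    change (_ ^^^ _ : ℕ).testBit k = _
    rw [Nat.testBit_xor, b1]
    by_cases h4 : k < 25
    · obtain ⟨i, j, rfl⟩ := bit_of_lt h4
      have h5 := congrFun (congrFun (dec_tr (c &&& 0x3fffffe08639e)) i) j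
      simp only [dec, of_apply, transpose_apply, ite_inj] at h5
      have h6 := ite_inj.1 ((h.bit_x i j).symm.trans ((m.x.2.1 i j).trans (h.bit_x j i)))
      rw [h5, b1, ← h6]
      rcases lt_trichotomy i.val j.val with l | l | l
      · rw [decide_eq_true (by omega), decide_eq_false (by omega)]; simp
      · obtain rfl : i = j := Fin.ext l
        have h7 := (h.bit_x i i).symm.trans (m.x.2.2 i)
        cases e : c.testBit (5 * i.val + i.val)
        · rfl
        · simp [e] at h7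
      · rw [decide_eq_false (by omega), decide_eq_true (by omega)]; simp
    · rw [bit_high (tr_lt _) h4]
      by_cases h5 : k < 50
      · rw [decide_eq_true (by omega)]; simp
      · rw [b2 k (by omega) c h.lt]; rfl
  have := allP_sound (n := c &&& 0x3fffffe08639e) hf fun k hk => by
    rw [b1]
    by_cases h5 : k < 50
    · rcases hbs k h5 with a | a | a
      · exact absurd a hk
      · rw [h.mem_bits.1 hm k a]
        clear a hk; revert k; decide +kernel
      · rw [decide_eq_false (by omega), Bool.and_false]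
        clear hk; revert k; decide +kernel
    · rw [b2 k (by omega) c h.lt, b2 k (by omega) oneC (by decide +kernel)]; rfl
  rwa [frc_eq, e] at this

end CfsgLib.L5R
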