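import Mathlib
import Cfsg.Agent.Lib.L5R.Mo
import Cfsg.Agent.Lib.L72.Aut
import Cfsg.Agent.Lib.LargeExtra.Setting
import Cfsg.Agent.Lib.W2.Tools
import Cfsg.Agent.Lib.Tech.SylowIn

/-!
# Groups with a 2-local subgroup `2^10 : L₅(2)`: definitions (plans/L5R.md)
-/

set_option autoImplicit false
set_option Elab.async false

namespace CfsgLib.L5R

open Subgroup Cfsg CfsgLib.Tech CfsgLib.Held CfsgLib.MOrb CfsgLib.L72 CfsgLib.LargeExtra CfsgLib.ExtraTwo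

/-! ### subgroups of the model -/

/-- a pattern -/
def pA : Pt := fun _ _ => true
/-- a pattern -/
def pN : Pt := fun _ _ => false
/-- a pattern -/
def pT : Pt := fun i j => decide (j.val ≤ i.val)
/-- a pattern -/
def pTz : Pt := fun i j => decide (j.val ≤ i.val ∨ j.val = 1)
/-- a pattern -/
def pE : Pt := fun i j => decide (¬ (i.val ≤ 1 ∧ 2 ≤ j.val))
/-- a pattern -/
def pE4 : Pt := fun i j => decide (¬ (i.val ≤ 3 ∧ j.val = 4))
/-- a pattern -/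
def pE3 : Pt := fun i j => decide (¬ (i.val ≤ 2 ∧ 3 ≤ j.val))
/-- a pattern -/
def pF : Pt := fun i j => decide (¬ (i.val < j.val ∧ 3 ≤ j.val))
/-- a pattern -/
def pN1 : Pt := fun i _ => decide (i.val = 4)
/-- a pattern -/
def pH : Pt := fun i j => decide (2 ≤ i.val ∧ j.val ≤ 1)
/-- a pattern -/
def pH0 : Pt := fun _ j => decide (j.val ≤ 1)
/-- a pattern -/
def pY : Pt := fun _ j => decide (j.val ≤ 2)
/-- a pattern -/
def pQw : Pt := fun i j => decide (¬ ((i.val = 0 ∨ i.val = 2) ∧ (j.val = 1 ∨ 3 ≤ j.val)))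
/-- a pattern -/
def pUw : Pt := fun i j => decide (¬ (i.val = 0 ∧ 3 ≤ j.val))
/-- a pattern -/
def pD2 : Pt := fun i j => decide (j.val ≤ i.val ∨ (i.val = 1 ∧ j.val = 2) ∨ i.val = 3)
/-- a pattern -/
def pT2 : Pt := fun i j => decide (j.val ≤ i.val ∨ (i.val = 1 ∧ j.val = 2))
/-- a pattern -/
def pS : Pt := fun i j => decide (j.val ≤ i.val ∨ j.val = 1 ∨ i.val = 3)
/-- a pattern -/
def rQ : Pt := fun i j => decide (2 ≤ i.val ∧ 2 ≤ j.val)
/-- a pattern -/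
def rZ : Pt := fun _ j => decide (j.val = 4)
/-- a pattern -/
def rD : Pt := fun i j => decide (3 ≤ i.val ∧ 3 ≤ j.val)
/-- a pattern -/
def rZ3 : Pt := fun _ j => decide (3 ≤ j.val)
/-- a pattern -/
def rV2 : Pt := fun i j => decide (3 ≤ j.val ∨ (1 ≤ i.val ∧ 1 ≤ j.val))
/-- a pattern -/
def rUw : Pt := fun i j => decide (1 ≤ i.val ∧ 3 ≤ j.val)
/-- a pattern -/
def rQw : Pt := fun i j => decide ((i.val = 1 ∨ 3 ≤ i.val) ∧ (j.val = 1 ∨ 3 ≤ j.val))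

/-- `A` -/
def A0 : Subgroup Mo := pat pA pN
/-- the Sylow 2-subgroup -/
def T0 : Subgroup Mo := pat pT pN
/-- the centraliser of `d0` modulo `Q0` in `T0` -/
def Tz : Subgroup Mo := pat pTz pN
/-- the extraspecial group -/
def Q0 : Subgroup Mo := pat pE rQ
/-- `A ⊓ Q` -/
def W7 : Subgroup Mo := pat pA rQ
/-- `R = J(T)` -/
def R0 : Subgroup Mo := pat pE4 pN
/-- `Z = Z(R) = Λ² U₄` -/
def Z0 : Subgroup Mo := pat pA rZ
/-- `A'` -/
def A1 : Subgroup Mo := pat pE4 rZ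
/-- `C_T(Z3)` -/
def F0 : Subgroup Mo := pat pF pN
/-- `N(R)`, the stabiliser of `U₄` -/
def N1 : Subgroup Mo := pat pN1 pN
/-- `C(z0)`, the stabiliser of `ℓ = ⟨e₀, e₁⟩` -/
def H0 : Subgroup Mo := pat pH pN
/-- the pointwise stabiliser of `ℓ` -/
def H00 : Subgroup Mo := pat pH0 pN
/-- `C(Z3)` -/
def Y0 : Subgroup Mo := pat pY pN
/-- `O₂(C(Z3))` -/
def D0 : Subgroup Mo := pat pE3 rD
/-- `Λ² U₃` -/
def Z3 : Subgroup Mo := pat pA rZ3
/-- `⟨z0, w0⟩` -/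
def V2 : Subgroup Mo := pat pA rV2
/-- the extraspecial group of `w0` -/
def Qw : Subgroup Mo := pat pQw rQw
/-- `Q0 ⊓ Qw` -/
def Uw : Subgroup Mo := pat pUw rUw
/-- `O₂(C(V2))` -/
def D2 : Subgroup Mo := pat pD2 rD
/-- `C_T(V2)` -/
def T2 : Subgroup Mo := pat pT2 pN
/-- the preimage of the elementary abelian subgroup of order 16 of `Tz / Q0` -/
def S16 : Subgroup Mo := pat pS rD

/-- the unitriangular matrices -/
def U5 : Subgroup (GN 5) := patG pT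
/-- the stabiliser of `U₄` -/
def P4 : Subgroup (GN 5) := patG pN1
/-- the transvections with axis `U₄` -/
def E4 : Subgroup (GN 5) := patG pE4

/-- `A''` -/
def A2 : Subgroup Mo := ofMul {m | m ∈ R0 ∧ ∀ i : Fin 5, i ≠ 4 → m.x.1 i 4 = m.g.1 i 4} ⟨one_mem _, by decide⟩
  fun a ha b hb => ⟨mul_mem ha.1 hb.1, fun i hi => by
    have h1 : ∀ j, a.g.1 4 j = (1 : Mat) 4 j := fun j => ha.1.1 4 j (by revert j; decide)
    have h2 : b.g.1 4 4 = 1 := hb.1.1 4 4 rfl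
    change a.x.1 i 4 + (a.g.1 * b.x.1 * a.g.1.transpose) i 4 = (a.g.1 * b.g.1) i 4
    simp [Matrix.mul_apply, Fin.sum_univ_five, h1, h2, ha.2 i hi, hb.2, b.x.2.2, Matrix.one_apply]
    ring⟩

theorem mem_A2 {m : Mo} : m ∈ A2 ↔ m ∈ R0 ∧ ∀ i : Fin 5, i ≠ 4 → m.x.1 i 4 = m.g.1 i 4 := Iff.rfl

variable {m : Mo} {c : ℕ}

instance (m : Mo) : Decidable (m ∈ A0) := inferInstanceAs (Decidable (m ∈ pat pA pN))
theorem Cd.mem_A0 (h : Cd m c) : m ∈ A0 ↔ inM 0x3fffffe000000 c = true := h.mem_iff (by decide +kernel)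
theorem Cd.lp_A0 (h : Cd m c) (hm : m ∈ A0) {f : ℕ → Bool} (hf : lp [1, 2, 3, 4, 7, 8, 9, 13, 14, 19] f = true) : f c = true :=
  h.loop hm (by decide +kernel) hf
instance (m : Mo) : Decidable (m ∈ T0) := inferInstanceAs (Decidable (m ∈ pat pT pN))
theorem Cd.mem_T0 (h : Cd m c) : m ∈ T0 ↔ inM 0x3ef38c2000000 c = true := h.mem_iff (by decide +kernel)
theorem Cd.lp_T0 (h : Cd m c) (hm : m ∈ T0) {f : ℕ → Bool} (hf : lp [1, 2, 3, 4, 7, 8, 9, 13, 14, 19, 26, 27, 28, 29, 32, 33, 34, 38, 39, 44] f = true) : f c = true :=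
  h.loop hm (by decide +kernel) hf
instance (m : Mo) : Decidable (m ∈ Tz) := inferInstanceAs (Decidable (m ∈ pat pTz pN))
theorem Cd.mem_Tz (h : Cd m c) : m ∈ Tz ↔ inM 0x3ef38c6000000 c = true := h.mem_iff (by decide +kernel)
theorem Cd.lp_Tz (h : Cd m c) (hm : m ∈ Tz) {f : ℕ → Bool} (hf : lp [1, 2, 3, 4, 7, 8, 9, 13, 14, 19, 27, 28, 29, 32, 33, 34, 38, 39, 44] f = true) : f c = true :=
  h.loop hm (by decide +kernel) hf
instance (m : Mo) : Decidable (m ∈ Q0) := inferInstanceAs (Decidable (m ∈ pat pE rQ))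
theorem Cd.mem_Q0 (h : Cd m c) : m ∈ Q0 ↔ inM 0x3fff8c7ce7000 c = true := h.mem_iff (by decide +kernel)
theorem Cd.lp_Q0 (h : Cd m c) (hm : m ∈ Q0) {f : ℕ → Bool} (hf : lp [1, 2, 3, 4, 7, 8, 9, 27, 28, 29, 32, 33, 34] f = true) : f c = true :=
  h.loop hm (by decide +kernel) hf
instance (m : Mo) : Decidable (m ∈ W7) := inferInstanceAs (Decidable (m ∈ pat pA rQ))
theorem Cd.mem_W7 (h : Cd m c) : m ∈ W7 ↔ inM 0x3ffffffce7000 c = true := h.mem_iff (by decide +kernel)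
theorem Cd.lp_W7 (h : Cd m c) (hm : m ∈ W7) {f : ℕ → Bool} (hf : lp [1, 2, 3, 4, 7, 8, 9] f = true) : f c = true :=
  h.loop hm (by decide +kernel) hf
instance (m : Mo) : Decidable (m ∈ R0) := inferInstanceAs (Decidable (m ∈ pat pE4 pN))
theorem Cd.mem_R0 (h : Cd m c) : m ∈ R0 ↔ inM 0x3ef7bde000000 c = true := h.mem_iff (by decide +kernel)
theorem Cd.lp_R0 (h : Cd m c) (hm : m ∈ R0) {f : ℕ → Bool} (hf : lp [1, 2, 3, 4, 7, 8, 9, 13, 14, 19, 29, 34, 39, 44] f = true) : f c = true :=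
  h.loop hm (by decide +kernel) hf
instance (m : Mo) : Decidable (m ∈ Z0) := inferInstanceAs (Decidable (m ∈ pat pA rZ))
theorem Cd.mem_Z0 (h : Cd m c) : m ∈ Z0 ↔ inM 0x3ffffff084210 c = true := h.mem_iff (by decide +kernel)
theorem Cd.lp_Z0 (h : Cd m c) (hm : m ∈ Z0) {f : ℕ → Bool} (hf : lp [1, 2, 3, 7, 8, 13] f = true) : f c = true :=
  h.loop hm (by decide +kernel) hf
instance (m : Mo) : Decidable (m ∈ A1) := inferInstanceAs (Decidable (m ∈ pat pE4 rZ))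
theorem Cd.mem_A1 (h : Cd m c) : m ∈ A1 ↔ inM 0x3ef7bdf084210 c = true := h.mem_iff (by decide +kernel)
theorem Cd.lp_A1 (h : Cd m c) (hm : m ∈ A1) {f : ℕ → Bool} (hf : lp [1, 2, 3, 7, 8, 13, 29, 34, 39, 44] f = true) : f c = true :=
  h.loop hm (by decide +kernel) hf
instance (m : Mo) : Decidable (m ∈ F0) := inferInstanceAs (Decidable (m ∈ pat pF pN))
theorem Cd.mem_F0 (h : Cd m c) : m ∈ F0 ↔ inM 0x3ef39ce000000 c = true := h.mem_iff (by decide +kernel)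
theorem Cd.lp_F0 (h : Cd m c) (hm : m ∈ F0) {f : ℕ → Bool} (hf : lp [1, 2, 3, 4, 7, 8, 9, 13, 14, 19, 28, 29, 33, 34, 38, 39, 44] f = true) : f c = true :=
  h.loop hm (by decide +kernel) hf
instance (m : Mo) : Decidable (m ∈ N1) := inferInstanceAs (Decidable (m ∈ pat pN1 pN))
theorem Cd.mem_N1 (h : Cd m c) : m ∈ N1 ↔ inM 0x3e00000000000 c = true := h.mem_iff (by decide +kernel)
theorem Cd.lp_N1 (h : Cd m c) (hm : m ∈ N1) {f : ℕ → Bool} (hf : lp [1, 2, 3, 4, 7, 8, 9, 13, 14, 19, 25, 26, 27, 28, 29, 30, 31, 32, 33, 34, 35, 36, 37, 38, 39, 40, 41, 42, 43, 44] f = true) : f c = true :=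
  h.loop hm (by decide +kernel) hf
instance (m : Mo) : Decidable (m ∈ H0) := inferInstanceAs (Decidable (m ∈ pat pH pN))
theorem Cd.mem_H0 (h : Cd m c) : m ∈ H0 ↔ inM 0x631800000000 c = true := h.mem_iff (by decide +kernel)
theorem Cd.lp_H0 (h : Cd m c) (hm : m ∈ H0) {f : ℕ → Bool} (hf : lp [1, 2, 3, 4, 7, 8, 9, 13, 14, 19, 25, 26, 27, 28, 29, 30, 31, 32, 33, 34, 37, 38, 39, 42, 43, 44, 47, 48, 49] f = true) : f c = true :=
  h.loop hm (by decide +kernel) hf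
instance (m : Mo) : Decidable (m ∈ H00) := inferInstanceAs (Decidable (m ∈ pat pH0 pN))
theorem Cd.mem_H00 (h : Cd m c) : m ∈ H00 ↔ inM 0x6318c6000000 c = true := h.mem_iff (by decide +kernel)
theorem Cd.lp_H00 (h : Cd m c) (hm : m ∈ H00) {f : ℕ → Bool} (hf : lp [1, 2, 3, 4, 7, 8, 9, 13, 14, 19, 27, 28, 29, 32, 33, 34, 37, 38, 39, 42, 43, 44, 47, 48, 49] f = true) : f c = true :=
  h.loop hm (by decide +kernel) hf
instance (m : Mo) : Decidable (m ∈ Y0) := inferInstanceAs (Decidable (m ∈ pat pY pN))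
theorem Cd.mem_Y0 (h : Cd m c) : m ∈ Y0 ↔ inM 0xe739ce000000 c = true := h.mem_iff (by decide +kernel)
theorem Cd.lp_Y0 (h : Cd m c) (hm : m ∈ Y0) {f : ℕ → Bool} (hf : lp [1, 2, 3, 4, 7, 8, 9, 13, 14, 19, 28, 29, 33, 34, 38, 39, 43, 44, 48, 49] f = true) : f c = true :=
  h.loop hm (by decide +kernel) hf
instance (m : Mo) : Decidable (m ∈ D0) := inferInstanceAs (Decidable (m ∈ pat pE3 rD))
theorem Cd.mem_D0 (h : Cd m c) : m ∈ D0 ↔ inM 0x3ff39cf8c0000 c = true := h.mem_iff (by decide +kernel)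
theorem Cd.lp_D0 (h : Cd m c) (hm : m ∈ D0) {f : ℕ → Bool} (hf : lp [1, 2, 3, 4, 7, 8, 9, 13, 14, 28, 29, 33, 34, 38, 39] f = true) : f c = true :=
  h.loop hm (by decide +kernel) hf
instance (m : Mo) : Decidable (m ∈ Z3) := inferInstanceAs (Decidable (m ∈ pat pA rZ3))
theorem Cd.mem_Z3 (h : Cd m c) : m ∈ Z3 ↔ inM 0x3ffffff8c6318 c = true := h.mem_iff (by decide +kernel)
theorem Cd.lp_Z3 (h : Cd m c) (hm : m ∈ Z3) {f : ℕ → Bool} (hf : lp [1, 2, 7] f = true) : f c = true :=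
  h.loop hm (by decide +kernel) hf
instance (m : Mo) : Decidable (m ∈ V2) := inferInstanceAs (Decidable (m ∈ pat pA rV2))
theorem Cd.mem_V2 (h : Cd m c) : m ∈ V2 ↔ inM 0x3ffffffef7bd8 c = true := h.mem_iff (by decide +kernel)
theorem Cd.lp_V2 (h : Cd m c) (hm : m ∈ V2) {f : ℕ → Bool} (hf : lp [1, 2] f = true) : f c = true :=
  h.loop hm (by decide +kernel) hf
instance (m : Mo) : Decidable (m ∈ Qw) := inferInstanceAs (Decidable (m ∈ pat pQw rQw))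
theorem Cd.mem_Qw (h : Cd m c) : m ∈ Qw ↔ inM 0x3ff2fcbad0340 c = true := h.mem_iff (by decide +kernel)
theorem Cd.lp_Qw (h : Cd m c) (hm : m ∈ Qw) {f : ℕ → Bool} (hf : lp [1, 2, 3, 4, 7, 13, 14, 26, 28, 29, 36, 38, 39] f = true) : f c = true :=
  h.loop hm (by decide +kernel) hf
instance (m : Mo) : Decidable (m ∈ Uw) := inferInstanceAs (Decidable (m ∈ pat pUw rUw))
theorem Cd.mem_Uw (h : Cd m c) : m ∈ Uw ↔ inM 0x3ffffcf8c6300 c = true := h.mem_iff (by decide +kernel)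
theorem Cd.lp_Uw (h : Cd m c) (hm : m ∈ Uw) {f : ℕ → Bool} (hf : lp [1, 2, 3, 4, 7, 28, 29] f = true) : f c = true :=
  h.loop hm (by decide +kernel) hf
instance (m : Mo) : Decidable (m ∈ D2) := inferInstanceAs (Decidable (m ∈ pat pD2 rD))
theorem Cd.mem_D2 (h : Cd m c) : m ∈ D2 ↔ inM 0x3ff39c38c0000 c = true := h.mem_iff (by decide +kernel)
theorem Cd.lp_D2 (h : Cd m c) (hm : m ∈ D2) {f : ℕ → Bool} (hf : lp [1, 2, 3, 4, 7, 8, 9, 13, 14, 26, 27, 28, 29, 33, 34, 38, 39] f = true) : f c = true :=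
  h.loop hm (by decide +kernel) hf
instance (m : Mo) : Decidable (m ∈ T2) := inferInstanceAs (Decidable (m ∈ pat pT2 pN))
theorem Cd.mem_T2 (h : Cd m c) : m ∈ T2 ↔ inM 0x3ef39c2000000 c = true := h.mem_iff (by decide +kernel)
theorem Cd.lp_T2 (h : Cd m c) (hm : m ∈ T2) {f : ℕ → Bool} (hf : lp [1, 2, 3, 4, 7, 8, 9, 13, 14, 19, 26, 27, 28, 29, 33, 34, 38, 39, 44] f = true) : f c = true :=
  h.loop hm (by decide +kernel) hf
instance (m : Mo) : Decidable (m ∈ S16) := inferInstanceAs (Decidable (m ∈ pat pS rD))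
theorem Cd.mem_S16 (h : Cd m c) : m ∈ S16 ↔ inM 0x3ff38c78c0000 c = true := h.mem_iff (by decide +kernel)
theorem Cd.lp_S16 (h : Cd m c) (hm : m ∈ S16) {f : ℕ → Bool} (hf : lp [1, 2, 3, 4, 7, 8, 9, 13, 14, 27, 28, 29, 32, 33, 34, 38, 39] f = true) : f c = true :=
  h.loop hm (by decide +kernel) hf


instance (m : Mo) : Decidable (m ∈ A2) := decidable_of_iff _ mem_A2.symm

/-- membership test for `A2` -/
def inA2 (c : ℕ) : Bool := and (inM 0x3ef7bde000000 c) (Nat.beq (Nat.land (Nat.xor c (cg c)) 0x84210) 0)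

theorem Cd.mem_A2 (h : Cd m c) : m ∈ A2 ↔ inA2 c = true := by
  rw [L5R.mem_A2, inA2, Bool.and_eq_true, h.mem_R0, Nat.beq_eq]
  refine and_congr_right fun _ => ?_
  change _ ↔ (c ^^^ c >>> 25) &&& 0x84210 = 0
  simp only [h.bit_x, h.bit_g, ite_inj]
  refine ⟨fun a => Nat.eq_of_testBit_eq fun k => ?_, fun a i hi => ?_⟩
  · rw [Nat.testBit_and, Nat.testBit_xor, Nat.testBit_shiftRight, Nat.zero_testBit]
    by_cases hk : k < 25
    · obtain ⟨i, j, rfl⟩ := bit_of_lt hk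
      by_cases e : i ≠ 4 ∧ j = 4
      · obtain ⟨e, rfl⟩ := e
        rw [a i e]; simp
      · rw [show Nat.testBit 0x84210 (5 * i.val + j.val) = false by clear a hk; revert i j; decide]; simp
    · rw [bit_high (a := 0x84210) (by norm_num) hk]; simp
  · have := congrArg (·.testBit (5 * i.val + (4 : Fin 5).val)) a
    simp only [Nat.testBit_and, Nat.testBit_xor, Nat.testBit_shiftRight, Nat.zero_testBit] at this
    rw [show Nat.testBit 0x84210 (5 * i.val + (4 : Fin 5).val) = true by clear this; revert i; decide] at this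
    simpa using this

/-- the code of `t i j` -/
def tC (i j : ℕ) : ℕ := Nat.xor oneC (Nat.lor (Nat.shiftLeft 1 (Nat.add (Nat.mul 5 i) j)) (Nat.shiftLeft 1 (Nat.add (Nat.mul 5 j) i)))
/-- the code of `e i j` -/
def eC (i j : ℕ) : ℕ := Nat.xor oneC (Nat.shiftLeft 1 (Nat.add (Nat.add (Nat.mul 5 i) j) 25))
/-- the code of `n i j` -/
noncomputable def nC (i j : ℕ) : ℕ := mulC (eC i j) (mulC (eC j i) (eC i j))

theorem cd_t : ∀ {i j : Fin 5}, i ≠ j → Cd (t i j) (tC i j) := by decide +kernel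
theorem cd_e : ∀ {i j : Fin 5}, i ≠ j → Cd (e i j) (eC i j) := by decide +kernel
theorem n_eq (i j : Fin 5) : n i j = e i j * (e j i * e i j) := by rw [n, sw, map_mul, map_mul, mul_assoc]; rfl
theorem cd_n {i j : Fin 5} (h : i ≠ j) : Cd (n i j) (nC i j) := n_eq i j ▸ (cd_e h).mul ((cd_e h.symm).mul (cd_e h))

/-- the central involution -/
def z0 : Mo := t 0 1
/-- a conjugate of `z0` in `Q0` -/
def w0 : Mo := t 0 2
/-- `Z3 = ⟨z0, w0, r0⟩` -/
def r0 : Mo := t 1 2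
/-- the element of order 3 on `⟨e₀, e₁⟩` -/
def d0 : Mo := e 0 1 * e 1 0
/-- the element of order 3 on `⟨e₃, e₄⟩` -/
def d4 : Mo := e 3 4 * e 4 3

/-- representatives of `Uw / Z3` -/
def mu (v : Fin 4 → ZMod 2) : Mo :=
  (if v 0 = 1 then t 0 3 else 1) * (if v 1 = 1 then t 0 4 else 1) * (if v 2 = 1 then e 0 3 else 1) *
    (if v 3 = 1 then e 0 4 else 1)

/-- the symplectic form on `Uw / Z3` -/
def B4 (u v : Fin 4 → ZMod 2) : ZMod 2 := u 0 * v 2 + u 1 * v 3 + u 2 * v 0 + u 3 * v 1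

/-- `g` preserves `B4` -/
def Sp4 (g : GN 4) : Prop := ∀ u v, B4 (g.1.mulVec u) (g.1.mulVec v) = B4 u v

/-- the action of `e 3 4` on `Uw / Z3` -/
def pa3 : GN 4 := E 0 1 * E 3 2
/-- the action of `t 3 4` on `Uw / Z3` -/
def pa4 : GN 4 := E 1 2 * E 0 3
/-- the action of `n 3 4` on `Uw / Z3` -/
def pn3 : GN 4 := sw 0 1 * sw 2 3
/-- the action of the missing Weyl element on `Uw / Z3` -/
def pnu : GN 4 := sw 0 3 * sw 1 2

/-! ### generic notions -/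

section

variable {G : Type*} [Group G]

/-- the elements of `Q` that commute with `B` modulo `z` -/
def cS (Q : Subgroup G) (z : G) (B : Set G) : Set G :=
  {q | q ∈ Q ∧ ∀ b ∈ B, q * b * q⁻¹ * b⁻¹ = 1 ∨ q * b * q⁻¹ * b⁻¹ = z}

/-- the number of elements of `V` that centralise `Y` -/
noncomputable def cc (V Y : Subgroup G) : ℕ := Nat.card (V ⊓ centralizer (Y : Set G) : Subgroup G)

/-- the action of a 2-group `S` on `V = 2^12` (to be used in `C(z) / ⟨z⟩`) -/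
structure NO (V S S0 T0 : Subgroup G) (d : G) : Prop where
  sq : ∀ v ∈ V, v * v = 1
  card : Nat.card V = 2 ^ 12
  VT : V ≤ T0
  TS : T0 ≤ S0
  SS : S0 ≤ S
  two : IsPGroup 2 S
  norm : S ≤ normalizer (V : Set G)
  dn : d ∈ normalizer (V : Set G)
  d3 : d ^ 3 = 1
  fpf : ∀ v ∈ V, d * v = v * d → v = 1
  cen : ∀ s ∈ S0, s * d * s⁻¹ * d⁻¹ ∈ V
  inv : ∀ s ∈ S, s ∉ S0 → s * d * s⁻¹ * d ∈ V
  idx : ∀ s ∈ S0, ∀ s' ∈ S0, s ∉ T0 → s' ∉ T0 → s * s' ∈ T0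
  fai : ∀ s ∈ S, (∀ v ∈ V, s * v = v * s) → s ∈ V
  f2 : ∀ Y, V ≤ Y → Y ≤ T0 → (∀ y ∈ Y, y * y ∈ V) → Y ≠ V → cc V Y ≤ 2 ^ 8
  f3 : ∀ Y, V ≤ Y → Y ≤ T0 → (∀ y ∈ Y, y * y ∈ V) → 8 ≤ V.relIndex Y → cc V Y ≤ 2 ^ 6 ∧ (cc V Y = 2 ^ 6 →
    ∀ s ∈ S, (∀ w ∈ V ⊓ centralizer (Y : Set G), s * w = w * s) → ∀ v ∈ V, v * s * v⁻¹ * s⁻¹ ∈ centralizer (Y : Set G))
  f4 : ∀ Y, V ≤ Y → Y ≤ S0 → (∀ y ∈ Y, y * y ∈ V) → V.relIndex Y ≤ 16

end

/-! ### coordinates on `N(A)` -/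

/-- coordinates on the normaliser of `A = 2^10` -/
structure Fr (G : Type*) [Group G] where
  /-- the embedding of the model -/
  φ : Mo →* G
  inj : Function.Injective φ
  range : φ.range = normalizer ((A0.map φ : Subgroup G) : Set G)

namespace Fr

variable {G : Type*} [Group G] (m : Fr G)

/-- the image of a subgroup of the model -/
abbrev im (K : Subgroup Mo) : Subgroup G := K.map m.φ
/-- `A` -/
abbrev A : Subgroup G := m.im A0
/-- `N = N(A)` -/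
abbrev N : Subgroup G := m.φ.range
/-- `T` -/
abbrev T : Subgroup G := m.im T0
/-- `Q` -/
abbrev Q : Subgroup G := m.im Q0
/-- `R` -/
abbrev R : Subgroup G := m.im R0
/-- `z` -/
abbrev z : G := m.φ z0
/-- `w` -/
abbrev w : G := m.φ w0
/-- `d` -/
abbrev d : G := m.φ d0
/-- `H = C(z)` -/
abbrev H : Subgroup G := centralizer ({m.z} : Set G)
/-- `C(z, w)` -/
abbrev C2 : Subgroup G := centralizer ({m.z, m.w} : Set G)
/-- `Y = C(Z3)` -/
abbrev Y : Subgroup G := centralizer (m.im Z3 : Set G)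

variable {m} {K L : Subgroup Mo} {x y : Mo} {g : G}

theorem φ_mem : m.φ x ∈ m.im K ↔ x ∈ K := mem_map_iff_mem m.inj
theorem φ_eq : m.φ x = m.φ y ↔ x = y := m.inj.eq_iff
theorem card_im (K : Subgroup Mo) : Nat.card (m.im K) = Nat.card K := card_map_of_injective m.inj
theorem im_le : m.im K ≤ m.im L ↔ K ≤ L := map_le_map_iff_of_injective m.inj
theorem im_le_N : m.im K ≤ m.N := map_le_range _ _
theorem im_comap {B : Subgroup G} (h : B ≤ m.N) : m.im (B.comap m.φ) = B := map_comap_eq_self h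
theorem mem_N : g ∈ m.N ↔ cj g m.A = m.A := by rw [Fr.N, m.range, mem_normalizer_iff_cj]
theorem mem_H : g ∈ m.H ↔ g * m.z = m.z * g := mem_centralizer_singleton_iff
theorem mem_C2 : g ∈ m.C2 ↔ g * m.z = m.z * g ∧ g * m.w = m.w * g := by
  simp [mem_centralizer_iff, eq_comm]
theorem cj_im (x : Mo) (K : Subgroup Mo) : cj (m.φ x) (m.im K) = m.im (cj x K) := by
  rw [cj, cj, Fr.im, Fr.im, map_map, map_map]
  congr 1
  ext y; simp

end Fr

section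

variable {G : Type*} [Group G]

/-- what is needed of a Sylow 2-subgroup `S` to show that `Q` is normal in `C(z)` -/
structure St (m : Fr G) (S : Subgroup G) : Prop where
  le : m.T ≤ S
  syl : IsSylowIn 2 S ⊤
  zc : S ≤ m.H
  nQ : S ≤ normalizer (m.Q : Set G)
  nd : ∀ s ∈ S, s * m.d * s⁻¹ * m.d⁻¹ ∈ m.Q ∨ s * m.d * s⁻¹ * m.d ∈ m.Q
  idx : ∀ s ∈ S, ∀ s' ∈ S, s ∉ m.T → s' ∉ m.T → s * s' ∈ m.T
  swap : ∀ s ∈ S, s ∉ m.T → cj s m.A = m.im A1

/-- case I: `T` is a Sylow 2-subgroup -/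
structure CI (m : Fr G) : Prop where
  syl : IsSylowIn 2 m.T ⊤
  pre : Pre m.Q m.z

/-- case II: an involution that interchanges `A` and `A'` -/
structure SX (m : Fr G) (s : G) : Prop where
  sq : s * s = 1
  nR : s ∈ normalizer (m.R : Set G)
  swap : cj s m.A = m.im A1
  cen : ∀ a ∈ m.im A2, s * a = a * s
  com : ∀ x ∈ m.im N1, s * x * s⁻¹ * x⁻¹ ∈ m.im A2
  all : ∀ g ∈ normalizer (m.R : Set G), g ∈ m.im N1 ∨ s * g ∈ m.im N1

/-- the Sylow 2-subgroup in case II -/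
abbrev Fr.S (m : Fr G) (s : G) : Subgroup G := m.T ⊔ zpowers s
/-- the elementary abelian subgroup of order `2^11` in case II -/
abbrev Fr.V (m : Fr G) (s : G) : Subgroup G := m.im A2 ⊔ zpowers s

/-- the missing Weyl element -/
structure N5 (m : Fr G) (ν : G) : Prop where
  sq : ν * ν = 1
  three : (m.φ (t 3 4) * ν) ^ 3 = 1
  memY : ν ∈ m.Y
  com : ∀ x ∈ [e 0 1, e 1 0, e 1 2, e 2 1, e 3 4, e 4 3], ν * m.φ x = m.φ x * ν
  c3 : ∀ i : Fin 5, i.val ≤ 2 → ν * m.φ (t i 3) * ν = m.φ (e i 4)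
  c4 : ∀ i : Fin 5, i.val ≤ 2 → ν * m.φ (t i 4) * ν = m.φ (e i 3)

/-- the action of `Y` on `Uw / Z3` -/
structure Psi (m : Fr G) (ψ : m.Y →* GN 4) : Prop where
  act : ∀ (y : m.Y) v, ∃ ζ ∈ Z3, (y : G) * m.φ (mu v) * (y : G)⁻¹ = m.φ (mu ((ψ y).1.mulVec v) * ζ)
  act' : ∀ (y : m.Y) v, ∃ ζ ∈ Z3,
    (y : G) * m.φ (n 0 1 * mu v * n 0 1) * (y : G)⁻¹ = m.φ (n 0 1 * mu ((ψ y).1.mulVec v) * n 0 1 * ζ)
  ker : ∀ y : m.Y, ψ y = 1 ↔ (y : G) ∈ m.im D0
  sp : ∀ y, Sp4 (ψ y)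

/-- a group with the local structure of `N(V) / V` -/
structure XD {X : Type*} [Group X] (ψ : P4 →* X) : Prop where
  inj : Function.Injective ψ
  syl : IsSylowIn 2 ((U5.subgroupOf P4).map ψ) ⊤
  nE : normalizer (((E4.subgroupOf P4).map ψ : Subgroup X) : Set X) ≤ ψ.range
  nU : normalizer (((U5.subgroupOf P4).map ψ : Subgroup X) : Set X) ≤ ψ.range
  ne : ψ.range ≠ ⊤

end

/-- `Ω⁺(10, 2)` -/
abbrev Om10 := ↥(Omega (ZMod 2) (quadFormPlus 5 (ZMod 2)))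
/-- `O⁺(10, 2)` -/
abbrev O10 := ↥(isometryGroup (ZMod 2) (quadFormPlus 5 (ZMod 2)))

end CfsgLib.L5R
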