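import Mathlib
import Cfsg.Agent.Lib.L5R.Defs

/-!
# Groups with a 2-local subgroup `2^10 : L₅(2)`: more definitions (plans/L5R.md)
-/

set_option autoImplicit false
set_option Elab.async false

namespace CfsgLib.L5R

open Subgroup Cfsg CfsgLib.Tech CfsgLib.Held CfsgLib.MOrb CfsgLib.L72 CfsgLib.LargeExtra CfsgLib.ExtraTwo

theorem pat_le {P R P' R' : Pt} {h : okG P} {h' : okX P R} {k : okG P'} {k' : okX P' R'}
    (hP : ∀ i j, P' i j → P i j) (hR : ∀ i j, R' i j → R i j ∨ R j i ∨ i = j) : pat P R h h' ≤ pat P' R' k k' :=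
  fun m hm => ⟨fun i j e => hm.1 i j (hP i j e), fun i j e => by
    rcases hR i j e with a | a | rfl
    exacts [hm.2 i j a, (m.x.2.1 i j).trans (hm.2 j i a), m.x.2.2 i]⟩

theorem t_sq (i j : Fin 5) : t i j * t i j = 1 := by rw [t, ← th_add, alt_two, th_zero]
theorem e_sq (i j : Fin 5) : e i j * e i j = 1 := by rw [e, ← map_mul, E_mul_self, map_one]
theorem n_sq (i j : Fin 5) : n i j * n i j = 1 := by
  rw [n_eq, mul_assoc, mul_assoc, ← mul_assoc (e i j) (e i j), e_sq, one_mul, ← mul_assoc (e j i), e_sq, one_mul, e_sq]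
theorem t_inv (i j : Fin 5) : (t i j)⁻¹ = t i j := inv_eq_of_mul_eq_one_right (t_sq i j)
theorem e_inv (i j : Fin 5) : (e i j)⁻¹ = e i j := inv_eq_of_mul_eq_one_right (e_sq i j)
theorem n_inv (i j : Fin 5) : (n i j)⁻¹ = n i j := inv_eq_of_mul_eq_one_right (n_sq i j)

/-- equality test that reduces in the kernel (for long products use the codes `Cd` instead) -/
instance (priority := high) decMo : DecidableEq Mo := fun a b =>
  decidable_of_iff (∀ i j : Fin 5, (decide (a.x.1 i j = b.x.1 i j) && decide (a.g.1 i j = b.g.1 i j)) = true) (by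
    simp only [Bool.and_eq_true, decide_eq_true_eq]
    exact ⟨fun h => Mo.ext (Subtype.ext (Matrix.ext fun i j => (h i j).1)) (Units.ext (Matrix.ext fun i j => (h i j).2)),
      fun h _ _ => h ▸ ⟨rfl, rfl⟩⟩)

theorem z0_sq : z0 * z0 = 1 := t_sq 0 1
theorem z0_ne : z0 ≠ 1 := by decide +kernel
theorem n_z0 : n 1 2 * z0 * n 1 2 = w0 :=
  (((cd_n (by decide)).mul (cd_t (by decide))).mul (cd_n (by decide))).eq_iff (cd_t (by decide)) |>.2 (by decide +kernel)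

/-- irreducible representations -/
def Irr {V : Type*} [Group V] (ρ : GN 5 →* MulAut V) : Prop :=
  ∀ W : Subgroup V, (∀ g, ∀ w ∈ W, ρ g w ∈ W) → W = ⊥ ∨ W = ⊤

/-- a weight vector -/
structure Wt {V : Type*} [Group V] (ρ : GN 5 →* MulAut V) (v : V) : Prop where
  ne : v ≠ 1
  fix : ∀ u ∈ U5, ρ u v = v
  dich : ∀ i : Fin 4, ρ (sw i.castSucc i.succ) v = v ∨
    v * ρ (sw i.castSucc i.succ) v * ρ (E i.castSucc i.succ * sw i.castSucc i.succ) v = 1

/-- an equivariant bijection from `Alt` -/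
structure Eqv {V : Type*} [Group V] (ρ : GN 5 →* MulAut V) (f : Alt → V) : Prop where
  bij : Function.Bijective f
  add : ∀ X Y, f (X + Y) = f X * f Y
  act : ∀ (g : GN 5) X, f (g • X) = ρ g (f X)

/-- the image of `Y0` in `Sp(4, 2)`, of order 12 -/
def D12 : Subgroup (GN 4) := closure {pa3, pa4, pn3}
/-- `S₃ × S₃` -/
def F36 : Subgroup (GN 4) := closure {pa3, pa4, pn3, pnu}
/-- the action of `d4` on `Uw / Z3` -/
def pd : GN 4 := pa3 * (pn3 * pa3 * pn3)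
/-- an element of order 3 of the second factor -/
def pw : GN 4 := pa4 * pnu
/-- `3 × 3` -/
def O9 : Subgroup (GN 4) := closure {pd, pw}

/-- the bracket criterion -/
def crit (U : Subgroup Mo) (u : Mo) : Prop := ∀ a ∈ Q0, ∀ b ∈ Qw, (∀ x ∈ U, a * x = x * a) → (∀ x ∈ U, b * x = x * b) →
  a * b * a⁻¹ * b⁻¹ ∈ V2 ∨ a * b * a⁻¹ * b⁻¹ * u ∈ V2

/-- the block of the linear part of an element of `Q0` has rank at most one -/
def rk1 (q : Mo) : Prop := ∀ j k : Fin 5, 2 ≤ j.val → 2 ≤ k.val → q.g.1 0 j * q.g.1 1 k = q.g.1 0 k * q.g.1 1 j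

instance (q : Mo) : Decidable (rk1 q) := by unfold rk1; infer_instance

section

variable {G : Type*} [Group G] {Q : Subgroup G} {z : G}

theorem mem_cS {B : Set G} {q : G} :
    q ∈ cS Q z B ↔ q ∈ Q ∧ ∀ b ∈ B, q * b * q⁻¹ * b⁻¹ = 1 ∨ q * b * q⁻¹ * b⁻¹ = z := Iff.rfl

theorem cS_anti {B C : Set G} (h : B ⊆ C) : cS Q z C ⊆ cS Q z B := fun _ hq => ⟨hq.1, fun b hb => hq.2 b (h hb)⟩

theorem cS_map {H : Type*} [Group H] {f : G →* H} (hf : Function.Injective f) (B : Set G) :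
    cS (Q.map f) (f z) (f '' B) = f '' cS Q z B := by
  have k : ∀ q b : G, (f q * f b * (f q)⁻¹ * (f b)⁻¹ = 1 ∨ f q * f b * (f q)⁻¹ * (f b)⁻¹ = f z) ↔
      (q * b * q⁻¹ * b⁻¹ = 1 ∨ q * b * q⁻¹ * b⁻¹ = z) := fun q b => by
    rw [← map_inv, ← map_inv, ← map_mul, ← map_mul, ← map_mul, ← map_one f, hf.eq_iff, hf.eq_iff]
  ext x
  refine ⟨fun ⟨⟨q, hq, e⟩, h⟩ => ⟨q, ⟨hq, fun b hb => (k q b).1 (e ▸ h _ ⟨b, hb, rfl⟩)⟩, e⟩, ?_⟩
  rintro ⟨q, hq, rfl⟩
  exact ⟨⟨q, hq.1, rfl⟩, by rintro _ ⟨b, hb, rfl⟩; exact (k q b).2 (hq.2 b hb)⟩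

theorem ncard_cS_map {H : Type*} [Group H] {f : G →* H} (hf : Function.Injective f) (B : Set G) :
    (cS (Q.map f) (f z) (f '' B)).ncard = (cS Q z B).ncard := by
  rw [cS_map hf, Set.ncard_image_of_injective _ hf]

/-- restriction of the coordinates to a subgroup -/
def Fr.res (m : Fr G) (K : Subgroup G) (h : m.N ≤ K) : Fr K where
  φ := m.φ.codRestrict K fun x => h ⟨x, rfl⟩
  inj := fun _ _ e => m.inj (congrArg Subtype.val e)
  range := by
    have e : A0.map (m.φ.codRestrict K fun x => h ⟨x, rfl⟩) = m.A.subgroupOf K := by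
      ext x
      exact ⟨fun ⟨a, ha, e⟩ => ⟨a, ha, congrArg Subtype.val e⟩, fun ⟨a, ha, e⟩ => ⟨a, ha, Subtype.ext e⟩⟩
    rw [e, ← subgroupOf_normalizer_eq (Fr.im_le_N.trans h), ← m.range]
    ext x
    exact ⟨fun ⟨a, e⟩ => ⟨a, congrArg Subtype.val e⟩, fun ⟨a, e⟩ => ⟨a, Subtype.ext e⟩⟩

theorem Fr.res_φ (m : Fr G) (K : Subgroup G) (h : m.N ≤ K) (x : Mo) : ((m.res K h).φ x : G) = m.φ x := rfl

theorem Fr.mem_res_im {m : Fr G} {K : Subgroup G} {h : m.N ≤ K} {L : Subgroup Mo} {x : K} :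
    x ∈ (m.res K h).im L ↔ (x : G) ∈ m.im L :=
  ⟨fun ⟨a, ha, e⟩ => ⟨a, ha, congrArg Subtype.val e⟩, fun ⟨a, ha, e⟩ => ⟨a, ha, Subtype.ext e⟩⟩

/-- `N(V) / V` -/
abbrev XQ (V : Subgroup G) : Type _ := normalizer (V : Set G) ⧸ V.subgroupOf (normalizer (V : Set G))

/-- `A` is weakly closed in `T` -/
def Fr.WC (m : Fr G) : Prop := ∀ g, cj g m.A ≤ m.T → cj g m.A = m.A

/-- the hypothesis on the core -/
abbrev Fr.HO (m : Fr G) : Prop := pPrimeCore 2 m.H = ⊥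

end

end CfsgLib.L5R
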