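import Mathlib
import Cfsg.Agent.Lib.L5R.Defs2
import Cfsg.Agent.Lib.ClAut.MainO
import Cfsg.Agent.Lib.OrthE.OrderP

/-!
# extensions of `Ω⁺(10, 2)` (plans/L5R.md)
-/

set_option autoImplicit false
set_option maxHeartbeats 400000
set_option Elab.async false

namespace CfsgLib.L5R

open Subgroup Cfsg CfsgLib.Tech CfsgLib.Held CfsgLib.MOrb CfsgLib.L72 CfsgLib.LargeExtra CfsgLib.ExtraTwo

namespace Aut

open CfsgLib.ClAut

variable {ι : Type} [Fintype ι] [DecidableEq ι] {Q : QuadraticForm (ZMod 2) (ι → ZMod 2)}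
  {q : (ι → ZMod 2) → ZMod 2}

theorem center_eq (hq : ∀ x, q x = Q x) (hQ : OrthE.Nondeg Q) (h5 : 5 ≤ Fintype.card ι)
    {z : Omega (ZMod 2) q} (hz : z ∈ center (Omega (ZMod 2) q)) : z = 1 := by
  obtain ⟨c, e⟩ := (pomInd_eq_one_iff hq hQ h5 ⟨SemidirectProduct.inl (omTau q z),
    inl_mem_gamO.2 (isometryGroup_le_sim z.1.2)⟩).1 (qaut_ext fun s => gamInd_mk _ (by
      rw [gamAut_inl, MulAut.conj_apply, ← map_mul, ← map_inv, ← map_mul, ← mem_center_iff.1 hz s,
        mul_inv_cancel_right]))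
  rw [Subsingleton.elim c 1, map_one] at e
  exact omTau_injective ((SemidirectProduct.inl_injective (e.trans (map_one _).symm)).trans (map_one _).symm)

theorem conj_surj (hq : ∀ x, q x = Q x) (hQ : OrthE.Nondeg Q) (h5 : 5 ≤ Fintype.card ι)
    (hs : Function.Surjective (pomInd q)) :
    Function.Surjective (MulAut.conjNormal : isometryGroup (ZMod 2) q →* MulAut (Omega (ZMod 2) q)) := fun β => by
  obtain ⟨x, e⟩ := hs (qEquiv β)
  have h1 : x.1.right = 1 := RingEquiv.ext fun a => by
    rcases (by decide : ∀ a : ZMod 2, a = 0 ∨ a = 1) a with rfl | rfl <;> simp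
  obtain ⟨c, hc⟩ := mem_gamO.1 x.2
  have m : x.1.left ∈ isometryGroup (ZMod 2) q := mem_isometryGroup_iff.2 fun v => by
    simpa [h1, Subsingleton.elim c 1] using hc v
  refine ⟨⟨_, m⟩, MulEquiv.ext fun s => ?_⟩
  have k : pomInd q x (QuotientGroup.mk s) = QuotientGroup.mk (MulAut.conjNormal (⟨_, m⟩ :
      isometryGroup (ZMod 2) q) s) := gamInd_mk _ (by rw [gamAut_apply, h1, map_one]; rfl)
  rw [e, qEquiv_mk, QuotientGroup.eq] at k
  exact (inv_mul_eq_one.1 (center_eq hq hQ h5 k)).symm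

/-- a proper extension inside the automorphism group of a subgroup of index 2 -/
theorem ext_iso {G O : Type*} [Group G] [Finite G] [Group O] [Finite O] (K : Subgroup G) [K.Normal]
    (L : Subgroup O) [L.Normal] (e : K ≃* L) (hC : centralizer (K : Set G) = ⊥) (hK : K ≠ ⊤) (hL : L.index = 2)
    (hs : Function.Surjective (MulAut.conjNormal : O →* MulAut L)) : Nonempty (G ≃* O) := by
  have inj : Function.Injective ((MulAut.congr e).toMonoidHom.comp (MulAut.conjNormal : G →* MulAut K)) :=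
    (MulAut.congr e).injective.comp ((injective_iff_map_eq_one _).2 fun g hg => hC.le fun k hk => by
      have := congrArg (fun β : MulAut K => (β ⟨k, hk⟩ : G)) hg
      exact (mul_inv_eq_iff_eq_mul.1 this).symm)
  have c1 := Nat.card_le_card_of_injective _ inj
  have c2 := Nat.card_le_card_of_surjective _ hs
  have c3 := K.card_mul_index
  have c4 := L.card_mul_index
  have c5 : 2 ≤ K.index := by
    have := K.index_ne_zero_of_finite
    have := K.index_eq_one.not.2 hK
    omega
  have c6 := Nat.mul_le_mul_left (Nat.card K) c5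
  rw [hL, ← Nat.card_congr e.toEquiv] at c4
  exact ⟨(MulEquiv.ofBijective _ (inj.bijective_of_nat_card_le (by omega))).trans
    (MulEquiv.ofBijective _ (hs.bijective_of_nat_card_le (by omega))).symm⟩

end Aut

theorem aut_om {G : Type*} [Group G] [Finite G] (K : Subgroup G) [K.Normal] (e : K ≃* Om10)
    (hC : centralizer (K : Set G) = ⊥) (hK : K ≠ ⊤) : Nonempty (G ≃* O10) :=
  Aut.ext_iso K _ e hC hK ((OrthE.index_commutator_equiv (OrthE.matEquiv _ _ (OrthE.qPlus_eq 5))).trans
    (OrthE.index_commutator_O_of_charTwo (OrthE.nondeg_qPlus 5) rfl (by simp)))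
    (Aut.conj_surj (OrthE.qPlus_eq 5) (OrthE.nondeg_qPlus 5) (by simp) (ClAut.pomInd_surjective_plus le_rfl))

end CfsgLib.L5R
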