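import Mathlib
import Cfsg.Agent.Lib.L5R.Defs2

/-!
# orders and generators of the pattern subgroups (plans/L5R.md)
-/

set_option autoImplicit false
set_option maxHeartbeats 400000
set_option Elab.async false

namespace CfsgLib.L5R

open Subgroup Cfsg CfsgLib.Tech CfsgLib.Held CfsgLib.MOrb CfsgLib.L72 CfsgLib.LargeExtra CfsgLib.ExtraTwo

namespace Bas1

theorem exists_g {P : Pt} (h : okG P) (hP : ∀ i j : Fin 5, j ≤ i → P i j) (f : Fin 5 → Fin 5 → ZMod 2) :
    ∃ g ∈ patG P h, ∀ i j, P i j = false → g.1 i j = f i j := by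
  let M : Mat := Matrix.of fun i j => if P i j then (1 : Mat) i j else f i j
  have hd : M.det = 1 := by
    rw [Matrix.det_of_isUpperTriangular]
    · refine Finset.prod_eq_one fun i _ => ?_
      simp [M, hP i i le_rfl]
    · intro i j hij
      have hij' : j < i := hij
      simp [M, hP i j hij'.le, Matrix.one_apply_ne hij'.ne']
  refine ⟨Matrix.GeneralLinearGroup.mkOfDetNeZero M (by rw [hd]; exact one_ne_zero), fun i j hp => ?_, fun i j hp => ?_⟩
  · change M i j = _
    simp [M, hp]
  · change M i j = _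
    simp [M, hp]

theorem card_patG {P : Pt} (h : okG P) (hP : ∀ i j : Fin 5, j ≤ i → P i j) :
    Nat.card (patG P h) = 2 ^ (Finset.univ.filter fun p : Fin 5 × Fin 5 => P p.1 p.2 = false).card := by
  let f : patG P h → ({p : Fin 5 × Fin 5 // P p.1 p.2 = false} → ZMod 2) := fun g p => g.1.1 p.1.1 p.1.2
  have hf : Function.Bijective f := by
    refine ⟨fun a b e => Subtype.ext (Units.ext (Matrix.ext fun i j => ?_)), fun y => ?_⟩
    · cases hp : P i j
      · exact congrFun e ⟨(i, j), hp⟩
      · exact (a.2 i j hp).trans (b.2 i j hp).symm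
    · obtain ⟨g, hg, e⟩ := exists_g h hP fun i j => if hp : P i j = false then y ⟨(i, j), hp⟩ else 0
      exact ⟨⟨g, hg⟩, funext fun p => (e _ _ p.2).trans (dif_pos p.2)⟩
  rw [Nat.card_eq_of_bijective f hf, Nat.card_fun, Nat.card_zmod, Nat.card_eq_fintype_card, Fintype.card_subtype]

theorem card_X (R : Pt) : Nat.card {X : Alt // ∀ i j, R i j → X.1 i j = 0} =
    2 ^ (Finset.univ.filter fun p : Fin 5 × Fin 5 => p.1 < p.2 ∧ R p.1 p.2 = false ∧ R p.2 p.1 = false).card := by
  let f : {X : Alt // ∀ i j, R i j → X.1 i j = 0} →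
      ({p : Fin 5 × Fin 5 // p.1 < p.2 ∧ R p.1 p.2 = false ∧ R p.2 p.1 = false} → ZMod 2) := fun X p => X.1.1 p.1.1 p.1.2
  have hf : Function.Bijective f := by
    refine ⟨fun a b e => ?_, fun y => ?_⟩
    · have k : ∀ i j : Fin 5, i < j → a.1.1 i j = b.1.1 i j := fun i j hij => by
        cases h1 : R i j
        · cases h2 : R j i
          · exact congrFun e ⟨(i, j), hij, h1, h2⟩
          · rw [a.1.2.1, b.1.2.1 i j, a.2 j i h2, b.2 j i h2]
        · rw [a.2 i j h1, b.2 i j h1]
      refine Subtype.ext (Subtype.ext (Matrix.ext fun i j => ?_))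
      rcases lt_trichotomy i j with h1 | rfl | h1
      · exact k i j h1
      · rw [a.1.2.2, b.1.2.2]
      · rw [a.1.2.1, b.1.2.1 i j, k j i h1]
    · let u : Fin 5 → Fin 5 → ZMod 2 := fun i j =>
        if hp : i < j ∧ R i j = false ∧ R j i = false then y ⟨(i, j), hp⟩ else 0
      refine ⟨⟨⟨Matrix.of fun i j => u i j + u j i, fun i j => add_comm _ _, fun i => CharTwo.add_self_eq_zero _⟩,
        fun i j hr => ?_⟩, funext fun p => ?_⟩
      · change u i j + u j i = 0
        simp [u, hr]
      · change u p.1.1 p.1.2 + u p.1.2 p.1.1 = y p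
        have h1 : u p.1.1 p.1.2 = y p := dif_pos p.2
        have h2 : u p.1.2 p.1.1 = 0 := dif_neg fun hp => absurd hp.1 (not_lt.2 p.2.1.le)
        rw [h1, h2, add_zero]
  rw [Nat.card_eq_of_bijective f hf, Nat.card_fun, Nat.card_zmod, Nat.card_eq_fintype_card, Fintype.card_subtype]

theorem card_pat_mul {P R : Pt} (h : okG P) (h' : okX P R) :
    Nat.card (pat P R h h') = Nat.card {X : Alt // ∀ i j, R i j → X.1 i j = 0} * Nat.card (patG P h) := by
  rw [← Nat.card_prod]
  exact Nat.card_congr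
    { toFun := fun m => (⟨m.1.x, m.2.2⟩, ⟨m.1.g, m.2.1⟩)
      invFun := fun p => ⟨⟨p.1.1, p.2.1⟩, p.2.2, p.1.2⟩
      left_inv := fun _ => rfl
      right_inv := fun _ => rfl }

theorem card_pat {P R : Pt} {h : okG P} {h' : okX P R} {k : ℕ} (hP : ∀ i j : Fin 5, j ≤ i → P i j)
    (hk : (Finset.univ.filter fun p : Fin 5 × Fin 5 => p.1 < p.2 ∧ R p.1 p.2 = false ∧ R p.2 p.1 = false).card +
      (Finset.univ.filter fun p : Fin 5 × Fin 5 => P p.1 p.2 = false).card = k) :
    Nat.card (pat P R h h') = 2 ^ k := by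
  rw [card_pat_mul, card_X, card_patG h hP, ← pow_add, hk]

theorem mul_E_same (g : GN 5) {i j : Fin 5} (hij : i ≠ j) (a : Fin 5) : (g * E i j).1 a j = g.1 a j + g.1 a i := by
  rw [Units.val_mul, coe_E, eM_eq hij, Matrix.mul_transvection_apply_same, one_mul]

theorem mul_E_ne (g : GN 5) {i j b : Fin 5} (hij : i ≠ j) (a : Fin 5) (hb : b ≠ j) : (g * E i j).1 a b = g.1 a b := by
  rw [Units.val_mul, coe_E, eM_eq hij, Matrix.mul_transvection_apply_of_ne _ _ _ _ hb]

theorem E_mul_same (g : GN 5) {i j : Fin 5} (hij : i ≠ j) (b : Fin 5) : (E i j * g).1 i b = g.1 i b + g.1 j b := by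
  rw [Units.val_mul, coe_E, eM_eq hij, Matrix.transvection_mul_apply_same, one_mul]

theorem E_mul_ne (g : GN 5) {i j a : Fin 5} (hij : i ≠ j) (b : Fin 5) (ha : a ≠ i) : (E i j * g).1 a b = g.1 a b := by
  rw [Units.val_mul, coe_E, eM_eq hij, Matrix.transvection_mul_apply_of_ne _ _ _ _ ha]

theorem E_mem {P : Pt} {h : okG P} {i j : Fin 5} (hp : P i j = false) : E i j ∈ patG P h := fun a b hab => by
  rw [coe_E, eM, Matrix.of_apply, Matrix.one_apply]
  by_cases e : a = b
  · rw [if_pos e, if_pos e]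
  · rw [if_neg e, if_neg e, if_neg]
    rintro ⟨rfl, rfl⟩
    simp [hp] at hab

theorem eq_one_of_ne {a : ZMod 2} (h : a ≠ 0) : a = 1 := by revert a; decide

theorem wd_apply (i j a b : Fin 5) :
    (wd i j).1 a b = if a ≠ b ∧ ((a = i ∧ b = j) ∨ (a = j ∧ b = i)) then 1 else 0 := rfl

/-- the module part is generated by the `t i j` -/
theorem th_mem {K : Subgroup Mo} (X : Alt) (ht : ∀ i j : Fin 5, i < j → X.1 i j ≠ 0 → t i j ∈ K) : th X ∈ K := by
  have key : ∀ d : ℕ, ∀ X : Alt, (∀ i j : Fin 5, i < j → X.1 i j ≠ 0 → t i j ∈ K) →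
      (∀ a b : Fin 5, a < b → d ≤ 5 * a.val + b.val → X.1 a b = 0) → th X ∈ K := by
    intro d
    induction d with
    | zero =>
      intro X _ h0
      have : X = 0 := Subtype.ext (Matrix.ext fun a b => by
        rcases lt_trichotomy a b with h1 | rfl | h1
        · exact h0 a b h1 (Nat.zero_le _)
        · exact X.2.2 a
        · exact (X.2.1 a b).trans (h0 b a h1 (Nat.zero_le _)))
      rw [this, th_zero]; exact one_mem K
    | succ d ih =>
      intro X ht h0
      by_cases e : ∃ i j : Fin 5, i < j ∧ 5 * i.val + j.val = d ∧ X.1 i j ≠ 0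
      · obtain ⟨i, j, hij, hd, hne⟩ := e
        have k : ∀ a b : Fin 5, a < b → (X + wd i j).1 a b = if a = i ∧ b = j then 0 else X.1 a b := fun a b hab => by
          change X.1 a b + (wd i j).1 a b = _
          rw [wd_apply]
          by_cases e : a = i ∧ b = j
          · rw [if_pos e, if_pos ⟨hab.ne, Or.inl e⟩, e.1, e.2, eq_one_of_ne hne]; rfl
          · rw [if_neg e, if_neg, add_zero]
            rintro ⟨-, e' | ⟨rfl, rfl⟩⟩
            exacts [e e', lt_asymm hij hab]
        have h1 := ih (X + wd i j) (fun a b hab hn => ht a b hab fun h2 => hn (by rw [k a b hab, h2, ite_self]))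
          fun a b hab hd' => by
            rw [k a b hab]
            split_ifs with e
            · rfl
            · exact h0 a b hab (by
                have : ¬ (a.val = i.val ∧ b.val = j.val) := fun h => e ⟨Fin.ext h.1, Fin.ext h.2⟩
                omega)
        rw [th_add] at h1
        exact (K.mul_mem_cancel_right (ht i j hij hne)).1 h1
      · exact ih X ht fun a b hab hd => by
          rcases hd.eq_or_lt with e' | e'
          · by_contra hne; exact e ⟨a, b, hab, e'.symm, hne⟩
          · exact h0 a b hab e'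
  exact key 25 X ht fun a b _ hd => by omega

theorem syl_of_card {G : Type*} [Group G] [Finite G] {T : Subgroup G} {k m : ℕ} (hT : Nat.card T = 2 ^ k)
    (hG : Nat.card G = 2 ^ k * m) (hm : ¬ 2 ∣ m) : IsSylowIn 2 T ⊤ := by
  refine ⟨le_top, IsPGroup.of_card hT, ?_⟩
  have := T.card_mul_index
  rw [hT, hG] at this
  rwa [relIndex_top_right, Nat.eq_of_mul_eq_mul_left (by positivity) this]

theorem te_mem : ∀ i : Fin 5, i ≠ 4 → t i 4 * e i 4 ∈ A2 := by decide +kernel

end Bas1

open Bas1

theorem card_Alt : Nat.card Alt = 2 ^ 10 := by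
  have := card_X pN
  rw [Nat.card_congr (Equiv.subtypeUnivEquiv fun X i j h => absurd h (by simp [pN]))] at this
  rw [this]
  exact congrArg _ (by decide +kernel)

theorem card_Mo : Nat.card Mo = 2 ^ 20 * 9765 := by
  have : Nat.card Mo = Nat.card (Alt × GN 5) := Nat.card_congr
    { toFun := fun m => (m.x, m.g)
      invFun := fun p => ⟨p.1, p.2⟩
      left_inv := fun _ => rfl
      right_inv := fun _ => rfl }
  rw [this, Nat.card_prod, card_Alt, card_GN5]; norm_num

theorem card_A0 : Nat.card A0 = 2 ^ 10 :=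
  card_pat (by decide) (by decide +kernel)

theorem card_T0 : Nat.card T0 = 2 ^ 20 :=
  card_pat (by decide) (by decide +kernel)

theorem card_Tz : Nat.card Tz = 2 ^ 19 :=
  card_pat (by decide) (by decide +kernel)

theorem card_Q0 : Nat.card Q0 = 2 ^ 13 :=
  card_pat (by decide) (by decide +kernel)

theorem card_W7 : Nat.card W7 = 2 ^ 7 :=
  card_pat (by decide) (by decide +kernel)

theorem card_R0 : Nat.card R0 = 2 ^ 14 :=
  card_pat (by decide) (by decide +kernel)

theorem card_Z0 : Nat.card Z0 = 2 ^ 6 :=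
  card_pat (by decide) (by decide +kernel)

theorem card_A1 : Nat.card A1 = 2 ^ 10 :=
  card_pat (by decide) (by decide +kernel)

theorem card_A2 : Nat.card A2 = 2 ^ 10 := by
  rw [← card_Alt]
  refine Nat.card_eq_of_bijective (fun m : A2 => m.1.x) ⟨fun a b e => Subtype.ext (Mo.ext e (Units.ext (Matrix.ext fun i j => ?_))),
    fun X => ?_⟩
  · cases hp : pE4 i j
    · obtain ⟨hi, rfl⟩ : i ≠ 4 ∧ j = 4 := by revert i j; decide
      rw [← a.2.2 i hi, ← b.2.2 i hi]
      exact congrArg (fun X : Alt => X.1 i 4) e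
    · exact (a.2.1.1 i j hp).trans (b.2.1.1 i j hp).symm
  · obtain ⟨g, hg, e⟩ := exists_g (P := pE4) (by decide) (by decide) X.1
    exact ⟨⟨⟨X, g⟩, ⟨hg, fun i j h => absurd h (by simp [pN])⟩, fun i hi => (e i 4 (by revert i; decide)).symm⟩, rfl⟩

theorem card_F0 : Nat.card F0 = 2 ^ 17 :=
  card_pat (by decide) (by decide +kernel)

theorem card_D0 : Nat.card D0 = 2 ^ 15 :=
  card_pat (by decide) (by decide +kernel)

theorem card_Z3 : Nat.card Z3 = 2 ^ 3 :=
  card_pat (by decide) (by decide +kernel)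

theorem card_V2 : Nat.card V2 = 2 ^ 2 :=
  card_pat (by decide) (by decide +kernel)

theorem card_Uw : Nat.card Uw = 2 ^ 7 :=
  card_pat (by decide) (by decide +kernel)

theorem card_D2 : Nat.card D2 = 2 ^ 17 :=
  card_pat (by decide) (by decide +kernel)

theorem card_T2 : Nat.card T2 = 2 ^ 19 :=
  card_pat (by decide) (by decide +kernel)

theorem card_S16 : Nat.card S16 = 2 ^ 17 :=
  card_pat (by decide) (by decide +kernel)

theorem card_U5 : Nat.card U5 = 2 ^ 10 :=
  (card_patG _ (by decide)).trans (congrArg _ (by decide +kernel))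

theorem card_E4 : Nat.card E4 = 2 ^ 4 :=
  (card_patG _ (by decide)).trans (congrArg _ (by decide +kernel))

theorem syl_T0 : IsSylowIn 2 T0 ⊤ :=
  syl_of_card card_T0 card_Mo (by norm_num)

theorem syl_U5 : IsSylowIn 2 U5 ⊤ :=
  syl_of_card (m := 9765) card_U5 (by rw [card_GN5]; norm_num) (by norm_num)

theorem mem_A0 {x : Mo} : x ∈ A0 ↔ x.g = 1 :=
  ⟨fun h => Units.ext (Matrix.ext fun i j => h.1 i j rfl), fun h => ⟨fun i j _ => by rw [h]; rfl, fun i j h => absurd h (by simp [pN])⟩⟩

theorem mem_T0 {x : Mo} : x ∈ T0 ↔ x.g ∈ U5 :=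
  ⟨fun h => h.1, fun h => ⟨h, fun i j h => absurd h (by simp [pN])⟩⟩

theorem gen_upG {P : Pt} {h : okG P} (hP : ∀ i j : Fin 5, j ≤ i → P i j) {K : Subgroup (GN 5)}
    (he : ∀ i j : Fin 5, i < j → E i j ∈ patG P h → E i j ∈ K) : patG P h ≤ K := by
  have key : ∀ d : ℕ, ∀ g ∈ patG P h, (∀ a b : Fin 5, a ≠ b → d ≤ 5 * a.val + b.val → g.1 a b = 0) → g ∈ K := by
    intro d
    induction d with
    | zero =>
      intro g hg h0
      have : g = 1 := Units.ext (Matrix.ext fun a b => by
        by_cases e : a = b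
        · exact hg a b (hP a b e.ge)
        · rw [h0 a b e (Nat.zero_le _)]; exact (Matrix.one_apply_ne e).symm)
      exact this ▸ one_mem K
    | succ d ih =>
      intro g hg h0
      by_cases e : ∃ i j : Fin 5, i ≠ j ∧ 5 * i.val + j.val = d ∧ g.1 i j ≠ 0
      · obtain ⟨i, j, hij, hd, hne⟩ := e
        have hp : P i j = false := by
          by_contra hp; exact hne ((hg i j (by simpa using hp)).trans (Matrix.one_apply_ne hij))
        have hlt : i < j := by
          by_contra hl; have := hP i j (not_lt.1 hl); simp [hp] at this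
        have h1 := ih (g * E i j) (mul_mem hg (E_mem hp)) fun a b hab hd' => by
          by_cases hb : b = j
          · subst hb
            rw [mul_E_same g hij]
            by_cases ha : a = i
            · rw [ha, eq_one_of_ne hne, hg i i (hP i i le_rfl), Matrix.one_apply_eq]; rfl
            · have ha' : a.val ≠ i.val := fun h => ha (Fin.ext h)
              rw [h0 a b hab (by omega), hg a i (hP a i (show i.val ≤ a.val by omega)), Matrix.one_apply_ne ha, add_zero]
          · have hb' : b.val ≠ j.val := fun h => hb (Fin.ext h)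
            rw [mul_E_ne g hij a hb]
            exact h0 a b hab (by omega)
        exact (K.mul_mem_cancel_right (he i j hlt (E_mem hp))).1 h1
      · exact ih g hg fun a b hab hd => by
          rcases hd.eq_or_lt with e' | e'
          · by_contra hne; exact e ⟨a, b, hab, e'.symm, hne⟩
          · exact h0 a b hab e'
  exact fun g hg => key 25 g hg fun a b _ hd => by omega

/-- unitriangular pattern subgroups are generated by their root elements -/
theorem gen_up {P R : Pt} {h : okG P} {h' : okX P R} (hP : ∀ i j : Fin 5, j ≤ i → P i j) {K : Subgroup Mo}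
    (ht : ∀ i j : Fin 5, i < j → t i j ∈ pat P R h h' → t i j ∈ K)
    (he : ∀ i j : Fin 5, i < j → e i j ∈ pat P R h h' → e i j ∈ K) : pat P R h h' ≤ K := by
  intro x hx
  rw [← th_mul_io0 x]
  refine mul_mem (th_mem _ fun i j hij hne => ht i j hij ⟨fun _ _ _ => rfl, fun a b hr => ?_⟩) ?_
  · change (wd i j).1 a b = 0
    rw [wd_apply, if_neg]
    rintro ⟨-, ⟨rfl, rfl⟩ | ⟨rfl, rfl⟩⟩
    · exact hne (hx.2 _ _ hr)
    · exact hne ((x.x.2.1 _ _).trans (hx.2 _ _ hr))
  · exact gen_upG (h := h) (K := K.comap io0) hP (fun i j hij hE => he i j hij ⟨hE, fun _ _ _ => rfl⟩) hx.1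

theorem gen_A2 {K : Subgroup Mo} (hZ : Z0 ≤ K) (h : ∀ i : Fin 5, i ≠ 4 → t i 4 * e i 4 ∈ K) : A2 ≤ K := by
  have key : ∀ d : ℕ, ∀ x ∈ A2, (∀ a : Fin 5, a ≠ 4 → d ≤ a.val → x.g.1 a 4 = 0) → x ∈ K := by
    intro d
    induction d with
    | zero =>
      intro x hx h0
      refine hZ ⟨fun i j _ => ?_, fun i j hr => ?_⟩
      · cases hp : pE4 i j
        · obtain ⟨hi, rfl⟩ : i ≠ 4 ∧ j = 4 := by revert i j; decide
          rw [h0 i hi (Nat.zero_le _), Matrix.one_apply_ne hi]
        · exact hx.1.1 i j hp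
      · obtain rfl : j = 4 := by revert i j; decide
        by_cases hi : i = 4
        · rw [hi]; exact x.x.2.2 4
        · rw [hx.2 i hi, h0 i hi (Nat.zero_le _)]
    | succ d ih =>
      intro x hx h0
      by_cases e : ∃ i : Fin 5, i ≠ 4 ∧ i.val = d ∧ x.g.1 i 4 ≠ 0
      · obtain ⟨i, hi, hd, hne⟩ := e
        have h1 := ih (x * (t i 4 * L5R.e i 4)) (mul_mem hx (te_mem i hi)) fun a ha hd' => by
          have e1 : (x * (t i 4 * L5R.e i 4)).g = x.g * E i 4 := by rw [mul_g, mul_g]; exact congrArg _ (one_mul _)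
          rw [e1, mul_E_same _ hi, hx.1.1 a i (by clear h0 hne e1 hd hd'; revert a i; decide)]
          by_cases hai : a = i
          · rw [hai, eq_one_of_ne hne, Matrix.one_apply_eq]; rfl
          · have ha' : a.val ≠ i.val := fun h => hai (Fin.ext h)
            rw [h0 a ha (by omega), Matrix.one_apply_ne hai, add_zero]
        exact (K.mul_mem_cancel_right (h i hi)).1 h1
      · exact ih x hx fun a ha hd => by
          rcases hd.eq_or_lt with e' | e'
          · by_contra hne; exact e ⟨a, ha, e'.symm, hne⟩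
          · exact h0 a ha e'
  exact fun x hx => key 5 x hx fun a _ hd => by omega


end CfsgLib.L5R
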