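import Mathlib
import Cfsg.Agent.Lib.L5R.Bas1
import Cfsg.Agent.Lib.GLFlag.Bruhat

/-!
# generators of the parabolic subgroups (plans/L5R.md)
-/

set_option autoImplicit false
set_option maxHeartbeats 400000
set_option Elab.async false

namespace CfsgLib.L5R

open Subgroup Cfsg CfsgLib.Tech CfsgLib.Held CfsgLib.MOrb CfsgLib.L72 CfsgLib.LargeExtra CfsgLib.ExtraTwo

open Bas1

namespace Bas1b

open CfsgLib.GLFlag

theorem tri_U5 {g : GN 5} (h : ∀ i j : Fin 5, j < i → g.1 i j = 0) : g ∈ U5 := fun i j hp => by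
  have hd := Matrix.GeneralLinearGroup.det_ne_zero g
  rw [Matrix.det_of_isUpperTriangular (fun i j hij => h i j hij), Finset.prod_ne_zero_iff] at hd
  rcases (show j ≤ i by revert i j; decide).eq_or_lt with rfl | e
  · rw [eq_one_of_ne (hd j (Finset.mem_univ _)), Matrix.one_apply_eq]
  · rw [h i j e, Matrix.one_apply_ne e.ne']

/-- permutation matrices -/
abbrev pm (w : Equiv.Perm (Fin 5)) : GN 5 := pmat (ZMod 2) w

/-- the Bruhat decomposition -/
theorem bru (g : GN 5) : ∃ w : Equiv.Perm (Fin 5), ∃ b ∈ U5, ∃ b' ∈ U5, pm w = b * g * b' := by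
  obtain ⟨w, b, hb, b', hb', e⟩ := bruhat g
  exact ⟨w, b⁻¹, inv_mem (tri_U5 (mem_Par.1 hb)), b'⁻¹, inv_mem (tri_U5 (mem_Par.1 hb')), by rw [e]; group⟩

theorem pm_swap {i j : Fin 5} (h : i ≠ j) : pm (Equiv.swap i j) = sw i j :=
  Units.ext (Matrix.ext fun a b => by
    rw [pmat_apply]
    exact of_decide_eq_true (((by decide +kernel : ∀ i j a b : Fin 5, i = j ∨
      decide ((if a = Equiv.swap i j b then 1 else 0 : ZMod 2) = (sw i j).1 a b) = true) i j a b).resolve_left h))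

theorem pm_conj (w : Equiv.Perm (Fin 5)) {i j : Fin 5} (h : i ≠ j) : (pm w * E i j * (pm w)⁻¹).1 (w i) (w j) = 1 := by
  rw [mul_assoc, Units.val_mul, pmat_mul_apply, E_mul_same _ h, ← map_inv, pmat_apply, pmat_apply]
  simp [h]

theorem young {L : Subgroup (GN 5)} (a : Fin 5 → ℕ) (h : ∀ i j, a i = a j → E i j ∈ L) (w : Equiv.Perm (Fin 5))
    (hw : ∀ i, a (w i) = a i) : pm w ∈ L := by
  induction hn : w.support.card using Nat.strong_induction_on generalizing w with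
  | _ n ih =>
    by_cases e : ∃ x, w x ≠ x
    · obtain ⟨x, hx⟩ := e
      have h1 := ih _ (hn ▸ Equiv.Perm.card_support_swap_mul hx) (Equiv.swap x (w x) * w) (fun i => by
        rw [Equiv.Perm.mul_apply, Equiv.swap_apply_def]
        split_ifs with h1 h2
        · rw [hw, ← h1, hw]
        · rw [w.injective h2]
        · exact hw i) rfl
      rw [pm, map_mul] at h1
      refine (L.mul_mem_cancel_left ?_).1 h1
      rw [← pm, pm_swap hx.symm, sw]
      exact mul_mem (mul_mem (h _ _ (hw x).symm) (h _ _ (hw x))) (h _ _ (hw x).symm)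
    · rw [show w = 1 from Equiv.ext fun x => by_contra fun hx => e ⟨x, hx⟩, pm, map_one]
      exact one_mem L

theorem E_U5 {i j : Fin 5} (h : i ≤ j) : E i j ∈ U5 :=
  h.eq_or_lt.elim (fun e => by rw [e, E_self]; exact one_mem _) fun h => E_mem (by revert i j; decide)

theorem E_of_sw {L : Subgroup (GN 5)} {i j : Fin 5} (h1 : E i j ∈ L) (h : sw i j ∈ L) : E j i ∈ L :=
  (L.mul_mem_cancel_left h1).1 ((L.mul_mem_cancel_right h1).1 h)

theorem E_tr {L : Subgroup (GN 5)} {i j l : Fin 5} (h1 : E i j ∈ L) (h2 : E j l ∈ L) (hij : i ≠ j := by decide)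
    (hjl : j ≠ l := by decide) (hil : i ≠ l := by decide) : E i l ∈ L :=
  E_cmt hij hjl hil ▸ mul_mem (mul_mem (mul_mem h1 h2) h1) h2

/-- a parabolic subgroup is generated by its transvections -/
theorem gen_par {P : Pt} {h : okG P} {L : Subgroup (GN 5)} (a : Fin 5 → ℕ) (hU : U5 ≤ L) (hP : U5 ≤ patG P h)
    (hE : ∀ i j, j < i → a i = a j → E i j ∈ L)
    (ha : ∀ w : Equiv.Perm (Fin 5), (∀ j, P (w j) j → w j = j) → ∀ i, a (w i) = a i) : patG P h ≤ L := fun g hg => by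
  obtain ⟨w, b, hb, b', hb', e⟩ := bru g
  have h1 : pm w ∈ patG P h := e ▸ mul_mem (mul_mem (hP hb) hg) (hP hb')
  have h2 := young (L := L) a (fun i j e => (le_or_gt i j).elim (fun h => hU (E_U5 h)) fun h => hE i j h e) w
    (ha w fun j hp => by
      have := h1 _ _ hp
      rw [pmat_apply, if_pos rfl, Matrix.one_apply] at this
      by_contra hne
      rw [if_neg hne] at this
      exact one_ne_zero this)
  rw [e] at h2
  exact (L.mul_mem_cancel_left (hU hb)).1 ((L.mul_mem_cancel_right (hU hb')).1 h2)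

theorem th_A0 (X : Alt) : th X ∈ A0 := mem_A0.2 rfl

theorem A0_T0 : A0 ≤ T0 := pat_le (by decide) (by decide)

theorem U5_le {K : Subgroup Mo} (hT : T0 ≤ K) : U5 ≤ K.comap io0 := fun _ hg => hT (mem_T0.2 hg)

theorem mem_of {K : Subgroup Mo} (hA : A0 ≤ K) {x : Mo} (h : x.g ∈ K.comap io0) : x ∈ K :=
  th_mul_io0 x ▸ mul_mem (hA (th_A0 _)) h

theorem patG_le {P P' : Pt} {h : okG P} {k : okG P'} (hP : ∀ i j, P' i j → P i j) : patG P h ≤ patG P' k :=
  fun _ hg i j e => hg i j (hP i j e)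

theorem U5_P4 : U5 ≤ P4 := patG_le (by decide)
theorem E4_P4 : E4 ≤ P4 := patG_le (by decide)

theorem det4 {M : Mat} (h : ∀ j, M 4 j = (1 : Mat) 4 j) : M.det = (M.submatrix Fin.castSucc Fin.castSucc).det := by
  rw [Matrix.det_succ_row M (Fin.last 4), Finset.sum_eq_single (Fin.last 4)]
  · rw [Fin.succAbove_last, show M (Fin.last 4) (Fin.last 4) = 1 from h 4]
    simp
  · intro j _ hj
    rw [show M (Fin.last 4) j = 0 from (h j).trans (Matrix.one_apply_ne hj.symm), mul_zero, zero_mul]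
  · simp

theorem conj_E4 {g r : GN 5} (hg : g ∈ P4) (hr : r ∈ E4) : g * r * g⁻¹ ∈ E4 := fun i j hp => by
  by_cases hj : j = 4
  · exact (mul_mem (mul_mem hg (E4_P4 hr)) (inv_mem hg) : _ ∈ P4) i j (by revert i j; decide)
  · have h1 : ∀ k, (r * g⁻¹).1 k j = (g⁻¹).1 k j := fun k => by
      conv_rhs => rw [← Matrix.one_mul (g⁻¹).1]
      rw [Units.val_mul, Matrix.mul_apply, Matrix.mul_apply]
      refine Finset.sum_congr rfl fun l _ => ?_
      by_cases hl : l = 4
      · rw [(inv_mem hg : _ ∈ P4) l j (by rw [hl]; rfl), Matrix.one_apply_ne (hl ▸ Ne.symm hj), mul_zero, mul_zero]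
      · rw [hr k l (by revert k l; decide)]
    rw [mul_assoc, Units.val_mul, Matrix.mul_apply, ← g.mul_inv, Matrix.mul_apply]
    exact Finset.sum_congr rfl fun k _ => by rw [h1]

theorem mem_R0 {x : Mo} : x ∈ R0 ↔ x.g ∈ E4 := ⟨fun h => h.1, fun h => ⟨h, fun i j h => absurd h (by simp [pN])⟩⟩

theorem t_symm (i j : Fin 5) : t i j = t j i :=
  congrArg th (Subtype.ext (Matrix.ext fun a b => by rw [wd_apply, wd_apply]; exact if_congr (by tauto) rfl rfl))

theorem t_cmt {i j k : Fin 5} (h1 : i ≠ k) (h2 : k ≠ j) (h3 : i ≠ j) : e i k * t k j * (e i k * t k j) = t i j :=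
  (((cd_e h1).mul (cd_t h2)).mul ((cd_e h1).mul (cd_t h2))).eq_iff (cd_t h3) |>.2 (by revert i j k; decide +kernel)

theorem t_step {K : Subgroup Mo} {i j k : Fin 5} (h1 : i ≠ k) (h2 : k ≠ j) (h3 : i ≠ j)
    (he : e i k ∈ normalizer (K : Set Mo)) (ht : t k j ∈ K) : t i j ∈ K := by
  have := mul_mem (conj_mem_of_mem_normalizer he ht) ht
  rwa [e_inv, mul_assoc, t_cmt h1 h2 h3] at this

theorem t_all {K : Subgroup Mo} (S : Fin 5 → Prop) (he : ∀ i k, S i → e i k ∈ normalizer (K : Set Mo)) (h : z0 ∈ K)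
    {i j : Fin 5} (hi : S i) (hj : S j) (hij : i ≠ j) : t i j ∈ K := by
  have k : ∀ i, S i → i ≠ 1 → t i 1 ∈ K := fun i hi h1 => by
    by_cases h0 : i = 0
    · rw [h0]; exact h
    · exact t_step h0 (by decide) h1 (he _ _ hi) h
  by_cases h1 : j = 1
  · rw [h1]; exact k i hi (h1 ▸ hij)
  · by_cases h2 : i = 1
    · rw [h2, t_symm]; exact k j hj h1
    · exact t_step h2 (Ne.symm h1) hij (he _ _ hi) (t_symm j 1 ▸ k j hj h1)

theorem e_N1 : ∀ i k : Fin 5, i ≠ 4 → e i k ∈ N1 := by decide +kernel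

theorem Z0_of {x : Mo} (hx : x ∈ A2) (h0 : ∀ a : Fin 5, a ≠ 4 → x.g.1 a 4 = 0) : x ∈ Z0 := by
  refine ⟨fun i j _ => ?_, fun i j hr => ?_⟩
  · cases hp : pE4 i j
    · obtain ⟨hi, rfl⟩ : i ≠ 4 ∧ j = 4 := by revert i j; decide
      rw [h0 i hi, Matrix.one_apply_ne hi]
    · exact hx.1.1 i j hp
  · obtain rfl : j = 4 := by revert i j; decide
    by_cases hi : i = 4
    · rw [hi]; exact x.x.2.2 4
    · rw [hx.2 i hi, h0 i hi]

theorem R0_add {x y : Mo} (hx : x ∈ R0) (hy : y ∈ R0) {c : Fin 5} (hc : c ≠ 4) :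
    (x * y).g.1 c 4 = x.g.1 c 4 + y.g.1 c 4 := by
  have h1 : ∀ k : Fin 5, k ≠ 4 → x.g.1 c k = (1 : Mat) c k := fun k hk => hx.1 c k (by revert c k; decide)
  rw [mul_g, Units.val_mul, Matrix.mul_apply, Fin.sum_univ_five, h1 0 (by decide), h1 1 (by decide), h1 2 (by decide),
    h1 3 (by decide), hy.1 4 4 rfl]
  fin_cases c <;> simp [add_comm, Matrix.one_apply] at hc ⊢

theorem te_g : ∀ i c : Fin 5, c ≠ 4 → (t i 4 * e i 4).g.1 c 4 = if c = i then 1 else 0 := by decide +kernel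

theorem A2_step {K : Subgroup Mo} (hn : N1 ≤ normalizer (K : Set Mo)) (hZ : Z0 ≤ K) (h : K ≤ A2) {a : Mo} (ha : a ∈ K)
    {i j : Fin 5} (hi : i ≠ 4) (hj : j ≠ 4) (hij : i ≠ j) (h1 : a.g.1 j 4 = 1) : t i 4 * e i 4 ∈ K := by
  have h2 := conj_mem_of_mem_normalizer (hn (e_N1 i j hi)) ha
  have h3 := mul_mem h2 ha
  refine (K.mul_mem_cancel_left h3).1 (hZ (Z0_of (mul_mem (h h3) (te_mem i hi)) fun c hc => ?_))
  rw [R0_add (h h3).1 (te_mem i hi).1 hc, R0_add (h h2).1 (h ha).1 hc, te_g i c hc, e_inv]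
  change (E i j * a.g * E i j).1 c 4 + _ + _ = 0
  rw [mul_E_ne _ hij c hj.symm]
  by_cases e : c = i
  · rw [e, E_mul_same _ hij, h1, if_pos rfl]
    generalize a.g.1 i 4 = u
    revert u; decide
  · rw [E_mul_ne _ hij _ e, if_neg e, add_zero, CharTwo.add_self_eq_zero]

end Bas1b

open Bas1b CfsgLib.GLFlag

theorem gen_top {K : Subgroup Mo} (hT : T0 ≤ K) (h0 : n 0 1 ∈ K) (h1 : n 1 2 ∈ K) (h2 : n 2 3 ∈ K) (h3 : n 3 4 ∈ K) :
    K = ⊤ := by
  have hU := U5_le hT
  have a0 : E 1 0 ∈ K.comap io0 := E_of_sw (hU (E_U5 (by decide))) h0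
  have a1 : E 2 1 ∈ K.comap io0 := E_of_sw (hU (E_U5 (by decide))) h1
  have a2 : E 3 2 ∈ K.comap io0 := E_of_sw (hU (E_U5 (by decide))) h2
  have a3 : E 4 3 ∈ K.comap io0 := E_of_sw (hU (E_U5 (by decide))) h3
  have b : ∀ i j : Fin 5, j < i → E i j ∈ K.comap io0 := fun i j h => by
    fin_cases i <;> fin_cases j <;> first | exact absurd h (by decide) | skip
    exacts [a0, E_tr a1 a0, a1, E_tr (E_tr a2 a1) a0, E_tr a2 a1, a2, E_tr (E_tr (E_tr a3 a2) a1) a0,
      E_tr (E_tr a3 a2) a1, E_tr a3 a2, a3]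
  have := gen_GN (K.comap io0) fun i j => (le_or_gt i j).elim (fun h => hU (E_U5 h)) (b i j)
  exact eq_top_iff.2 fun x _ => mem_of (A0_T0.trans hT) (this ▸ mem_top _)

theorem gen_N1 {K : Subgroup Mo} (hT : T0 ≤ K) (h0 : n 0 1 ∈ K) (h1 : n 1 2 ∈ K) (h2 : n 2 3 ∈ K) : N1 ≤ K := by
  have hU := U5_le hT
  have a0 : E 1 0 ∈ K.comap io0 := E_of_sw (hU (E_U5 (by decide))) h0
  have a1 : E 2 1 ∈ K.comap io0 := E_of_sw (hU (E_U5 (by decide))) h1
  have a2 : E 3 2 ∈ K.comap io0 := E_of_sw (hU (E_U5 (by decide))) h2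
  refine fun x hx => mem_of (A0_T0.trans hT) (gen_par (P := pN1) (h := by decide) (fun i => i.val / 4) hU U5_P4
    (fun i j h h' => ?_) (by decide +kernel) hx.1)
  fin_cases i <;> fin_cases j <;> first | exact absurd h (by decide) | exact absurd h' (by decide) | skip
  exacts [a0, E_tr a1 a0, a1, E_tr (E_tr a2 a1) a0, E_tr a2 a1, a2]

theorem gen_H0 {K : Subgroup Mo} (hT : T0 ≤ K) (h0 : n 0 1 ∈ K) (h2 : n 2 3 ∈ K) (h3 : n 3 4 ∈ K) : H0 ≤ K := by
  have hU := U5_le hT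
  have a0 : E 1 0 ∈ K.comap io0 := E_of_sw (hU (E_U5 (by decide))) h0
  have a2 : E 3 2 ∈ K.comap io0 := E_of_sw (hU (E_U5 (by decide))) h2
  have a3 : E 4 3 ∈ K.comap io0 := E_of_sw (hU (E_U5 (by decide))) h3
  refine fun x hx => mem_of (A0_T0.trans hT) (gen_par (P := pH) (h := by decide) (fun i => (i.val + 1) / 3) hU
    (patG_le (by decide)) (fun i j h h' => ?_) (by decide +kernel) hx.1)
  fin_cases i <;> fin_cases j <;> first | exact absurd h (by decide) | exact absurd h' (by decide) | skip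
  exacts [a0, a2, E_tr a3 a2, a3]

theorem gen_Y0 {K : Subgroup Mo} (hT : F0 ≤ K) (h3 : n 3 4 ∈ K) : Y0 ≤ K := by
  have hA : A0 ≤ K := le_trans (pat_le (by decide) (by decide)) hT
  have a : E 3 4 ∈ K.comap io0 := hT (show e 3 4 ∈ F0 by decide +kernel)
  have b : E 4 3 ∈ K.comap io0 := E_of_sw a h3
  have k0 : ∀ g ∈ patG pY, g.1 4 3 = 0 → g ∈ K.comap io0 := fun g hg h0 => by
    have hU : g ∈ U5 := tri_U5 fun i j hij => by
      cases hp : pY i j
      · obtain ⟨rfl, rfl⟩ : i = 4 ∧ j = 3 := by revert i j; decide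
        exact h0
      · rw [hg i j hp, Matrix.one_apply_ne hij.ne']
    refine hT ⟨fun i j hp => ?_, fun i j h => absurd h (by simp [pN])⟩
    rcases (show pT i j ∨ pY i j by revert i j; decide) with h | h
    exacts [hU i j h, hg i j h]
  have k1 : ∀ g ∈ patG pY, g.1 4 3 = g.1 4 4 → g ∈ K.comap io0 := fun g hg h0 =>
    (Subgroup.mul_mem_cancel_right _ b).1 (k0 _ (mul_mem hg (E_mem rfl)) (by
      rw [mul_E_same _ (by decide), h0, CharTwo.add_self_eq_zero]))
  refine fun x hx => mem_of hA ?_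
  have hg : x.g ∈ patG pY := hx.1
  by_cases h0 : x.g.1 4 4 = 0
  · exact (Subgroup.mul_mem_cancel_right _ a).1 (k1 _ (mul_mem hg (E_mem rfl)) (by
      rw [mul_E_same _ (by decide), mul_E_ne _ (by decide) _ (by decide), h0, zero_add]))
  · by_cases h1 : x.g.1 4 3 = 0
    · exact k0 _ hg h1
    · exact k1 _ hg (by rw [eq_one_of_ne h0, eq_one_of_ne h1])

theorem card_P4 : Nat.card P4 = 2 ^ 10 * 315 := by
  have h4 : ∀ g : P4, ∀ j, g.1.1 4 j = (1 : Mat) 4 j := fun g j => g.2 4 j rfl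
  let f : P4 → GN 4 × (Fin 4 → ZMod 2) := fun g =>
    (Matrix.GeneralLinearGroup.mkOfDetNeZero (g.1.1.submatrix Fin.castSucc Fin.castSucc)
      (det4 (h4 g) ▸ Matrix.GeneralLinearGroup.det_ne_zero g.1), fun i => g.1.1 i.castSucc 4)
  have hf : Function.Bijective f := by
    refine ⟨fun a b e => Subtype.ext (Units.ext (Matrix.ext fun i j => ?_)), fun ⟨A, v⟩ => ?_⟩
    · induction i using Fin.lastCases with
      | last => exact (h4 a j).trans (h4 b j).symm
      | cast i =>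
        induction j using Fin.lastCases with
        | last => exact congrFun (congrArg Prod.snd e) i
        | cast j => exact congrArg (fun p : GN 4 × (Fin 4 → ZMod 2) => p.1.1 i j) e
    · let M : Mat := Matrix.of fun i j =>
        if hi : i.val < 4 then (if hj : j.val < 4 then A.1 ⟨i, hi⟩ ⟨j, hj⟩ else v ⟨i, hi⟩) else (1 : Mat) i j
      have h1 : ∀ j, M 4 j = (1 : Mat) 4 j := fun j => rfl
      have h2 : M.submatrix Fin.castSucc Fin.castSucc = A.1 := Matrix.ext fun i j => by simp [M]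
      refine ⟨⟨Matrix.GeneralLinearGroup.mkOfDetNeZero M (by
        rw [det4 h1, h2]; exact Matrix.GeneralLinearGroup.det_ne_zero A), fun i j hp => ?_⟩,
        Prod.ext (Units.ext h2) (funext fun i => ?_)⟩
      · obtain rfl : i = 4 := by revert i j; decide
        exact h1 j
      · change M i.castSucc 4 = v i
        simp [M]
  rw [Nat.card_eq_of_bijective f hf, Nat.card_prod, Matrix.card_GL_field]
  simp [Fin.prod_univ_succ]

theorem card_N1 : Nat.card N1 = 2 ^ 20 * 315 := by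
  have := card_X pN
  rw [show (Finset.univ.filter fun p : Fin 5 × Fin 5 => p.1 < p.2 ∧ pN p.1 p.2 = false ∧ pN p.2 p.1 = false).card = 10 by
    decide +kernel] at this
  rw [N1, card_pat_mul, this, ← P4, card_P4]
  norm_num

theorem mem_N1g {x : Mo} : x ∈ N1 ↔ x.g ∈ P4 :=
  ⟨fun h => h.1, fun h => ⟨h, fun i j h => absurd h (by simp [pN])⟩⟩

theorem mem_N1 {x : Mo} : x ∈ N1 ↔ x ∈ normalizer (R0 : Set Mo) := by
  have k : ∀ x ∈ N1, x ∈ normalizer (R0 : Set Mo) := fun x hx =>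
    mem_normalizer_of_forall fun r hr => mem_R0.2 (conj_E4 hx.1 hr.1)
  refine ⟨k x, fun h => ?_⟩
  obtain ⟨w, b, hb, b', hb', e⟩ := bru x.g
  have h1 : io0 b * x * io0 b' ∈ normalizer (R0 : Set Mo) :=
    mul_mem (mul_mem (k _ (mem_N1g.2 (U5_P4 hb))) h) (k _ (mem_N1g.2 (U5_P4 hb')))
  have h2 : pm w * E 0 4 * (pm w)⁻¹ ∈ E4 :=
    e ▸ (conj_mem_of_mem_normalizer h1 (show L5R.e 0 4 ∈ R0 by decide +kernel)).1
  have h3 : w 4 = 4 := by
    by_contra h3
    have := h2 (w 0) (w 4) (by revert h3; generalize w 0 = a; generalize w 4 = b; revert a b; decide)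
    rw [pm_conj w (by decide), Matrix.one_apply_ne (w.injective.ne (by decide))] at this
    exact one_ne_zero this
  have h4 : pm w ∈ P4 := fun i j hp => by
    obtain rfl : i = 4 := by revert i j; decide
    rw [pmat_apply, Matrix.one_apply]
    exact if_congr ⟨fun e => w.injective (h3.trans e), fun e => e ▸ h3.symm⟩ rfl rfl
  rw [e] at h4
  exact mem_N1g.2 ((P4.mul_mem_cancel_left (U5_P4 hb)).1 ((P4.mul_mem_cancel_right (U5_P4 hb')).1 h4))

theorem norm_T0 {x : Mo} (h : x ∈ normalizer (T0 : Set Mo)) : x ∈ T0 := by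
  obtain ⟨w, b, hb, b', hb', e⟩ := bru x.g
  have h1 : io0 b * x * io0 b' ∈ normalizer (T0 : Set Mo) :=
    mul_mem (mul_mem (le_normalizer (mem_T0.2 hb)) h) (le_normalizer (mem_T0.2 hb'))
  have h2 : ∀ i j : Fin 5, i < j → w i < w j := fun i j hij => by
    have h2 : pm w * E i j * (pm w)⁻¹ ∈ U5 :=
      e ▸ (conj_mem_of_mem_normalizer h1 (show L5R.e i j ∈ T0 from mem_T0.2 (E_U5 hij.le))).1
    by_contra h3
    have := h2 (w i) (w j) (by revert h3; generalize w i = a; generalize w j = b; revert a b; decide)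
    rw [pm_conj w hij.ne, Matrix.one_apply_ne (w.injective.ne hij.ne)] at this
    exact one_ne_zero this
  obtain rfl : w = 1 := by clear e; revert w; decide +kernel
  rw [pm, map_one] at e
  exact mem_T0.2 ((U5.mul_mem_cancel_left hb).1 ((U5.mul_mem_cancel_right hb').1 (e ▸ one_mem _)))

theorem normal_ge_A0 (K : Subgroup Mo) [K.Normal] (h : A0 ≤ K) : K = A0 ∨ K = ⊤ := by
  have hs : Function.Surjective pi := fun g => ⟨io0 g, rfl⟩
  rcases (simple_GN (n := 5) (by norm_num)).eq_bot_or_eq_top_of_normal (K.map pi) (Normal.map inferInstance pi hs) with e | e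
  · exact Or.inl (le_antisymm (fun x hx => mem_A0.2 (mem_bot.1 (e ▸ mem_map_of_mem pi hx))) h)
  · refine Or.inr (eq_top_iff.2 fun x _ => ?_)
    obtain ⟨k, hk, e'⟩ : x.g ∈ K.map pi := e ▸ mem_top _
    exact (K.mul_mem_cancel_right (inv_mem hk)).1 (h (mem_A0.2 (by rw [mul_g, inv_g, ← e']; exact mul_inv_cancel _)))

theorem irr_A0 (K : Subgroup Mo) [K.Normal] (h : z0 ∈ K) : A0 ≤ K :=
  gen_up (by decide) (fun i j hij _ => t_all (fun _ => True) (fun _ _ _ => by rw [normalizer_eq_top]; trivial) h trivial trivial hij.ne)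
    fun i j hij he => absurd (mem_A0.1 he) (E_ne_one hij.ne)

theorem perf_Mo : commutator Mo = ⊤ := by
  have k : ∀ a b : Mo, a⁻¹ = a → b⁻¹ = b → a * b * (a * b) ∈ commutator Mo := fun a b ha hb => by
    have := commutator_mem_commutator (mem_top a) (mem_top b)
    rwa [commutatorElement_def, ha, hb, mul_assoc] at this
  have h1 : t 0 1 ∈ commutator Mo :=
    t_cmt (i := 0) (k := 2) (j := 1) (by decide) (by decide) (by decide) ▸ k _ _ (e_inv _ _) (t_inv _ _)
  refine (normal_ge_A0 _ (irr_A0 _ h1)).resolve_left fun h => ?_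
  have h2 := mem_A0.1 (h ▸ k _ _ (e_inv 0 2) (e_inv 2 1))
  revert h2
  decide +kernel

theorem irr_Z0 {K : Subgroup Mo} (hn : N1 ≤ normalizer (K : Set Mo)) (h : z0 ∈ K) : Z0 ≤ K :=
  gen_up (by decide) (fun i j hij ht => t_all (· ≠ 4) (fun i k hi => hn (e_N1 i k hi)) h (by omega)
    (by revert i j; decide +kernel) hij.ne) fun i j hij he => absurd (mem_A0.1 (pat_le (by decide) (by decide) he)) (E_ne_one hij.ne)

theorem irr_A2 {K : Subgroup Mo} (hn : N1 ≤ normalizer (K : Set Mo)) (hZ : Z0 ≤ K) (h : K ≤ A2) : K = Z0 ∨ K = A2 := by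
  by_cases e : ∃ a ∈ K, ∃ j : Fin 5, j ≠ 4 ∧ a.g.1 j 4 ≠ 0
  · obtain ⟨a, ha, j, hj, h1⟩ := e
    refine Or.inr (le_antisymm h (gen_A2 hZ fun i hi => ?_))
    by_cases hij : i = j
    · obtain ⟨k, hk, hkj⟩ : ∃ k : Fin 5, k ≠ 4 ∧ k ≠ j := by clear hij h1; revert j; decide
      exact A2_step hn hZ h (A2_step hn hZ h ha hk hj hkj (eq_one_of_ne h1)) hi hk (hij ▸ hkj.symm)
        (by rw [te_g k k hk, if_pos rfl])
    · exact A2_step hn hZ h ha hi hj hij (eq_one_of_ne h1)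
  · exact Or.inl (le_antisymm (fun a ha => Z0_of (h ha) fun j hj => by_contra fun h1 => e ⟨a, ha, j, hj, h1⟩) hZ)


end CfsgLib.L5R
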