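import Mathlib
import Cfsg.Agent.Lib.L5R.Bas1

/-!
# centralisers and normalisers in the model (plans/L5R.md)
-/

set_option autoImplicit false
set_option maxHeartbeats 400000
set_option Elab.async false

namespace CfsgLib.L5R

open Subgroup Cfsg CfsgLib.Tech CfsgLib.Held CfsgLib.MOrb CfsgLib.L72 CfsgLib.LargeExtra CfsgLib.ExtraTwo

namespace Bas2

theorem smul_apply (g : GN 5) (X : Alt) (i j : Fin 5) :
    (g • X).1 i j = ∑ l, ∑ k, g.1 i k * X.1 k l * g.1 j l := by
  simp only [coe_smul, Matrix.mul_apply, Finset.sum_mul, Matrix.transpose_apply]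

theorem smul_wd (g : GN 5) {i j : Fin 5} (h : i ≠ j) (a b : Fin 5) :
    (g • wd i j).1 a b = g.1 a i * g.1 b j + g.1 a j * g.1 b i := by
  have e1 : (wd i j).1 = Matrix.single i j 1 + Matrix.single j i 1 := by
    revert i j
    decide +kernel
  rw [coe_smul, e1, Matrix.mul_add, Matrix.add_mul, Matrix.add_apply]
  simp [Matrix.mul_apply, Matrix.single, ite_and]

theorem comm_th {x : Mo} {X : Alt} : th X * x = x * th X ↔ x.g • X = X := by
  rw [eq_comm, ← mul_inv_eq_iff_eq_mul, conj_th]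
  exact ⟨fun h => congrArg Mo.x h, fun h => by rw [h]⟩

theorem eq_th {a : Mo} (h : a ∈ A0) : a = th a.x := Mo.ext rfl (mem_A0.1 h)

theorem fix_wd {g : GN 5} {i j : Fin 5} (h : g • wd i j = wd i j) (hij : i ≠ j) :
    g.1 i i * g.1 j j + g.1 i j * g.1 j i = 1 ∧ ∀ a, a ≠ i → a ≠ j → g.1 a i = 0 := by
  have k : ∀ a b, g.1 a i * g.1 b j + g.1 a j * g.1 b i = (wd i j).1 a b := fun a b => by rw [← smul_wd g hij, h]
  have h1 := (k i j).trans (show _ = 1 by simp [wd, hij])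
  refine ⟨h1, fun a hi hj => ?_⟩
  have h2 := (k a i).trans (show _ = 0 by simp [wd, hi, hj])
  have h3 := (k a j).trans (show _ = 0 by simp [wd, hi, hj])
  revert h1 h2 h3
  generalize g.1 i i = p, g.1 j j = q, g.1 i j = r, g.1 j i = s, g.1 a i = u, g.1 a j = v
  revert p q r s u v
  decide

/-- an element fixing the `e_i ∧ e_j` with `i, j ≤ m` fixes the `e_i` -/
theorem fix_col {g : GN 5} {m : ℕ} (hm : 2 ≤ m) (h : ∀ i j : Fin 5, i.val ≤ m → j.val ≤ m → g • wd i j = wd i j)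
    (a i : Fin 5) (hi : i.val ≤ m) : g.1 a i = (1 : Mat) a i := by
  have k : ∀ a i : Fin 5, i.val ≤ m → a ≠ i → g.1 a i = 0 := fun a i hi ha => by
    obtain ⟨j, h1, h2, h3⟩ : ∃ j : Fin 5, j.val ≤ 2 ∧ i ≠ j ∧ a ≠ j :=
      (by decide : ∀ a i : Fin 5, ∃ j : Fin 5, j.val ≤ 2 ∧ i ≠ j ∧ a ≠ j) a i
    exact (fix_wd (h i j hi (h1.trans hm)) h2).2 a ha h3
  by_cases ha : a = i
  · subst ha
    obtain ⟨j, h1, h2⟩ : ∃ j : Fin 5, j.val ≤ 2 ∧ a ≠ j :=
      (by decide : ∀ a : Fin 5, ∃ j : Fin 5, j.val ≤ 2 ∧ a ≠ j) a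
    have := (fix_wd (h a j hi (h1.trans hm)) h2).1
    rw [k a j (h1.trans hm) h2, zero_mul, add_zero] at this
    rw [Matrix.one_apply_eq]
    revert this
    generalize g.1 a a = p, g.1 j j = q
    revert p q
    decide
  · rw [k a i hi ha, Matrix.one_apply_ne ha]

variable {P R P' R' P'' R'' : Pt} {h : okG P} {h' : okX P R} {k : okG P'} {k' : okX P' R'}

theorem pat_fix (c : ∀ i l j : Fin 5, P' i l ∨ R l j ∨ R j l ∨ l = j) (hP : ∀ i j, P i j) {a x : Mo}
    (ha : a ∈ pat P R h h') (hx : x ∈ pat P' R' k k') : a * x = x * a := by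
  have e1 : x.g.1 * a.x.1 = a.x.1 := by
    ext i j
    rw [← Matrix.one_mul a.x.1, ← Matrix.mul_assoc, Matrix.mul_one, Matrix.mul_apply, Matrix.mul_apply]
    refine Finset.sum_congr rfl fun l _ => ?_
    rcases c i l j with e | e | e | rfl
    · rw [hx.1 _ _ e]
    · rw [ha.2 _ _ e, mul_zero, mul_zero]
    · rw [a.x.2.1, ha.2 _ _ e, mul_zero, mul_zero]
    · rw [a.x.2.2, mul_zero, mul_zero]
  rw [eq_th (a := a) ⟨fun i j _ => ha.1 i j (hP i j), fun _ _ e => absurd e (by simp [pN])⟩, comm_th]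
  refine Subtype.ext ?_
  rw [coe_smul, e1, ← alt_tr, ← Matrix.transpose_mul, e1]

theorem inf_le {l : okG P''} {l' : okX P'' R''} (hP : ∀ i j, P'' i j → P i j ∨ P' i j)
    (hR : ∀ i j, R'' i j → R i j ∨ R j i ∨ R' i j ∨ R' j i ∨ i = j) :
    pat P R h h' ⊓ pat P' R' k k' ≤ pat P'' R'' l l' := fun m hm =>
  ⟨fun i j e => (hP i j e).elim (hm.1.1 i j) (hm.2.1 i j), fun i j e => by
    rcases hR i j e with a | a | a | a | rfl
    exacts [hm.1.2 i j a, (m.x.2.1 i j).trans (hm.1.2 j i a), hm.2.2 i j a, (m.x.2.1 i j).trans (hm.2.2 j i a),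
      m.x.2.2 i]⟩

/-- the test for `pat P' R'` to normalise `pat P R` -/
def okN (P' R' P R : Pt) : Prop := (∀ i, P i i) ∧ okX P' R ∧
  (∀ i j a b : Fin 5, P i j → (a ≠ i ∧ P' i a) ∨ P a b ∨ (b ≠ j ∧ P' b j)) ∧
  ∀ i j a b : Fin 5, R i j → (a = i ∧ b = j) ∨ (a ≠ i ∧ P i a) ∨ (b ≠ j ∧ P j b) ∨ R' a b ∨ R' b a ∨ a = b

set_option synthInstance.maxSize 2000 in
instance : Decidable (okN P' R' P R) := by unfold okN; infer_instance

theorem pat_norm (c : okN P' R' P R) : pat P' R' k k' ≤ normalizer (pat P R h h' : Set Mo) := fun x hx =>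
  mem_normalizer_of_forall fun y hy => by
    have h1 : ∀ i j, P i j → (x * y * x⁻¹).g.1 i j = (1 : Mat) i j := fun i j e => by
      have e1 : (x * y * x⁻¹).g.1 = 1 + x.g.1 * (y.g.1 - 1) * x⁻¹.g.1 := by
        rw [mul_g, mul_g, Units.val_mul, Units.val_mul, Matrix.mul_sub, Matrix.sub_mul, Matrix.mul_one, inv_g,
          Units.mul_inv, add_sub_cancel]
      rw [e1, Matrix.add_apply, add_eq_left, Matrix.mul_apply]
      refine Finset.sum_eq_zero fun b _ => ?_
      rw [Matrix.mul_apply, Finset.sum_mul]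
      refine Finset.sum_eq_zero fun a _ => ?_
      rcases c.2.2.1 i j a b e with ⟨e2, e3⟩ | e2 | ⟨e2, e3⟩
      · rw [hx.1 _ _ e3, Matrix.one_apply_ne e2.symm, zero_mul, zero_mul]
      · rw [Matrix.sub_apply, hy.1 _ _ e2, sub_self, mul_zero, zero_mul]
      · rw [(inv_mem hx).1 _ _ e3, Matrix.one_apply_ne e2, mul_zero]
    refine ⟨h1, fun i j e => ?_⟩
    have e1 : (x * y * x⁻¹).x = x.x + x.g • y.x + (x * y * x⁻¹).g • x.x := by
      rw [mul_x, mul_x, inv_x, mul_g (x * y), mul_smul (x * y).g, inv_g]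
    have e2 : (x.g • y.x).1 i j = 0 := by
      have := (mul_mem (show io0 x.g ∈ pat P' R k c.2.1 from ⟨hx.1, fun _ _ _ => rfl⟩)
        (show th y.x ∈ pat P' R k c.2.1 from ⟨fun _ _ _ => rfl, hy.2⟩)).2 i j e
      rwa [mul_x, show (io0 x.g).x = 0 from rfl, zero_add] at this
    have e3 : ((x * y * x⁻¹).g • x.x).1 i j = x.x.1 i j := by
      have z : ∀ a b, ¬ (a = i ∧ b = j) →
          (x * y * x⁻¹).g.1 i a * x.x.1 a b * (x * y * x⁻¹).g.1 j b = 0 := fun a b ne => by
        rcases c.2.2.2 i j a b e with e2 | ⟨e2, e3⟩ | ⟨e2, e3⟩ | e2 | e2 | rfl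
        · exact absurd e2 ne
        · rw [h1 _ _ e3, Matrix.one_apply_ne e2.symm, zero_mul, zero_mul]
        · rw [h1 _ _ e3, Matrix.one_apply_ne e2.symm, mul_zero]
        · rw [hx.2 _ _ e2, mul_zero, zero_mul]
        · rw [x.x.2.1, hx.2 _ _ e2, mul_zero, zero_mul]
        · rw [x.x.2.2, mul_zero, zero_mul]
      rw [smul_apply, Finset.sum_eq_single j (fun b _ hb => Finset.sum_eq_zero fun a _ => z a b fun e => hb e.2)
        (by simp), Finset.sum_eq_single i (fun a _ ha => z a j fun e => ha e.1) (by simp), h1 _ _ (c.1 i),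
        h1 _ _ (c.1 j), Matrix.one_apply_eq, Matrix.one_apply_eq, one_mul, mul_one]
    rw [e1, AddSubgroup.coe_add, AddSubgroup.coe_add, Matrix.add_apply, Matrix.add_apply, e2, e3, add_zero]
    exact CharTwo.add_self_eq_zero _

/-- commutation test -/
noncomputable def cm (c d : ℕ) : Bool := Nat.beq (mulC c d) (mulC d c)

theorem cm_of {x y : Mo} {c d : ℕ} (hx : Cd x c) (hy : Cd y d) (e : x * y = y * x) : cm c d = true := by
  rw [cm, Nat.beq_eq]; exact (hx.comm_iff hy).1 e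

theorem sq_of {x : Mo} {c : ℕ} (hx : Cd x c) (e : Nat.beq (mulC c c) oneC = true) : x * x = 1 :=
  (hx.mul hx).eq_one.2 (Nat.eq_of_beq_eq_true e)

/-- the root elements -/
def gn (b : Bool) (i j : Fin 5) : Mo := cond b (t i j) (e i j)

/-- their codes -/
def gC (b : Bool) (i j : ℕ) : ℕ := cond b (tC i j) (eC i j)

theorem cd_gn (b : Bool) {i j : Fin 5} (h : i < j) : Cd (gn b i j) (gC b i j) := by
  cases b
  exacts [cd_e h.ne, cd_t h.ne]

theorem gen_gn (hP : ∀ i j : Fin 5, j ≤ i → P i j) {K : Subgroup Mo}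
    (c : ∀ b (i j : Fin 5), i < j → gn b i j ∈ pat P R h h' → gn b i j ∈ K) : pat P R h h' ≤ K :=
  gen_up hP (c true) (c false)

/-- the elements of `Q` that commute with `y` modulo the central involution `z` -/
def cz (Q : Subgroup Mo) (z y : Mo) (z2 : z * z = 1) (hz : ∀ x ∈ Q, x * z = z * x) : Subgroup Mo :=
  ofMul {x | x ∈ Q ∧ (x * y = y * x ∨ x * y = z * (y * x))} ⟨one_mem _, .inl (by simp)⟩ fun a ha b hb =>
    ⟨mul_mem ha.1 hb.1, by
      have h1 := hz a ha.1
      rcases ha.2 with e1 | e1 <;> rcases hb.2 with e2 | e2 <;> rw [mul_assoc, e2]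
      · exact .inl (by rw [← mul_assoc, e1, mul_assoc])
      · exact .inr (by rw [← mul_assoc, h1, mul_assoc, ← mul_assoc a, e1, mul_assoc])
      · exact .inr (by rw [← mul_assoc, e1, mul_assoc, mul_assoc])
      · exact .inl (by rw [← mul_assoc, h1, mul_assoc, ← mul_assoc a, e1, mul_assoc, ← mul_assoc z, z2, one_mul,
          mul_assoc])⟩

end Bas2

open Bas2

instance normal_A0 : A0.Normal :=
  ⟨fun a ha g => mem_A0.2 (by rw [mul_g, mul_g, mem_A0.1 ha, mul_one, inv_g, mul_inv_cancel])⟩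

theorem A0_sq : ∀ a ∈ A0, a * a = 1 := fun a ha => by rw [eq_th ha, ← th_add, alt_two, th_zero]

theorem A1_sq : ∀ a ∈ A1, a * a = 1 := fun a ha => by
  obtain ⟨c, hc⟩ := exists_cd a
  exact sq_of hc (hc.lp_A1 ha (f := fun c => Nat.beq (mulC c c) oneC) (by decide +kernel))

theorem A2_sq : ∀ a ∈ A2, a * a = 1 := fun a ha => by
  obtain ⟨c, hc⟩ := exists_cd a
  have := hc.lp_R0 ha.1 (f := fun c => !inA2 c || Nat.beq (mulC c c) oneC) (by decide +kernel)
  rw [hc.mem_A2.1 ha] at this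
  exact sq_of hc this

theorem Uw_sq : ∀ a ∈ Uw, a * a = 1 := fun a ha => by
  obtain ⟨c, hc⟩ := exists_cd a
  exact sq_of hc (hc.lp_Uw ha (f := fun c => Nat.beq (mulC c c) oneC) (by decide +kernel))

theorem mem_H0 {x : Mo} : x ∈ H0 ↔ x * z0 = z0 * x := by
  rw [eq_comm, z0, t, comm_th]
  refine ⟨fun h => Subtype.ext (Matrix.ext fun a b => ?_), fun h => ⟨fun a i e => ?_, fun _ _ e => absurd e (by simp [pN])⟩⟩
  · have k : ∀ y ∈ H0, ∀ a i : Fin 5, 2 ≤ a.val → i.val ≤ 1 → y.g.1 a i = 0 := fun y hy a i h1 h2 =>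
      (hy.1 a i (by simp [pH, h1, h2])).trans (Matrix.one_apply_ne fun e => by omega)
    have k1 : ∀ i j : Fin 5, j.val ≤ 1 → x.g.1 i 0 * x⁻¹.g.1 0 j + x.g.1 i 1 * x⁻¹.g.1 1 j = (1 : Mat) i j :=
      fun i j hj => by
        rw [← x.g.mul_inv, Matrix.mul_apply, Fin.sum_univ_five, ← inv_g, k _ (inv_mem h) 2 j (by decide) hj,
          k _ (inv_mem h) 3 j (by decide) hj, k _ (inv_mem h) 4 j (by decide) hj]
        simp
    have k2 : x.g.1 0 0 * x.g.1 1 1 + x.g.1 0 1 * x.g.1 1 0 = 1 := by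
      have a1 := (k1 0 0 (by decide)).trans (Matrix.one_apply_eq _)
      have a2 := (k1 0 1 (by decide)).trans (Matrix.one_apply_ne (by decide))
      have a3 := (k1 1 0 (by decide)).trans (Matrix.one_apply_ne (by decide))
      have a4 := (k1 1 1 (by decide)).trans (Matrix.one_apply_eq _)
      revert a1 a2 a3 a4
      generalize x.g.1 0 0 = p, x.g.1 0 1 = q, x.g.1 1 0 = r, x.g.1 1 1 = s, x⁻¹.g.1 0 0 = p', x⁻¹.g.1 0 1 = q',
        x⁻¹.g.1 1 0 = r', x⁻¹.g.1 1 1 = s'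
      revert p q r s p' q' r' s'
      decide +kernel
    have k3 : ∀ a : Fin 5, a = 0 ∨ a = 1 ∨ 2 ≤ a.val := by decide
    rw [smul_wd _ (by decide)]
    rcases k3 a with rfl | rfl | ha
    · rcases k3 b with rfl | rfl | hb
      · rw [mul_comm]; exact CharTwo.add_self_eq_zero _
      · exact k2
      · rw [k x h b 0 hb (by decide), k x h b 1 hb (by decide), mul_zero, mul_zero, add_zero]
        revert b; decide
    · rcases k3 b with rfl | rfl | hb
      · rw [add_comm, mul_comm, mul_comm (x.g.1 1 0)]; exact k2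
      · rw [mul_comm]; exact CharTwo.add_self_eq_zero _
      · rw [k x h b 0 hb (by decide), k x h b 1 hb (by decide), mul_zero, mul_zero, add_zero]
        revert b; decide
    · rw [k x h a 0 ha (by decide), k x h a 1 ha (by decide), zero_mul, zero_mul, add_zero]
      exact (if_neg fun c => by rcases c.2 with ⟨rfl, -⟩ | ⟨rfl, -⟩ <;> exact absurd ha (by decide)).symm
  · obtain ⟨h1, h2⟩ : 2 ≤ a.val ∧ i.val ≤ 1 := of_decide_eq_true e
    have h3 : a ≠ 0 ∧ a ≠ 1 ∧ a ≠ i ∧ (i = 0 ∨ i = 1) := by revert a i; decide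
    rw [Matrix.one_apply_ne h3.2.2.1]
    rcases h3.2.2.2 with rfl | rfl
    · exact (fix_wd h (by decide)).2 a h3.1 h3.2.1
    · exact (fix_wd (i := 1) (j := 0) (by rwa [show wd 1 0 = wd 0 1 by decide +kernel]) (by decide)).2 a h3.2.1 h3.1

theorem es_Q0 : ES Q0 z0 := by
  have hz : ∀ x ∈ Q0, x * z0 = z0 * x := fun x hx => mem_H0.1 (pat_le (by decide) (by decide) hx)
  have cz0 : Cd z0 (tC 0 1) := cd_t (by decide)
  refine ⟨z0_ne, z0_sq, by decide +kernel, hz, fun x hx h => ?_, fun x hx y hy => ?_,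
    t 0 2, by decide +kernel, e 1 2, by decide +kernel, by decide +kernel⟩
  · obtain ⟨c, hc⟩ := exists_cd x
    have k : ∀ b (i j : Fin 5), i < j → gn b i j ∈ Q0 → cm (gC b i j) c = true := fun b i j l m =>
      cm_of (cd_gn b l) hc (h _ m)
    have := hc.lp_Q0 hx (f := fun c => !cm (gC true 0 2) c || !cm (gC true 0 3) c || !cm (gC true 0 4) c ||
      !cm (gC true 1 2) c || !cm (gC true 1 3) c || !cm (gC true 1 4) c || !cm (gC false 0 2) c ||
      !cm (gC false 0 3) c || !cm (gC false 0 4) c || !cm (gC false 1 2) c || !cm (gC false 1 3) c ||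
      !cm (gC false 1 4) c || Nat.beq c oneC || Nat.beq c (tC 0 1)) (by decide +kernel)
    rw [show cm (gC true 0 2) c = true from k true 0 2 (by decide) (by decide +kernel),
      show cm (gC true 0 3) c = true from k true 0 3 (by decide) (by decide +kernel),
      show cm (gC true 0 4) c = true from k true 0 4 (by decide) (by decide +kernel),
      show cm (gC true 1 2) c = true from k true 1 2 (by decide) (by decide +kernel),
      show cm (gC true 1 3) c = true from k true 1 3 (by decide) (by decide +kernel),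
      show cm (gC true 1 4) c = true from k true 1 4 (by decide) (by decide +kernel),
      show cm (gC false 0 2) c = true from k false 0 2 (by decide) (by decide +kernel),
      show cm (gC false 0 3) c = true from k false 0 3 (by decide) (by decide +kernel),
      show cm (gC false 0 4) c = true from k false 0 4 (by decide) (by decide +kernel),
      show cm (gC false 1 2) c = true from k false 1 2 (by decide) (by decide +kernel),
      show cm (gC false 1 3) c = true from k false 1 3 (by decide) (by decide +kernel),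
      show cm (gC false 1 4) c = true from k false 1 4 (by decide) (by decide +kernel)] at this
    simp only [Bool.not_true, Bool.false_or, Bool.or_eq_true, Nat.beq_eq] at this
    exact this.imp hc.eq_one.2 (hc.eq_iff cz0).2
  · have k1 : ∀ b (i j : Fin 5), i < j → gn b i j ∈ Q0 → Q0 ≤ cz Q0 z0 (gn b i j) z0_sq hz :=
      fun b i j l m => gen_gn (by decide) fun b' i' j' l' m' => ⟨m', by
        have a1 := cd_gn b l
        have a2 := cd_gn b' l'
        rw [a2.comm_iff a1, (a2.mul a1).eq_iff (cz0.mul (a1.mul a2))]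
        rw [a1.mem_Q0] at m
        replace m' := a2.mem_Q0.1 m'
        clear a1 a2
        revert b i j b' i' j'
        decide +kernel⟩
    refine (gen_gn (K := cz Q0 z0 y z0_sq hz) (by decide) (fun b i j l m => ⟨m, ?_⟩) hx).2
    rcases (k1 b i j l m hy).2 with e1 | e1
    · exact .inl e1.symm
    · exact .inr (by rw [e1, ← mul_assoc, z0_sq, one_mul])

theorem cen_A0 {x : Mo} (h : ∀ a ∈ A0, a * x = x * a) : x ∈ A0 :=
  ⟨fun a i _ => fix_col (m := 4) (by decide) (fun i j _ _ => comm_th.1 (h _ (mem_A0.2 rfl))) a i (by omega),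
    fun _ _ e => absurd e (by simp [pN])⟩

theorem cen_Z0 {x : Mo} : (∀ a ∈ Z0, a * x = x * a) ↔ x ∈ R0 := by
  refine ⟨fun h => ⟨fun a i e => ?_, fun _ _ e => absurd e (by simp [pN])⟩,
    fun h a ha => pat_fix (by decide) (fun _ _ => rfl) ha h⟩
  have k := fix_col (g := x.g) (m := 3) (by decide) fun i j hi hj => comm_th.1 (h (t i j) (by
    revert i j; decide +kernel))
  by_cases hi : i.val ≤ 3
  · exact k a i hi
  obtain ⟨rfl, rfl⟩ : a = 4 ∧ i = 4 := by clear k; revert a i; decide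
  have := congrFun (congrFun x.g.mul_inv 4) 4
  rw [Matrix.mul_apply, Fin.sum_univ_five, k 4 0 (by decide), k 4 1 (by decide), k 4 2 (by decide),
    k 4 3 (by decide)] at this
  simp only [ne_eq, Fin.reduceEq, not_false_eq_true, Matrix.one_apply_ne, zero_mul, zero_add,
    Matrix.one_apply_eq] at this ⊢
  revert this
  generalize x.g.1 4 4 = p, x.g⁻¹.1 4 4 = q
  revert p q
  decide

theorem A2_le_R0 : A2 ≤ R0 := fun _ h => h.1

theorem Z0_le_A2 : Z0 ≤ A2 := fun a h => ⟨pat_le (by decide) (by decide) h, fun i hi => by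
  rw [h.2 i 4 rfl, h.1 i 4 rfl, Matrix.one_apply_ne hi]⟩

theorem cen_A2 {x : Mo} (h : ∀ a ∈ A2, a * x = x * a) : x ∈ A2 := by
  obtain ⟨c, hc⟩ := exists_cd x
  have := hc.lp_R0 (cen_Z0.1 fun a ha => h a (Z0_le_A2 ha)) (f := fun c => !cm (mulC (tC 0 4) (eC 0 4)) c ||
    !cm (mulC (tC 1 4) (eC 1 4)) c || inA2 c) (by decide +kernel)
  rw [show cm (mulC (tC 0 4) (eC 0 4)) c = true from cm_of ((cd_t (i := 0) (j := 4) (by decide)).mul
    (cd_e (i := 0) (j := 4) (by decide))) hc (h _ (by decide +kernel)),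
    show cm (mulC (tC 1 4) (eC 1 4)) c = true from cm_of ((cd_t (i := 1) (j := 4) (by decide)).mul
    (cd_e (i := 1) (j := 4) (by decide))) hc (h _ (by decide +kernel))] at this
  exact hc.mem_A2.2 this

theorem cen_R0 {x : Mo} (h : ∀ a ∈ R0, a * x = x * a) : x ∈ Z0 := by
  obtain ⟨c, hc⟩ := exists_cd x
  have := hc.lp_A0 (cen_A0 fun a ha => h a (pat_le (by decide) (by decide) ha))
    (f := fun c => !cm (eC 0 4) c || !cm (eC 1 4) c || inM 0x3ffffff084210 c) (by decide +kernel)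
  rw [show cm (eC 0 4) c = true from cm_of (cd_e (i := 0) (j := 4) (by decide)) hc (h _ (by decide +kernel)),
    show cm (eC 1 4) c = true from cm_of (cd_e (i := 1) (j := 4) (by decide)) hc (h _ (by decide +kernel))] at this
  exact hc.mem_Z0.2 this

theorem cen_T0 {x : Mo} (h : ∀ a ∈ T0, a * x = x * a) : x = 1 ∨ x = z0 := by
  obtain ⟨c, hc⟩ := exists_cd x
  have := hc.lp_Z0 (cen_R0 fun a ha => h a (pat_le (by decide) (by decide) ha))
    (f := fun c => !cm (eC 0 1) c || !cm (eC 1 2) c || !cm (eC 2 3) c || Nat.beq c oneC || Nat.beq c (tC 0 1))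
    (by decide +kernel)
  rw [show cm (eC 0 1) c = true from cm_of (cd_e (i := 0) (j := 1) (by decide)) hc (h _ (by decide +kernel)),
    show cm (eC 1 2) c = true from cm_of (cd_e (i := 1) (j := 2) (by decide)) hc (h _ (by decide +kernel)),
    show cm (eC 2 3) c = true from cm_of (cd_e (i := 2) (j := 3) (by decide)) hc (h _ (by decide +kernel))] at this
  simp only [Bool.not_true, Bool.false_or, Bool.or_eq_true, Nat.beq_eq] at this
  exact this.imp hc.eq_one.2 (hc.eq_iff (cd_t (by decide))).2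

theorem mem_Y0 {x : Mo} : x ∈ Y0 ↔ ∀ a ∈ Z3, a * x = x * a :=
  ⟨fun h _ ha => pat_fix (by decide) (fun _ _ => rfl) ha h, fun h => ⟨fun a i e =>
    fix_col (m := 2) le_rfl (fun i j hi hj => comm_th.1 (h (t i j) (by revert i j; decide +kernel))) a i
      (of_decide_eq_true e), fun _ _ e => absurd e (by simp [pN])⟩⟩

theorem mem_T2 {x : Mo} : x ∈ T2 ↔ x ∈ T0 ∧ x * w0 = w0 * x := by
  refine ⟨fun h => ⟨pat_le (by decide) (by decide) h, ?_⟩, fun ⟨h, h1⟩ => ⟨fun a i e => ?_, h.2⟩⟩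
  · refine mem_centralizer_singleton_iff.1 (gen_gn (K := centralizer {w0}) (by decide) (fun b i j l m => ?_) h)
    rw [mem_centralizer_singleton_iff, (cd_gn b l).comm_iff (show Cd w0 (tC 0 2) from cd_t (by decide))]
    replace m := (cd_gn b l).mem_T2.1 m
    clear h
    revert b i j
    decide +kernel
  · rcases (of_decide_eq_true e : i.val ≤ a.val ∨ (a.val = 1 ∧ i.val = 2)) with l | l
    · exact h.1 a i (decide_eq_true l)
    · obtain ⟨rfl, rfl⟩ : a = 1 ∧ i = 2 := ⟨Fin.ext l.1, Fin.ext l.2⟩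
      exact (fix_wd (i := 2) (j := 0) (by
        rw [show wd 2 0 = wd 0 2 by decide +kernel]; exact comm_th.1 h1.symm) (by decide)).2 1 (by decide) (by decide)

theorem F0_eq : F0 = T0 ⊓ Y0 := le_antisymm (le_inf (pat_le (by decide) (by decide)) (pat_le (by decide) (by decide)))
  (inf_le (by decide) (by decide))

theorem mem_V2 {x : Mo} : x ∈ V2 ↔ x = 1 ∨ x = z0 ∨ x = w0 ∨ x = z0 * w0 := by
  refine ⟨fun h => ?_, by rintro (rfl | rfl | rfl | rfl) <;> decide +kernel⟩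
  obtain ⟨c, hc⟩ := exists_cd x
  have := hc.lp_V2 h (f := fun c => Nat.beq c oneC || (Nat.beq c (tC 0 1) || (Nat.beq c (tC 0 2) ||
    Nat.beq c (mulC (tC 0 1) (tC 0 2))))) (by decide +kernel)
  simp only [Bool.or_eq_true, Nat.beq_eq] at this
  exact this.imp hc.eq_one.2 (.imp (hc.eq_iff (cd_t (by decide))).2 (.imp (hc.eq_iff (cd_t (by decide))).2
    (hc.eq_iff ((cd_t (by decide)).mul (cd_t (by decide)))).2))

theorem mem_Z3 {x : Mo} : x ∈ Z3 ↔ x ∈ V2 ∨ x * r0 ∈ V2 := by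
  have l : V2 ≤ Z3 := pat_le (by decide) (by decide)
  refine ⟨fun h => ?_, fun h => h.elim (@l x) fun h => (mul_mem_cancel_right (by decide +kernel)).1 (l h)⟩
  obtain ⟨c, hc⟩ := exists_cd x
  have := hc.lp_Z3 h (f := fun c => inM 0x3ffffffef7bd8 c || inM 0x3ffffffef7bd8 (mulC c (tC 1 2))) (by decide +kernel)
  rw [Bool.or_eq_true] at this
  exact this.imp hc.mem_V2.2 (hc.mul (cd_t (by decide))).mem_V2.2

theorem H0_norm : H0 ≤ normalizer (Q0 : Set Mo) := pat_norm (by decide +kernel)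

theorem N1_norm_A1 : N1 ≤ normalizer (A1 : Set Mo) := pat_norm (by decide +kernel)

theorem N1_norm_Z0 : N1 ≤ normalizer (Z0 : Set Mo) := pat_norm (by decide +kernel)

theorem N1_norm_A2 : N1 ≤ normalizer (A2 : Set Mo) := fun x hx => mem_normalizer_of_forall fun y hy => by
  refine gen_A2 (K := A2.comap (MulAut.conj x).toMonoidHom)
    (fun a ha => Z0_le_A2 (conj_mem_of_mem_normalizer (N1_norm_Z0 hx) ha)) (fun i hi => ?_) hy
  have h1 := conj_mem_of_mem_normalizer (N1_norm_A1 hx) (show e i 4 ∈ A1 by revert i; decide +kernel)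
  have h2 : ∀ j, x.g.1 4 j = (1 : Mat) 4 j := fun j => hx.1 4 j rfl
  change x * (t i 4 * e i 4) * x⁻¹ ∈ A2
  rw [← conj_mul, t, conj_th]
  refine ⟨mul_mem (pat_le (P := pA) (R := pN) (by decide) (by decide) (mem_A0.2 rfl))
    (pat_le (by decide) (by decide) h1), fun a ha => ?_⟩
  have h3 : (x * e i 4 * x⁻¹).g.1 * x.g.1 = x.g.1 * (E i 4).1 := by
    rw [← Units.val_mul, ← mul_g, inv_mul_cancel_right]; rfl
  have h4 := congrFun (congrFun h3 a) 4
  have h5 : ∀ j, j ≠ 4 → (x * e i 4 * x⁻¹).g.1 a j = (1 : Mat) a j := fun j hj =>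
    h1.1 a j ((by decide : ∀ a j : Fin 5, j ≠ 4 → pE4 a j = true) a j hj)
  have h6 : (x.g.1 * (E i 4).1) a 4 = x.g.1 a 4 + x.g.1 a i := by
    rw [Matrix.mul_apply, Fin.sum_univ_five]
    fin_cases i <;> simp [coe_E, eM, add_comm] at hi ⊢
  rw [h6, Matrix.mul_apply, Fin.sum_univ_five, h5 0 (by decide), h5 1 (by decide), h5 2 (by decide),
    h5 3 (by decide), h2, Matrix.one_apply_eq, mul_one] at h4
  rw [mul_x, mul_g, show ∀ X, (th X).g = 1 from fun _ => rfl, one_smul, one_mul, AddSubgroup.coe_add,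
    Matrix.add_apply, h1.2 a 4 rfl, add_zero, show ∀ X, (th X).x = X from fun _ => rfl, smul_wd _ hi, h2, h2,
    Matrix.one_apply_eq, Matrix.one_apply_ne hi.symm, mul_one, mul_zero, add_zero]
  refine (add_left_cancel (h4.symm.trans ?_))
  fin_cases a <;> simp [Matrix.one_apply] at ha ⊢

theorem T0_norm_V2 : T0 ≤ normalizer (V2 : Set Mo) := pat_norm (by decide +kernel)

theorem T0_norm_Z3 : T0 ≤ normalizer (Z3 : Set Mo) := pat_norm (by decide +kernel)

theorem Y0_norm_D0 : Y0 ≤ normalizer (D0 : Set Mo) := pat_norm (by decide +kernel)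

theorem T2_norm_D2 : T2 ≤ normalizer (D2 : Set Mo) := pat_norm (by decide +kernel)

theorem Qw_eq : Qw = cj (n 1 2) Q0 := by
  ext x
  obtain ⟨c, hc⟩ := exists_cd x
  have cn : Cd (n 1 2) (nC 1 2) := cd_n (by decide)
  rw [mem_cj, n_inv]
  refine ⟨fun h => ((cn.mul hc).mul cn).mem_Q0.2 (hc.lp_Qw h (f := fun c => inM 0x3fff8c7ce7000
    (mulC (mulC (nC 1 2) c) (nC 1 2))) (by decide +kernel)), fun h => ?_⟩
  obtain ⟨d, hd⟩ := exists_cd (n 1 2 * x * n 1 2)
  have := ((cn.mul hd).mul cn).mem_Qw.2 (hd.lp_Q0 h (f := fun c => inM 0x3ff2fcbad0340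
    (mulC (mulC (nC 1 2) c) (nC 1 2))) (by decide +kernel))
  rwa [← mul_assoc, ← mul_assoc, n_sq, one_mul, mul_assoc, n_sq, mul_one] at this

theorem Uw_eq : Uw = Q0 ⊓ Qw := le_antisymm (le_inf (pat_le (by decide) (by decide)) (pat_le (by decide) (by decide)))
  (inf_le (by decide) (by decide))

theorem W7_eq : W7 = A0 ⊓ Q0 := le_antisymm (le_inf (pat_le (by decide) (by decide)) (pat_le (by decide) (by decide)))
  (inf_le (by decide) (by decide))

theorem inf01 : A0 ⊓ A1 = Z0 := le_antisymm (inf_le (by decide) (by decide))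
  (le_inf (pat_le (by decide) (by decide)) (pat_le (by decide) (by decide)))

theorem inf02 : A0 ⊓ A2 = Z0 := by
  refine le_antisymm (fun x h => ⟨h.1.1, fun i j e => ?_⟩) (le_inf (pat_le (by decide) (by decide)) Z0_le_A2)
  obtain rfl : j = 4 := Fin.ext (of_decide_eq_true e)
  by_cases hi : i = 4
  · exact hi ▸ x.x.2.2 4
  · rw [h.2.2 i hi, h.1.1 i 4 rfl, Matrix.one_apply_ne hi]

theorem inf12 : A1 ⊓ A2 = Z0 := by
  refine le_antisymm (fun x h => ⟨fun i j _ => ?_, h.1.2⟩) (le_inf (pat_le (by decide) (by decide)) Z0_le_A2)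
  by_cases e : i ≠ 4 ∧ j = 4
  · obtain ⟨hi, rfl⟩ := e
    rw [← h.2.2 i hi, h.1.2 i 4 rfl, Matrix.one_apply_ne hi]
  · exact h.1.1 i j (by revert i j; decide)

theorem sup01 : A0 ⊔ A1 = R0 := le_antisymm (sup_le (pat_le (by decide) (by decide)) (pat_le (by decide) (by decide)))
  (gen_up (by decide) (fun _ _ _ _ => mem_sup_left (mem_A0.2 rfl)) fun i j _ h => mem_sup_right (by
    revert i j; decide +kernel))

theorem sup02 : A0 ⊔ A2 = R0 := le_antisymm (sup_le (pat_le (by decide) (by decide)) A2_le_R0)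
  (gen_up (by decide) (fun _ _ _ _ => mem_sup_left (mem_A0.2 rfl)) fun i j _ h =>
    (mul_mem_cancel_left (mem_sup_left (mem_A0.2 rfl : t i j ∈ A0))).1 (mem_sup_right (by
      revert i j; decide +kernel)))

theorem sup12 : A1 ⊔ A2 = R0 := by
  have k : ∀ i j : Fin 5, i < j → e i j ∈ R0 → e i j ∈ A1 := by decide +kernel
  have k1 : ∀ i j : Fin 5, i < j → t i j ∈ A1 ∨ (e i j ∈ A1 ∧ t i j * e i j ∈ A2) := by decide +kernel
  exact le_antisymm (sup_le (pat_le (by decide) (by decide)) A2_le_R0) (gen_up (by decide) (fun i j l _ =>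
    (k1 i j l).elim mem_sup_left fun a => (mul_mem_cancel_right (mem_sup_left a.1)).1 (mem_sup_right a.2))
    fun i j l h => mem_sup_left (k i j l h))

theorem ne01 : A0 ≠ A1 := fun h => absurd (h ▸ mem_A0.2 rfl : t 0 4 ∈ A1) (by decide +kernel)

theorem ne02 : A0 ≠ A2 := fun h => absurd (h ▸ mem_A0.2 rfl : t 0 4 ∈ A2) (by decide +kernel)

theorem ne12 : A1 ≠ A2 := fun h => absurd (h ▸ (by decide +kernel : e 0 4 ∈ A1) : e 0 4 ∈ A2) (by decide +kernel)

theorem card_A2Q : Nat.card (A2 ⊓ Q0 : Subgroup Mo) = 2 ^ 7 := by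
  rw [← card_W7]
  refine Nat.card_eq_of_bijective (fun a => ⟨th a.1.x, fun _ _ _ => rfl, a.2.2.2⟩) ⟨fun a b h => ?_, fun a => ?_⟩
  · have h1 : a.1.x = b.1.x := congrArg (fun y : W7 => y.1.x) h
    refine Subtype.ext (Mo.ext h1 (Units.ext (Matrix.ext fun i j => ?_)))
    by_cases e : i ≠ 4 ∧ j = 4
    · obtain ⟨hi, rfl⟩ := e
      rw [← a.2.1.2 i hi, ← b.2.1.2 i hi, h1]
    · have : pE4 i j = true := by revert i j; decide
      rw [a.2.1.1.1 i j this, b.2.1.1.1 i j this]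
  · have k : ∀ p q : ZMod 2, ∃ g ∈ [1, E 0 4, E 1 4, E 0 4 * E 1 4], io0 g ∈ R0 ∧ io0 g ∈ Q0 ∧
        g.1 0 4 = p ∧ g.1 1 4 = q ∧ g.1 2 4 = 0 ∧ g.1 3 4 = 0 := by decide +kernel
    obtain ⟨g, -, h1, h2, h3, h4, h5, h6⟩ := k (a.1.x.1 0 4) (a.1.x.1 1 4)
    refine ⟨⟨⟨a.1.x, g⟩, ⟨⟨h1.1, fun _ _ e => absurd e (by simp [pN])⟩, fun i hi => ?_⟩, h2.1, a.2.2⟩,
      Subtype.ext (eq_th (W7_eq.le a.2).1).symm⟩
    fin_cases i
    exacts [h3.symm, h4.symm, (a.2.2 2 4 rfl).trans h5.symm, (a.2.2 3 4 rfl).trans h6.symm, absurd rfl hi]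

theorem conj_Z3 {x : Mo} (h : x ∈ Z3) (h1 : x ≠ 1) (h2 : x ≠ z0) : ∃ k ∈ H0, k * x * k⁻¹ = w0 := by
  obtain ⟨c, hc⟩ := exists_cd x
  have key : ∀ k d, Cd k d → inM 0x631800000000 d = true → mulC d c = mulC (tC 0 2) d →
      ∃ k ∈ H0, k * x * k⁻¹ = w0 := fun k d hd a b =>
    ⟨k, hd.mem_H0.2 a, mul_inv_eq_iff_eq_mul.2 (((hd.mul hc).eq_iff ((cd_t (by decide)).mul hd)).2 b)⟩
  have := hc.lp_Z3 h (f := fun c => Nat.beq c oneC || Nat.beq c (tC 0 1) ||
    [oneC, nC 0 1, eC 1 2, mulC (nC 0 1) (eC 0 2), eC 1 0, mulC (eC 1 2) (eC 1 0)].any fun d =>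
      Nat.beq (mulC d c) (mulC (tC 0 2) d)) (by decide +kernel)
  simp only [Bool.or_eq_true, Nat.beq_eq, List.any_cons, List.any_nil, Bool.false_eq_true, or_false] at this
  have a1 : Cd (n 0 1) (nC 0 1) := cd_n (by decide)
  have a2 : Cd (e 1 2) (eC 1 2) := cd_e (by decide)
  have a3 : Cd (e 0 2) (eC 0 2) := cd_e (by decide)
  have a4 : Cd (e 1 0) (eC 1 0) := cd_e (by decide)
  rcases this with (a | a) | a | a | a | a | a | a
  exacts [absurd (hc.eq_one.2 a) h1, absurd ((hc.eq_iff (cd_t (by decide))).2 a) h2,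
    key _ _ cd_one (by decide +kernel) a, key _ _ a1 (by decide +kernel) a, key _ _ a2 (by decide +kernel) a,
    key _ _ (a1.mul a3) (by decide +kernel) a, key _ _ a4 (by decide +kernel) a,
    key _ _ (a2.mul a4) (by decide +kernel) a]

end CfsgLib.L5R
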