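import Mathlib
import Cfsg.Agent.Lib.L5R.Bas2
import Cfsg.Agent.Lib.L5R.Bas1b

/-!
# the element `d0` and the action of `T0` on `Q0` (plans/L5R.md)
-/

set_option autoImplicit false
set_option maxHeartbeats 400000
set_option Elab.async false
set_option linter.unusedVariables false

namespace CfsgLib.L5R

open Subgroup Cfsg CfsgLib.Tech CfsgLib.Held CfsgLib.MOrb CfsgLib.L72 CfsgLib.LargeExtra CfsgLib.ExtraTwo

namespace B3

/-- the code of `d0` -/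
def dC : ℕ := nat_lit 571886773731328
/-- the code of `d0⁻¹` -/
def iC : ℕ := nat_lit 571884659802112

theorem cd : Cd d0 dC := (by decide +kernel : mulC (eC 0 1) (eC 1 0) = dC) ▸
  (cd_e (i := 0) (j := 1) (by decide)).mul (cd_e (i := 1) (j := 0) (by decide))

theorem ci : Cd d0⁻¹ iC := by
  have h : Cd (d0 * d0) iC := (by decide +kernel : mulC dC dC = iC) ▸ cd.mul cd
  rwa [cd.inv_eq h (by decide +kernel)]

theorem cz : Cd z0 (tC 0 1) := cd_t (i := 0) (j := 1) (by decide)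

/-- equality modulo `z0` -/
def Md (u v : Mo) : Prop := u = v ∨ u = z0 * v

/-- commutation modulo `z0` -/
noncomputable def md (c d : ℕ) : Bool := frc (mulC c d) fun a => frc (mulC d c) fun b =>
  Nat.beq a b || Nat.beq a (mulC (tC 0 1) b)

theorem md_iff {x y : Mo} {c d : ℕ} (h : Cd x c) (h' : Cd y d) : Md (x * y) (y * x) ↔ md c d = true := by
  rw [md, frc_eq, frc_eq, Bool.or_eq_true, Nat.beq_eq, Nat.beq_eq, ← h.comm_iff h',
    ← (h.mul h').eq_iff (cz.mul (h'.mul h)), Md]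

theorem md_of {x y : Mo} (h : x * y * x⁻¹ * y⁻¹ = 1 ∨ x * y * x⁻¹ * y⁻¹ = z0) : Md (x * y) (y * x) :=
  h.imp (fun e => by rw [← one_mul (y * x), ← e]; group) fun e => by rw [← e]; group

/-- commutation with six generators modulo `z0` -/
noncomputable def m6 (F : ℕ → ℕ → ℕ) (c : ℕ) : Bool :=
  (md (F 0 2) c && (md (F 0 3) c && md (F 0 4) c)) && (md (F 1 2) c && (md (F 1 3) c && md (F 1 4) c))

/-- `v` moves `y` modulo `z0` -/
noncomputable def mv (v y : ℕ) : Bool :=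
  !(Nat.beq (mulC v y) (mulC y v) || Nat.beq (mulC v y) (mulC (mulC y (tC 0 1)) v))

/-- the seven planes of `⟨t23, t24, t34⟩` -/
def PL : List (ℕ × ℕ) := [(571885666574336, 571885670645760),
  (571885666574336, 571885675347968),
  (571885670645760, 571885675347968),
  (571885670785024, 571885675347968),
  (571885675487232, 571885670645760),
  (571885679558656, 571885666574336),
  (571885670785024, 571885675487232)]

theorem nQ {x q : Mo} (hx : x ∈ H0) (hq : q ∈ Q0) : x * q * x⁻¹ ∈ Q0 :=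
  (mem_normalizer_iff.1 (H0_norm hx) q).1 hq

/-- the centraliser of `d0` modulo `Q0` -/
def K1 : Subgroup Mo := ofMul {x | x ∈ H0 ∧ x * d0 * x⁻¹ * d0⁻¹ ∈ Q0} ⟨one_mem _, by simp⟩
  fun x hx y hy => ⟨mul_mem hx.1 hy.1, by
    convert mul_mem (nQ hx.1 hy.2) hx.2 using 1
    group⟩

/-- the normaliser of `⟨d0⟩` modulo `Q0` -/
def K2 (hd : d0 ∈ H0) : Subgroup Mo :=
  ofMul {x | x ∈ H0 ∧ (x * d0 * x⁻¹ * d0⁻¹ ∈ Q0 ∨ x * d0 * x⁻¹ * d0 ∈ Q0)} ⟨one_mem _, .inl (by simp)⟩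
    fun x hx y hy => ⟨mul_mem hx.1 hy.1, by
      rcases hy.2 with k | k
      · refine hx.2.imp (fun l => ?_) fun l => ?_ <;> convert mul_mem (nQ hx.1 k) l using 1 <;> group
      · refine hx.2.symm.imp (fun l => ?_) fun l => ?_
        · convert mul_mem (nQ hx.1 k) (nQ hd (inv_mem l)) using 1
          group
        · convert mul_mem (nQ hx.1 k) (nQ (inv_mem hd) (inv_mem l)) using 1
          group⟩

/-- test for `K1` -/
noncomputable def k1 (c : ℕ) : Bool :=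
  inM 0x631800000000 c && inM 0x3fff8c7ce7000 (mulC (mulC (mulC c dC) c) iC)

theorem mem_K1 {x : Mo} {c : ℕ} (h : Cd x c) (hi : x⁻¹ = x) (k : k1 c = true) : x ∈ K1 := by
  rw [k1, Bool.and_eq_true] at k
  exact ⟨h.mem_H0.2 k.1, by rw [hi]; exact (((h.mul cd).mul h).mul ci).mem_Q0.2 k.2⟩

theorem idx {x y : Mo} (hx : x ∈ T0) (hy : y ∈ T0) (hx' : x ∉ Tz) (hy' : y ∉ Tz) : x * y ∈ Tz := by
  have k : ∀ {x : Mo}, x ∈ T0 → (x ∈ Tz ↔ x.g.1 0 1 = 0) := fun {x} hx =>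
    ⟨fun h => h.1 0 1 (by decide), fun h => ⟨fun i j p => by
      rcases (by decide : ∀ i j, pTz i j = true → pT i j = true ∨ (i = 0 ∧ j = 1)) i j p with p | ⟨rfl, rfl⟩
      exacts [hx.1 i j p, h], hx.2⟩⟩
  have o : ∀ a : ZMod 2, a ≠ 0 → a = 1 := by decide
  rw [k (mul_mem hx hy)]
  change (x.g.1 * y.g.1) 0 1 = 0
  rw [Matrix.mul_apply, Fin.sum_univ_five, hx.1 0 0 rfl, hy.1 1 1 rfl, hy.1 2 1 rfl, hy.1 3 1 rfl, hy.1 4 1 rfl,
    o _ (mt (k hx).2 hx'), o _ (mt (k hy).2 hy')]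
  simp
  rfl

theorem th_mem (X : Alt) : th X ∈ A0 := mem_A0.2 rfl

theorem z_mem : z0 ∈ A0 := th_mem _

theorem A_comm {a b : Mo} (ha : a ∈ A0) (hb : b ∈ A0) : a * b = b * a := by
  have i : ∀ a ∈ A0, a⁻¹ = a := fun a ha => inv_eq_of_mul_eq_one_right (A0_sq a ha)
  rw [← i _ (mul_mem ha hb), mul_inv_rev, i a ha, i b hb]

end B3

theorem d0_three : d0 ^ 3 = 1 := by
  rw [pow_succ, pow_two]
  exact ((B3.cd.mul B3.cd).mul B3.cd).eq_one.2 (by decide +kernel)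

theorem d0_H0 : d0 ∈ H0 := by
  exact B3.cd.mem_H0.2 (by decide +kernel)

theorem d0_N1 : d0 ∈ N1 := by
  exact B3.cd.mem_N1.2 (by decide +kernel)

theorem d0_fpf {q : Mo} (hq : q ∈ Q0) (h : d0 * q * d0⁻¹ * q⁻¹ = 1 ∨ d0 * q * d0⁻¹ * q⁻¹ = z0) : q = 1 ∨ q = z0 := by
  obtain ⟨c, hc⟩ := exists_cd q
  have := hc.lp_Q0 hq (f := fun c => !(B3.md B3.dC c) || (Nat.beq c oneC || Nat.beq c (tC 0 1)))
    (by decide +kernel)
  rw [(B3.md_iff B3.cd hc).1 (B3.md_of h)] at this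
  simpa only [Bool.not_true, Bool.false_or, Bool.or_eq_true, Nat.beq_eq, ← hc.eq_one, ← hc.eq_iff B3.cz]
    using this

theorem Tz_d0 {x : Mo} (h : x ∈ Tz) : x * d0 * x⁻¹ * d0⁻¹ ∈ Q0 := by
  refine (gen_up (K := B3.K1) (by decide) (fun i j l _ => ?_) (fun i j l k => ?_) h).2
  · exact B3.mem_K1 (cd_t l.ne) (t_inv i j) ((by decide +kernel : ∀ i j : Fin 5, i < j → B3.k1 (tC i j) = true) i j l)
  · exact B3.mem_K1 (cd_e l.ne) (e_inv i j) ((by decide +kernel : ∀ i j : Fin 5, i < j →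
      inM 0x3ef38c6000000 (eC i j) = true → B3.k1 (eC i j) = true) i j l ((cd_e l.ne).mem_Tz.1 k))

theorem T0_d0 {x : Mo} (h : x ∈ T0) (h' : x ∉ Tz) : x * d0 * x⁻¹ * d0 ∈ Q0 := by
  have c : Cd (e 0 1) _ := cd_e (by decide)
  have h1 := Tz_d0 (B3.idx (c.mem_T0.2 (by decide +kernel)) h (mt c.mem_Tz.1 (by decide +kernel)) h')
  have h2 : e 0 1 * d0 * e 0 1 * d0 ∈ Q0 := (((c.mul B3.cd).mul c).mul B3.cd).mem_Q0.2 (by decide +kernel)
  have h3 := mul_mem (B3.nQ (inv_mem (c.mem_H0.2 (by decide +kernel))) h1) h2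
  rwa [show (e 0 1)⁻¹ * (e 0 1 * x * d0 * (e 0 1 * x)⁻¹ * d0⁻¹) * (e 0 1)⁻¹⁻¹ * (e 0 1 * d0 * e 0 1 * d0) =
    x * d0 * x⁻¹ * ((e 0 1)⁻¹ * d0⁻¹ * (e 0 1 * e 0 1) * d0 * e 0 1) * d0 by group, e_sq, mul_one,
    inv_mul_cancel_right, inv_mul_cancel, mul_one] at h3

theorem d0_not : d0 * d0 ∉ Q0 := by
  exact mt (B3.cd.mul B3.cd).mem_Q0.1 (by decide +kernel)

theorem H0_d0 {k : Mo} (h : k ∈ H0) : k * d0 * k⁻¹ * d0⁻¹ ∈ Q0 ∨ k * d0 * k⁻¹ * d0 ∈ Q0 := by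
  have k : ∀ {i j : Fin 5}, i ≠ j → inM 0x631800000000 (nC i j) = true →
      inM 0x3fff8c7ce7000 (mulC (mulC (mulC (nC i j) B3.dC) (nC i j)) B3.iC) = true ∨
      inM 0x3fff8c7ce7000 (mulC (mulC (mulC (nC i j) B3.dC) (nC i j)) B3.dC) = true → n i j ∈ B3.K2 d0_H0 :=
    fun {i j} l h1 h2 => ⟨(cd_n l).mem_H0.2 h1, by
      rw [n_inv]
      exact h2.imp ((((cd_n l).mul B3.cd).mul (cd_n l)).mul B3.ci).mem_Q0.2
        ((((cd_n l).mul B3.cd).mul (cd_n l)).mul B3.cd).mem_Q0.2⟩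
  refine (gen_H0 (K := B3.K2 d0_H0) (fun x hx => ⟨pat_le (by decide) (by decide) hx, ?_⟩)
    (k (by decide) (by decide +kernel) (by decide +kernel)) (k (by decide) (by decide +kernel) (by decide +kernel))
    (k (by decide) (by decide +kernel) (by decide +kernel)) h).2
  exact (em _).imp Tz_d0 (T0_d0 hx)

theorem Tz_idx {x y : Mo} (hx : x ∈ T0) (hy : y ∈ T0) (hx' : x ∉ Tz) (hy' : y ∉ Tz) : x * y ∈ Tz := by
  exact B3.idx hx hy hx' hy'

theorem gen_d0 {K : Subgroup Mo} (h : ∀ q ∈ Q0, q * d0 * q⁻¹ * d0⁻¹ ∈ K) : Q0 ≤ K := by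
  have k : ∀ {x y : Mo} {c d : ℕ}, Cd x c → Cd y d → inM 0x3fff8c7ce7000 c = true → mulC c c = oneC →
      d = mulC (mulC (mulC c B3.dC) c) B3.iC → y ∈ K := fun hx hy h1 h2 h3 => by
    have := h _ (hx.mem_Q0.2 h1)
    rwa [hx.inv_eq hx h2, ← (hy.eq_iff (((hx.mul B3.cd).mul hx).mul B3.ci)).2 h3] at this
  have a : ∀ i j : Fin 5, i = 0 ∨ i = 1 → 2 ≤ j → t i j ∈ K ∧ e i j ∈ K := fun i j hi hj => by
    have h0 : 0 ≠ j := by rintro rfl; exact absurd hj (by decide)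
    have h1 : 1 ≠ j := by rintro rfl; exact absurd hj (by decide)
    rcases hi with rfl | rfl
    · refine ⟨k (cd_t h1) (cd_t h0) ?_ ?_ ?_, k (cd_e h1) (cd_e h0) ?_ ?_ ?_⟩ <;>
        (clear h0 h1; revert j; decide +kernel)
    · refine ⟨k ((cd_t h0).mul (cd_t h1)) (cd_t h1) ?_ ?_ ?_, k ((cd_e h0).mul (cd_e h1)) (cd_e h1) ?_ ?_ ?_⟩ <;>
        (clear h0 h1; revert j; decide +kernel)
  have c1 : Cd (e 0 2) _ := cd_e (by decide)
  have c2 : Cd (t 1 2) _ := cd_t (by decide)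
  have z : z0 ∈ K := by
    rw [(B3.cz.eq_iff ((c1.mul c2).mul (c1.mul c2))).2 (by decide +kernel)]
    have := mul_mem (a 0 2 (.inl rfl) le_rfl).2 (a 1 2 (.inr rfl) le_rfl).1
    exact mul_mem this this
  refine gen_up (by decide) (fun i j l k => ?_) fun i j l k => ?_
  · rcases (by decide +kernel : ∀ i j : Fin 5, i < j → inM 0x3fff8c7ce7000 (tC i j) = true →
      (i = 0 ∧ j = 1) ∨ ((i = 0 ∨ i = 1) ∧ 2 ≤ j)) i j l ((cd_t l.ne).mem_Q0.1 k) with ⟨rfl, rfl⟩ | k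
    exacts [z, (a i j k.1 k.2).1]
  · have k := (by decide +kernel : ∀ i j : Fin 5, i < j → inM 0x3fff8c7ce7000 (eC i j) = true →
      (i = 0 ∨ i = 1) ∧ 2 ≤ j) i j l ((cd_e l.ne).mem_Q0.1 k)
    exact (a i j k.1 k.2).2

theorem fai_T0 {x : Mo} (hx : x ∈ T0) (h : ∀ q ∈ Q0, q * x * q⁻¹ * x⁻¹ = 1 ∨ q * x * q⁻¹ * x⁻¹ = z0) : x ∈ Q0 := by
  have ha := B3.th_mem x.x
  have h1 : ∀ q ∈ Q0, B3.Md (q * (th x.x * io0 x.g)) (th x.x * io0 x.g * q) := fun q hq => by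
    rw [th_mul_io0]; exact B3.md_of (h q hq)
  have zc := B3.A_comm ha B3.z_mem
  have key : ∀ {y : Mo} {c : ℕ} (f : Fin 5 → Fin 5 → Mo) (F : ℕ → ℕ → ℕ), (∀ {i j}, i ≠ j → Cd (f i j) (F i j)) →
      (∀ i j, f i j ∈ Q0 → B3.Md (f i j * y) (y * f i j)) → Cd y c →
      [F 0 2, F 0 3, F 0 4, F 1 2, F 1 3, F 1 4].all (inM 0x3fff8c7ce7000) = true → B3.m6 F c = true :=
    fun f F h1 h2 hc h3 => by
      simp only [List.all_cons, List.all_nil, Bool.and_true, Bool.and_eq_true] at h3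
      obtain ⟨a1, a2, a3, a4, a5, a6⟩ := h3
      have k : ∀ {i j : Fin 5}, i ≠ j → inM 0x3fff8c7ce7000 (F i j) = true → B3.md (F i j) _ = true :=
        fun l a => (B3.md_iff (h1 l) hc).1 (h2 _ _ ((h1 l).mem_Q0.2 a))
      simp only [B3.m6, Bool.and_eq_true]
      exact ⟨⟨k (i := 0) (j := 2) (by decide) a1, k (i := 0) (j := 3) (by decide) a2,
        k (i := 0) (j := 4) (by decide) a3⟩, k (i := 1) (j := 2) (by decide) a4,
        k (i := 1) (j := 3) (by decide) a5, k (i := 1) (j := 4) (by decide) a6⟩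
  have hy : io0 x.g ∈ Q0 := by
    obtain ⟨c, hc⟩ := exists_cd (io0 x.g)
    have := hc.loop (P := pT) (R := pA) (h1 := by decide) (h2 := by decide) ⟨hx.1, fun _ _ _ => rfl⟩
      (bs := [26, 27, 28, 29, 32, 33, 34, 38, 39, 44]) (by decide +kernel)
      (f := fun c => !(B3.m6 tC c) || inM 0x3fff8c7ce7000 c) (by decide +kernel)
    rw [key t tC cd_t (fun i j hq => ?_) hc (by decide +kernel)] at this
    · exact hc.mem_Q0.2 this
    · have := h1 _ hq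
      rw [← mul_assoc, B3.A_comm (a := t i j) (B3.th_mem _) ha, mul_assoc, mul_assoc] at this
      exact this.imp mul_left_cancel fun e => mul_left_cancel (by rwa [← mul_assoc z0, ← zc, mul_assoc] at e)
  rw [← th_mul_io0 x]
  refine mul_mem ?_ hy
  obtain ⟨c, hc⟩ := exists_cd (th x.x)
  have := hc.lp_A0 ha (f := fun c => !(B3.m6 eC c) || inM 0x3fff8c7ce7000 c) (by decide +kernel)
  rw [key e eC cd_e (fun i j hq => ?_) hc (by decide +kernel)] at this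
  · exact hc.mem_Q0.2 this
  · have h2 := h1 _ hq
    rw [mul_assoc, ← mul_assoc (e i j)] at h2
    rcases es_Q0.comm _ hy _ hq with k | k <;> rw [k] at h2
    · rw [← mul_assoc (th _)] at h2
      exact h2.imp mul_right_cancel fun e => mul_right_cancel (e.trans (mul_assoc _ _ _).symm)
    · rw [← mul_assoc (th _), zc, mul_assoc z0, ← mul_assoc (th _)] at h2
      exact h2.symm.imp (fun e => mul_right_cancel (by rwa [← mul_assoc z0, z0_sq, one_mul] at e))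
        fun e => mul_right_cancel (e.trans (mul_assoc _ _ _).symm)

theorem big_A0 {q : Mo} (hq : q ∈ Q0) (h : q * q = z0) : ∃ v₁ ∈ A0, ∃ v₂ ∈ A0, ∀ v ∈ [v₁, v₂, v₁ * v₂],
    v * q * v⁻¹ ≠ q ∧ v * q * v⁻¹ ≠ q * z0 := by
  have ha := B3.th_mem q.x
  obtain ⟨c, hc⟩ := exists_cd (io0 q.g)
  have h1 := hc.loop (P := pE) (R := pA) (h1 := by decide) (h2 := by decide) ⟨hq.1, fun _ _ _ => rfl⟩
    (bs := [27, 28, 29, 32, 33, 34]) (by decide +kernel)
    (f := fun c => Nat.beq c oneC || B3.PL.any fun p => B3.mv p.1 c && (B3.mv p.2 c && B3.mv (mulC p.1 p.2) c))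
    (by decide +kernel)
  simp only [Bool.or_eq_true, Nat.beq_eq, ← hc.eq_one, List.any_eq_true, Bool.and_eq_true] at h1
  rcases h1 with h1 | ⟨p, hp, h1, h2, h3⟩
  · rw [← th_mul_io0 q, h1, mul_one, A0_sq _ ha] at h
    exact absurd h.symm z0_ne
  obtain ⟨a1, a2, a3, a4⟩ := (by decide +kernel : ∀ p ∈ B3.PL, okC p.1 one = true ∧ okC p.2 one = true ∧
    inM 0x3fffffe000000 p.1 = true ∧ inM 0x3fffffe000000 p.2 = true) p hp
  have c1 := cd_el a1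
  have c2 := cd_el a2
  have k : ∀ {v : Mo} {d : ℕ}, Cd v d → v ∈ A0 → B3.mv d c = true →
      v * q * v⁻¹ ≠ q ∧ v * q * v⁻¹ ≠ q * z0 := fun {v d} hd hv hm => by
    rw [B3.mv, Bool.not_eq_true', ← Bool.not_eq_true, Bool.or_eq_true, Nat.beq_eq, Nat.beq_eq,
      ← hd.comm_iff hc, ← (hd.mul hc).eq_iff ((hc.mul B3.cz).mul hd), not_or] at hm
    rw [← th_mul_io0 q, ← mul_assoc, B3.A_comm hv ha, ne_eq, ne_eq, mul_inv_eq_iff_eq_mul, mul_inv_eq_iff_eq_mul]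
    simpa only [mul_assoc, mul_right_inj] using hm
  have m1 := c1.mem_A0.2 a3
  have m2 := c2.mem_A0.2 a4
  refine ⟨_, m1, _, m2, ?_⟩
  simp only [List.forall_mem_cons]
  exact ⟨k c1 m1 h1, k c2 m2 h2, k (c1.mul c2) (mul_mem m1 m2) h3, by simp⟩

theorem t24_not {a : Mo} (ha : a ∈ A1) : a * t 2 4 ∉ Q0 := by
  obtain ⟨c, hc⟩ := exists_cd a
  have := hc.lp_A1 ha (f := fun c => !(inM 0x3fff8c7ce7000 (mulC c (tC 2 4)))) (by decide +kernel)
  intro h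
  rw [show inM _ (mulC c (tC 2 4)) = true from (hc.mul (cd_t (i := 2) (j := 4) (by decide))).mem_Q0.1 h] at this
  exact absurd this (by decide)

theorem e34_not {k : Mo} (hk : k ∈ H0) : k * t 3 4 * k⁻¹ * e 3 4 ∉ Q0 := by
  intro h
  rw [t, conj_th] at h
  exact absurd (show (1 * E 3 4 : GN 5).1 3 4 = (1 : Mat) 3 4 from h.1 3 4 (by decide)) (by decide +kernel)


end CfsgLib.L5R
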