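import Mathlib
import Cfsg.Agent.Lib.L5R.Bas2
import Cfsg.Agent.Lib.TwoGrp.Pres

/-!
# the bracket criterion (plans/L5R.md)
-/

set_option autoImplicit false
set_option maxHeartbeats 400000
set_option Elab.async false
set_option linter.unusedVariables false

namespace CfsgLib.L5R

open Subgroup Cfsg CfsgLib.Tech CfsgLib.Held CfsgLib.MOrb CfsgLib.L72 CfsgLib.LargeExtra CfsgLib.ExtraTwo

namespace Br

/-- codes of words, found by instance search -/
class HC (m : Mo) (c : outParam ℕ) : Prop where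
  cd : Cd m c

/-- the code of `t i j`, also for `i = j` -/
def tD (i j : Fin 5) : ℕ := if i = j then oneC else tC i j
/-- the code of `e i j`, also for `i = j` -/
def eD (i j : Fin 5) : ℕ := if i = j then oneC else eC i j

theorem cd_tD : ∀ i j : Fin 5, Cd (t i j) (tD i j) := by decide +kernel
theorem cd_eD : ∀ i j : Fin 5, Cd (e i j) (eD i j) := by decide +kernel

instance (i j : Fin 5) : HC (t i j) (tD i j) := ⟨cd_tD i j⟩
instance (i j : Fin 5) : HC (e i j) (eD i j) := ⟨cd_eD i j⟩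
instance (i j : Fin 5) : HC (t i j)⁻¹ (tD i j) := ⟨(t_inv i j).symm ▸ cd_tD i j⟩
instance (i j : Fin 5) : HC (e i j)⁻¹ (eD i j) := ⟨(e_inv i j).symm ▸ cd_eD i j⟩
instance : HC z0 (tD 0 1) := ⟨cd_tD 0 1⟩
instance : HC w0 (tD 0 2) := ⟨cd_tD 0 2⟩
instance : HC r0 (tD 1 2) := ⟨cd_tD 1 2⟩
instance : HC 1 oneC := ⟨cd_one⟩
instance {a b : Mo} {c d : ℕ} [h : HC a c] [k : HC b d] : HC (a * b) (mulC c d) := ⟨h.cd.mul k.cd⟩
instance {a b : Mo} {c d : ℕ} [h : HC a⁻¹ c] [k : HC b⁻¹ d] : HC (a * b)⁻¹ (mulC d c) :=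
  ⟨(mul_inv_rev a b).symm ▸ k.cd.mul h.cd⟩

theorem hc_eq {a b : Mo} {c d : ℕ} [h : HC a c] [k : HC b d] (e : c = d) : a = b := (h.cd.eq_iff k.cd).2 e

/-- the elements of `T0` commuting with `g` modulo `N` -/
def cmS (N : Subgroup Mo) (hN : T0 ≤ normalizer (N : Set Mo)) (g : Mo) : Subgroup Mo :=
  ofMul {x | x ∈ T0 ∧ x * g * x⁻¹ * g⁻¹ ∈ N} ⟨one_mem _, by simp⟩ fun x hx y hy => ⟨mul_mem hx.1 hy.1, by
    rw [show x * y * g * (x * y)⁻¹ * g⁻¹ = x * (y * g * y⁻¹ * g⁻¹) * x⁻¹ * (x * g * x⁻¹ * g⁻¹) by group]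
    exact mul_mem (conj_mem_of_mem_normalizer (hN hx.1) hy.2) hx.2⟩

/-- the code of the commutator of two involutions -/
noncomputable def cmC (a b : ℕ) : ℕ := frc (mulC a b) fun c => mulC c c

theorem cd_cm {a b : Mo} {c d : ℕ} (h : Cd a c) (k : Cd b d) (a2 : a⁻¹ = a) (b2 : b⁻¹ = b) :
    Cd (a * b * a⁻¹ * b⁻¹) (cmC c d) := by
  rw [a2, b2, cmC, frc_eq, mul_assoc]
  exact (h.mul k).mul (h.mul k)

/-- commutators of pattern subgroups -/
theorem cm_gen {P R P' R' P'' R'' : Pt} {h : okG P} {h' : okX P R} {k : okG P'} {k' : okX P' R'} {l : okG P''}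
    {l' : okX P'' R''} (hP : ∀ i j : Fin 5, j ≤ i → P i j) (hP' : ∀ i j : Fin 5, j ≤ i → P' i j)
    (hN : T0 ≤ normalizer (pat P'' R'' l l' : Set Mo)) {A B N : ℕ} (hA : mkM P R = A) (hB : mkM P' R' = B)
    (hM : mkM P'' R'' = N)
    (H : ∀ i j : Fin 5, ∀ c ∈ [tD i j, eD i j], inM A c = true → ∀ i j : Fin 5, ∀ d ∈ [tD i j, eD i j],
      inM B d = true → inM N (cmC c d) = true) :
    ∀ a ∈ pat P R h h', ∀ b ∈ pat P' R' k k', a * b * a⁻¹ * b⁻¹ ∈ pat P'' R'' l l' := by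
  have hT : pat P R h h' ≤ T0 := pat_le (fun i j e => hP i j (by simpa [pT] using e)) fun _ _ e => absurd e (by simp [pN])
  have hT' : pat P' R' k k' ≤ T0 :=
    pat_le (fun i j e => hP' i j (by simpa [pT] using e)) fun _ _ e => absurd e (by simp [pN])
  have H1 : ∀ (i j : Fin 5) (b : Mo) (d : ℕ), d ∈ [tD i j, eD i j] → Cd b d → b⁻¹ = b → b ∈ pat P' R' k k' →
      pat P R h h' ≤ cmS _ hN b := fun i j b d hd cb b2 hb =>
    gen_up hP (fun i' j' _ ha => ⟨hT ha, ((cd_cm (cd_tD i' j') cb (t_inv _ _) b2).mem_iff hM).2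
      (H i' j' _ (by simp) (((cd_tD i' j').mem_iff hA).1 ha) i j d hd ((cb.mem_iff hB).1 hb))⟩)
      fun i' j' _ ha => ⟨hT ha, ((cd_cm (cd_eD i' j') cb (e_inv _ _) b2).mem_iff hM).2
      (H i' j' _ (by simp) (((cd_eD i' j').mem_iff hA).1 ha) i j d hd ((cb.mem_iff hB).1 hb))⟩
  intro a ha b hb
  have fl : ∀ x y : Mo, x * y * x⁻¹ * y⁻¹ ∈ pat P'' R'' l l' → y * x * y⁻¹ * x⁻¹ ∈ pat P'' R'' l l' := fun x y e => by
    rw [← inv_mem_iff]; convert e using 1; group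
  have H2 : pat P' R' k k' ≤ cmS _ hN a := gen_up hP'
    (fun i j _ hb => ⟨hT' hb, fl _ _ (H1 i j _ _ (by simp) (cd_tD i j) (t_inv _ _) hb ha).2⟩)
    fun i j _ hb => ⟨hT' hb, fl _ _ (H1 i j _ _ (by simp) (cd_eD i j) (e_inv _ _) hb ha).2⟩
  exact fl _ _ (H2 hb).2

theorem cm_D0 : ∀ a ∈ D0, ∀ b ∈ D0, a * b * a⁻¹ * b⁻¹ ∈ Z3 :=
  cm_gen (by decide) (by decide) T0_norm_Z3 (A := 0x3ff39cf8c0000) (B := 0x3ff39cf8c0000) (N := 0x3ffffff8c6318)
    (by decide +kernel) (by decide +kernel) (by decide +kernel) (by decide +kernel)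

theorem cm_D2 : ∀ a ∈ D2, ∀ b ∈ Uw, a * b * a⁻¹ * b⁻¹ ∈ V2 :=
  cm_gen (by decide) (by decide) T0_norm_V2 (A := 0x3ff39c38c0000) (B := 0x3ffffcf8c6300) (N := 0x3ffffffef7bd8)
    (by decide +kernel) (by decide +kernel) (by decide +kernel) (by decide +kernel)

theorem cen_V2 {a : Mo} (h1 : a * z0 = z0 * a) (h2 : a * w0 = w0 * a) : V2 ≤ centralizer {a} := fun x hx => by
  rw [mem_centralizer_singleton_iff]
  rcases mem_V2.1 hx with k | k | k | k <;> rw [k]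
  · rw [mul_one, one_mul]
  · exact h1.symm
  · exact h2.symm
  · rw [mul_assoc, ← h2, ← mul_assoc, ← h1, mul_assoc]

/-- test for a witness pair -/
noncomputable def wit (u a b : ℕ) : Bool :=
  and (and (and (and (okC a (cg a)) (okC b (cg b))) (and (inM 0x3fff8c7ce7000 a) (inM 0x3ff2fcbad0340 b)))
    (and (and (Nat.beq (mulC a a) oneC) (Nat.beq (mulC b b) oneC))
      (aL [tD 0 1, tD 0 2, u] fun x => and (Nat.beq (mulC a x) (mulC x a)) (Nat.beq (mulC b x) (mulC x b)))))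
    (frc (cmC a b) fun c => and (not (inM 0x3ffffffef7bd8 c)) (not (inM 0x3ffffffef7bd8 (mulC c u))))

theorem wit_all : lp [1, 2, 3, 4, 7, 28, 29] (fun u => or (inM 0x3ffffff8c6318 u)
    (eL [(571885800652800, 572435422248960), (571894256369664, 571885737754624), (571911436238848, 571885733683200),
      (571902846304256, 572160611450880), (571894256369664, 572435493568512), (571911436238848, 572435489497088)]
      fun p => wit u p.1 p.2)) = true := by decide +kernel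

/-- `⟨V2, t 0 3⟩` -/
def U8 : Subgroup Mo := pat pA fun i j => decide (j.val = 4 ∨ (1 ≤ i.val ∧ 1 ≤ j.val))
/-- `⟨V2, t 0 3, t 0 4⟩` -/
def U16 : Subgroup Mo := pat pA fun i j => decide (1 ≤ i.val ∧ 1 ≤ j.val)

instance (m : Mo) : Decidable (m ∈ U8) := by unfold U8; infer_instance
instance (m : Mo) : Decidable (m ∈ U16) := by unfold U16; infer_instance

theorem two_le {K L : Subgroup Mo} (h : K ≤ L) {x : Mo} (h1 : x ∈ L) (h2 : x ∉ K) : 2 * Nat.card K ≤ Nat.card L := by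
  have k := card_mul_relIndex' h
  have k0 : K.relIndex L ≠ 0 := fun e => by
    rw [e, mul_zero] at k
    exact Nat.card_pos.ne k
  have k1 : K.relIndex L ≠ 1 := fun e => h2 (relIndex_eq_one.1 e h1)
  rw [← k, mul_comm]
  exact Nat.mul_le_mul_left _ (by omega)

theorem mem_U8 {K : Subgroup Mo} (h : V2 ≤ K) (h3 : t 0 3 ∈ K) : U8 ≤ K := by
  refine gen_up (by decide) (fun i j hij k => ?_) fun i j hij k => ?_
  · rcases (by decide +kernel : ∀ i j : Fin 5, i < j → t i j ∈ U8 → t i j ∈ V2 ∨ (i = 0 ∧ j = 3)) i j hij k with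
      k | ⟨rfl, rfl⟩
    exacts [h k, h3]
  · exact h ((by decide +kernel : ∀ i j : Fin 5, i < j → e i j ∈ U8 → e i j ∈ V2) i j hij k)

theorem mem_U16 {K : Subgroup Mo} (h : U8 ≤ K) (h4 : t 0 4 ∈ K) : U16 ≤ K := by
  refine gen_up (by decide) (fun i j hij k => ?_) fun i j hij k => ?_
  · rcases (by decide +kernel : ∀ i j : Fin 5, i < j → t i j ∈ U16 → t i j ∈ U8 ∨ (i = 0 ∧ j = 4)) i j hij k with
      k | ⟨rfl, rfl⟩
    exacts [h k, h4]
  · exact h ((by decide +kernel : ∀ i j : Fin 5, i < j → e i j ∈ U16 → e i j ∈ U8) i j hij k)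

theorem card_U8 : 8 ≤ Nat.card U8 := by
  have := two_le (K := V2) (L := U8) (pat_le (by decide) (by decide)) (x := t 0 3) (by decide +kernel)
    (by decide +kernel)
  rwa [card_V2] at this

theorem card_U16 : 16 ≤ Nat.card U16 := by
  have := two_le (K := U8) (L := U16) (pat_le (by decide) (by decide)) (x := t 0 4) (by decide +kernel)
    (by decide +kernel)
  have := card_U8
  omega

/-- the four cosets of `D2` in `T2` -/
theorem cls {y : Mo} (hy : y ∈ T2) : ∃ x ∈ [1, e 3 4, t 3 4, e 3 4 * t 3 4], y * x ∈ D2 := by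
  have ab : t 3 4 * e 3 4 = e 3 4 * t 3 4 := hc_eq (by decide +kernel)
  have ab' : ∀ x, t 3 4 * (e 3 4 * x) = e 3 4 * (t 3 4 * x) := fun x => by rw [← mul_assoc, ab, mul_assoc]
  have aa : ∀ x, e 3 4 * (e 3 4 * x) = x := fun x => by rw [← mul_assoc, e_sq, one_mul]
  have hL : ∀ x ∈ [1, e 3 4, t 3 4, e 3 4 * t 3 4], ∀ x' ∈ [1, e 3 4, t 3 4, e 3 4 * t 3 4],
      x' * x ∈ [1, e 3 4, t 3 4, e 3 4 * t 3 4] := by
    intro x hx x' hx'
    simp only [List.mem_cons, List.not_mem_nil, or_false] at hx hx' ⊢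
    rcases hx with rfl | rfl | rfl | rfl <;> rcases hx' with rfl | rfl | rfl | rfl <;>
      simp only [mul_assoc, ab, ab', aa, e_sq, t_sq, mul_one, one_mul, true_or, or_true]
  have hD : D2 ≤ T2 := pat_le (by decide) (by decide)
  let K : Subgroup Mo := ofMul {y | y ∈ T2 ∧ ∃ x ∈ [1, e 3 4, t 3 4, e 3 4 * t 3 4], y * x ∈ D2}
    ⟨one_mem _, 1, by simp, by simp⟩ fun a ⟨ha, x, hx, k⟩ b ⟨hb, x', hx', k'⟩ => ⟨mul_mem ha hb, _, hL x hx x' hx', by
      rw [show a * b * (x' * x) = a * (b * x') * a⁻¹ * (a * x) by group]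
      exact mul_mem (conj_mem_of_mem_normalizer (T2_norm_D2 ha) k') k⟩
  have hK : T2 ≤ K := by
    refine gen_up (by decide) (fun i j hij k => ⟨k, ?_⟩) fun i j hij k => ⟨k, ?_⟩
    · rcases (by decide +kernel : ∀ i j : Fin 5, i < j → t i j ∈ T2 → t i j ∈ D2 ∨ (i = 3 ∧ j = 4)) i j hij k with
        k | ⟨rfl, rfl⟩
      · exact ⟨1, by simp, by rwa [mul_one]⟩
      · exact ⟨t 3 4, by simp, by rw [t_sq]; exact one_mem _⟩
    · rcases (by decide +kernel : ∀ i j : Fin 5, i < j → e i j ∈ T2 → e i j ∈ D2 ∨ (i = 3 ∧ j = 4)) i j hij k with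
        k | ⟨rfl, rfl⟩
      · exact ⟨1, by simp, by rwa [mul_one]⟩
      · exact ⟨e 3 4, by simp, by rw [e_sq]; exact one_mem _⟩
  exact (hK hy).2

theorem key {U I : Subgroup Mo} (h1 : V2 ≤ U) (hc : ∀ x ∈ Uw, ∀ y ∈ I, x * y * x⁻¹ * y⁻¹ ∈ U) {X : Mo}
    (hy : ∃ y ∈ I, y * X ∈ D2) {x s : Mo} (hx : x ∈ Uw) (hs : X⁻¹ * x * X * x⁻¹ = s) (hs' : s ∈ Uw) : s ∈ U := by
  obtain ⟨y, hy, hd⟩ := hy
  have k := inv_mem (hc x hx y hy)
  rw [show (x * y * x⁻¹ * y⁻¹)⁻¹ = y * X * s * (y * X)⁻¹ * s⁻¹ * s * (y * X * x * (y * X)⁻¹ * x⁻¹) by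
    rw [← hs]; group] at k
  exact (mul_mem_cancel_left (h1 (cm_D2 _ hd _ hs'))).1 ((mul_mem_cancel_right (h1 (cm_D2 _ hd _ hx))).1 k)

theorem cen_U8 {a : Mo} (h1 : a * z0 = z0 * a) (h2 : a * w0 = w0 * a) (h3 : t 0 3 * a = a * t 0 3) :
    U8 ≤ centralizer {a} := mem_U8 (cen_V2 h1 h2) (mem_centralizer_singleton_iff.2 h3)

theorem cen_a : U8 ≤ centralizer {e 0 2} :=
  cen_U8 (hc_eq (by decide +kernel)) (hc_eq (by decide +kernel)) (hc_eq (by decide +kernel))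

theorem cen_b : U8 ≤ centralizer {t 2 3} :=
  cen_U8 (hc_eq (by decide +kernel)) (hc_eq (by decide +kernel)) (hc_eq (by decide +kernel))

theorem use {U : Subgroup Mo} {u b : Mo} (h : crit U u) (ha : U ≤ centralizer {e 0 2}) (hb : b ∈ Qw)
    (hb' : U ≤ centralizer {b}) (k : e 0 2 * b * (e 0 2)⁻¹ * b⁻¹ ∉ V2) : e 0 2 * b * (e 0 2)⁻¹ * b⁻¹ * u ∈ V2 :=
  (h _ (by decide +kernel) _ hb (fun _ hx => (mem_centralizer_singleton_iff.1 (ha hx)).symm)
    fun _ hx => (mem_centralizer_singleton_iff.1 (hb' hx)).symm).resolve_left k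

theorem use1 {U : Subgroup Mo} {u : Mo} (h : crit U u) (ha : U ≤ centralizer {e 0 2}) (hb : U ≤ centralizer {t 2 3}) :
    t 0 3 * u ∈ V2 := by
  have e1 : e 0 2 * t 2 3 * (e 0 2)⁻¹ * (t 2 3)⁻¹ = t 0 3 := hc_eq (by decide +kernel)
  exact e1 ▸ use h ha (by decide +kernel) hb (by rw [e1]; decide +kernel)

/-- the case of index two -/
theorem two {U I : Subgroup Mo} (h1 : V2 ≤ U) (hk : Nat.card U = 8 * D2.relIndex I) {u : Mo} (h : crit U u) {X s b : Mo}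
    (hI : ∀ y ∈ I, y ∈ D2 ∨ y * X ∈ D2) (XT : X ∈ T2) (X2 : X * X = 1) (XD : X ∉ D2) (h3 : t 0 3 ∈ U) (hs : s ∈ U)
    (hs' : s ∉ U8) (c1 : s * e 0 2 = e 0 2 * s) (c2 : s * t 2 3 = t 2 3 * s) (hb : b ∈ Qw)
    (c3 : U8 ≤ centralizer {b}) (c4 : s * b = b * s) (n1 : e 0 2 * b * (e 0 2)⁻¹ * b⁻¹ ∉ V2)
    (n2 : e 0 2 * b * (e 0 2)⁻¹ * b⁻¹ * (t 0 3)⁻¹ ∉ V2) : False := by
  have k1 := TwoGrp.relIndex_sup_zpowers (T2_norm_D2 XT) (X2 ▸ one_mem D2) XD
  have k2 : D2.relIndex I ≤ D2.relIndex (D2 ⊔ zpowers X) := relIndex_le_of_le_right (fun y hy => by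
    rcases hI y hy with k | k
    · exact mem_sup_left k
    · exact (mul_mem_cancel_right (mem_sup_right (mem_zpowers X))).1 (mem_sup_left k)) (by omega)
  have k3 := two_le (K := U8) (L := U8 ⊔ zpowers s) le_sup_left (mem_sup_right (mem_zpowers s)) hs'
  have k4 := card_U8
  have e1 : U8 ⊔ zpowers s = U := eq_of_le_of_card_ge (sup_le (mem_U8 h1 h3) (zpowers_le.2 hs)) (by omega)
  have ha : U ≤ centralizer {e 0 2} := e1 ▸ sup_le cen_a (zpowers_le.2 (mem_centralizer_singleton_iff.2 c1))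
  have m1 := use1 h ha (e1 ▸ sup_le cen_b (zpowers_le.2 (mem_centralizer_singleton_iff.2 c2)))
  have m2 := use h ha hb (e1 ▸ sup_le c3 (zpowers_le.2 (mem_centralizer_singleton_iff.2 c4))) n1
  refine n2 ?_
  convert mul_mem m2 (inv_mem m1) using 1
  group

/-- the case of index four -/
theorem four {U I : Subgroup Mo} (h1 : V2 ≤ U) (hI : I ≤ T2) (hk : Nat.card U = 8 * D2.relIndex I) {u : Mo}
    (h : crit U u) (h3 : t 0 3 ∈ U) (h4 : t 0 4 ∈ U) (h5 : e 0 4 ∈ U) : ∃ k ∈ H0, k * u * k⁻¹ = w0 := by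
  have k1 := card_mul_relIndex' (show D2 ≤ T2 from pat_le (by decide) (by decide))
  rw [card_D2, card_T2] at k1
  have k2 : D2.relIndex I ≤ D2.relIndex T2 := relIndex_le_of_le_right hI (by omega)
  have k3 := two_le (K := U16) (L := U16 ⊔ zpowers (e 0 4)) le_sup_left (mem_sup_right (mem_zpowers _))
    (by decide +kernel)
  have k4 := card_U16
  have e1 : U16 ⊔ zpowers (e 0 4) = U :=
    eq_of_le_of_card_ge (sup_le (mem_U16 (mem_U8 h1 h3) h4) (zpowers_le.2 h5)) (by omega)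
  have m1 := use1 h
    (e1 ▸ sup_le (mem_U16 cen_a (mem_centralizer_singleton_iff.2 (hc_eq (by decide +kernel))))
      (zpowers_le.2 (mem_centralizer_singleton_iff.2 (hc_eq (by decide +kernel)))))
    (e1 ▸ sup_le (mem_U16 cen_b (mem_centralizer_singleton_iff.2 (hc_eq (by decide +kernel))))
      (zpowers_le.2 (mem_centralizer_singleton_iff.2 (hc_eq (by decide +kernel)))))
  have e2 : u = t 0 3 * (t 0 3 * u) := by rw [← mul_assoc, t_sq, one_mul]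
  rcases mem_V2.1 m1 with k | k | k | k <;> rw [e2, k]
  · exact ⟨e 2 3 * e 3 2 * e 2 3, HC.cd.mem_H0.2 (by decide +kernel), hc_eq (by decide +kernel)⟩
  · exact ⟨e 2 3 * e 3 2 * e 2 3 * e 1 3, HC.cd.mem_H0.2 (by decide +kernel), hc_eq (by decide +kernel)⟩
  · exact ⟨e 3 2, by decide +kernel, hc_eq (by decide +kernel)⟩
  · exact ⟨e 1 2 * e 3 2, HC.cd.mem_H0.2 (by decide +kernel), hc_eq (by decide +kernel)⟩

end Br

open Br

theorem crit_r0 : crit Z3 r0 := by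
  intro a ha b hb h1 h2
  have a1 : a ∈ Y0 := mem_Y0.2 fun x hx => (h1 x hx).symm
  have b1 : b ∈ Y0 := mem_Y0.2 fun x hx => (h2 x hx).symm
  refine mem_Z3.1 (cm_D0 a ⟨fun i j k => ?_, fun i j k => ha.2 i j ?_⟩ b ⟨fun i j k => ?_, fun i j k => hb.2 i j ?_⟩)
  · exact ((by decide : ∀ i j, pE3 i j → pY i j ∨ pE i j) i j k).elim (a1.1 i j) (ha.1 i j)
  · exact (by decide : ∀ i j, rD i j → rQ i j) i j k
  · exact ((by decide : ∀ i j, pE3 i j → pY i j ∨ pQw i j) i j k).elim (b1.1 i j) (hb.1 i j)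
  · exact (by decide : ∀ i j, rD i j → rQw i j) i j k

theorem br3 {u : Mo} (hu : u ∈ Uw) (hu' : u ∉ V2) (h : crit (V2 ⊔ zpowers u) u) : u ∈ Z3 := by
  obtain ⟨c, hc⟩ := exists_cd u
  have k := hc.lp_Uw hu wit_all
  rw [Bool.or_eq_true, eL_iff] at k
  rcases k with k | ⟨⟨a, b⟩, -, k⟩
  · exact hc.mem_Z3.2 k
  simp only [wit, Bool.and_eq_true, aL_iff, frc_eq, Nat.beq_eq, List.forall_mem_cons, Bool.not_eq_true'] at k
  obtain ⟨⟨⟨⟨o1, o2⟩, m1, m2⟩, ⟨s1, s2⟩, ⟨c1, c2⟩, ⟨c3, c4⟩, ⟨c5, c6⟩, -⟩, n1, n2⟩ := k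
  have ca := cd_el o1
  have cb := cd_el o2
  have cc := cd_cm ca cb (ca.inv_eq ca s1) (cb.inv_eq cb s2)
  have cen : ∀ {x : Mo} {d : ℕ}, Cd x d → mulC d (tD 0 1) = mulC (tD 0 1) d → mulC d (tD 0 2) = mulC (tD 0 2) d →
      mulC d c = mulC c d → ∀ y ∈ V2 ⊔ zpowers u, x * y = y * x := fun {x d} hx e1 e2 e3 y hy =>
    (mem_centralizer_singleton_iff.1 ((sup_le (cen_V2 ((hx.comm_iff (cd_tD 0 1)).2 e1) ((hx.comm_iff (cd_tD 0 2)).2 e2))
      (zpowers_le.2 (mem_centralizer_singleton_iff.2 ((hx.comm_iff hc).2 e3).symm)) : _ ≤ centralizer {x}) hy)).symm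
  rcases h _ (ca.mem_Q0.2 m1) _ (cb.mem_Qw.2 m2) (cen ca c1 c3 c5) (cen cb c2 c4 c6) with k | k
  · exact absurd (cc.mem_V2.1 k) (by rw [n1]; decide)
  · exact absurd ((cc.mul hc).mem_V2.1 k) (by rw [n2]; decide)

theorem br {U I : Subgroup Mo} (h1 : V2 ≤ U) (h2 : U ≤ Uw) (hI : I ≤ T2)
    (hc : ∀ x ∈ Uw, ∀ y ∈ I, x * y * x⁻¹ * y⁻¹ ∈ U) (hk : Nat.card U = 8 * D2.relIndex I) {u : Mo} (hu : u ∈ U)
    (hu' : u ∉ V2) (h : crit U u) : ∃ k ∈ H0, k * u * k⁻¹ = w0 := by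
  have hcl : ∀ y ∈ I, y ∈ D2 ∨ y * e 3 4 ∈ D2 ∨ y * t 3 4 ∈ D2 ∨ y * (e 3 4 * t 3 4) ∈ D2 := fun y hy => by
    simpa using cls (hI hy)
  have a1 : (∃ y ∈ I, y * e 3 4 ∈ D2) → t 0 3 ∈ U ∧ e 0 4 ∈ U := fun k =>
    ⟨key h1 hc k (x := t 0 4) (by decide +kernel) (hc_eq (by decide +kernel)) (by decide +kernel),
      key h1 hc k (x := e 0 3) (by decide +kernel) (hc_eq (by decide +kernel)) (by decide +kernel)⟩
  have a2 : (∃ y ∈ I, y * t 3 4 ∈ D2) → t 0 3 ∈ U ∧ t 0 4 ∈ U := fun k =>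
    ⟨key h1 hc k (x := e 0 4) (by decide +kernel) (hc_eq (by decide +kernel)) (by decide +kernel),
      key h1 hc k (x := e 0 3) (by decide +kernel) (hc_eq (by decide +kernel)) (by decide +kernel)⟩
  have a3 : (∃ y ∈ I, y * (e 3 4 * t 3 4) ∈ D2) → t 0 3 ∈ U ∧ e 0 4 * t 0 4 ∈ U := fun k => by
    have k1 := key h1 hc k (x := t 0 4) (s := t 0 3) (by decide +kernel) (hc_eq (by decide +kernel)) (by decide +kernel)
    exact ⟨k1, (mul_mem_cancel_right k1).1 (key h1 hc k (x := e 0 3) (by decide +kernel) (hc_eq (by decide +kernel))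
      (HC.cd.mem_Uw.2 (by decide +kernel)))⟩
  by_cases b1 : ∃ y ∈ I, y * e 3 4 ∈ D2 <;> by_cases b2 : ∃ y ∈ I, y * t 3 4 ∈ D2 <;>
    by_cases b3 : ∃ y ∈ I, y * (e 3 4 * t 3 4) ∈ D2
  · exact four h1 hI hk h (a1 b1).1 (a2 b2).2 (a1 b1).2
  · exact four h1 hI hk h (a1 b1).1 (a2 b2).2 (a1 b1).2
  · exact four h1 hI hk h (a1 b1).1 ((mul_mem_cancel_left (a1 b1).2).1 (a3 b3).2) (a1 b1).2
  · refine (two h1 hk h (X := e 3 4) (s := e 0 4) (b := e 2 4) (fun y hy => ?_) (by decide +kernel) (e_sq _ _)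
      (by decide +kernel) (a1 b1).1 (a1 b1).2 (by decide +kernel) (hc_eq (by decide +kernel))
      (hc_eq (by decide +kernel)) (by decide +kernel)
      (cen_U8 (hc_eq (by decide +kernel)) (hc_eq (by decide +kernel)) (hc_eq (by decide +kernel)))
      (hc_eq (by decide +kernel)) (HC.cd.mem_V2.not.2 (by decide +kernel))
      (HC.cd.mem_V2.not.2 (by decide +kernel))).elim
    rcases hcl y hy with k | k | k | k
    exacts [Or.inl k, Or.inr k, absurd ⟨y, hy, k⟩ b2, absurd ⟨y, hy, k⟩ b3]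
  · exact four h1 hI hk h (a2 b2).1 (a2 b2).2 ((mul_mem_cancel_right (a2 b2).2).1 (a3 b3).2)
  · refine (two h1 hk h (X := t 3 4) (s := t 0 4) (b := t 2 4) (fun y hy => ?_) (by decide +kernel) (t_sq _ _)
      (by decide +kernel) (a2 b2).1 (a2 b2).2 (by decide +kernel) (hc_eq (by decide +kernel))
      (hc_eq (by decide +kernel)) (by decide +kernel)
      (cen_U8 (hc_eq (by decide +kernel)) (hc_eq (by decide +kernel)) (hc_eq (by decide +kernel)))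
      (hc_eq (by decide +kernel)) (HC.cd.mem_V2.not.2 (by decide +kernel))
      (HC.cd.mem_V2.not.2 (by decide +kernel))).elim
    rcases hcl y hy with k | k | k | k
    exacts [Or.inl k, absurd ⟨y, hy, k⟩ b1, Or.inr k, absurd ⟨y, hy, k⟩ b3]
  · refine (two h1 hk h (X := e 3 4 * t 3 4) (s := e 0 4 * t 0 4) (b := e 2 4 * t 2 4) (fun y hy => ?_)
      (HC.cd.mem_T2.2 (by decide +kernel)) (hc_eq (by decide +kernel)) (HC.cd.mem_D2.not.2 (by decide +kernel))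
      (a3 b3).1 (a3 b3).2 (by decide +kernel) (hc_eq (by decide +kernel))
      (hc_eq (by decide +kernel)) (HC.cd.mem_Qw.2 (by decide +kernel))
      (cen_U8 (hc_eq (by decide +kernel)) (hc_eq (by decide +kernel)) (hc_eq (by decide +kernel)))
      (hc_eq (by decide +kernel)) (HC.cd.mem_V2.not.2 (by decide +kernel))
      (HC.cd.mem_V2.not.2 (by decide +kernel))).elim
    rcases hcl y hy with k | k | k | k
    exacts [Or.inl k, absurd ⟨y, hy, k⟩ b1, absurd ⟨y, hy, k⟩ b2, Or.inr k]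
  · have k1 : D2.relIndex I = 1 := relIndex_eq_one.2 fun y hy => by
      rcases hcl y hy with k | k | k | k
      exacts [k, absurd ⟨y, hy, k⟩ b1, absurd ⟨y, hy, k⟩ b2, absurd ⟨y, hy, k⟩ b3]
    have k2 := two_le (K := V2) (L := V2 ⊔ zpowers u) le_sup_left (mem_sup_right (mem_zpowers u)) hu'
    rw [card_V2] at k2
    have e1 : V2 ⊔ zpowers u = U := eq_of_le_of_card_ge (sup_le h1 (zpowers_le.2 hu)) (by omega)
    exact conj_Z3 (br3 (h2 hu) hu' (e1 ▸ h)) (fun k => hu' (k ▸ one_mem _)) fun k => hu' (mem_V2.2 (Or.inr (Or.inl k)))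

theorem mem_D2_Q {a : Mo} (ha : a ∈ Q0) (h : a * w0 = w0 * a) : a ∈ D2 := by
  have a1 : a ∈ T2 := mem_T2.2 ⟨pat_le (by decide) (by decide) ha, h⟩
  refine ⟨fun i j k => ?_, fun i j k => ha.2 i j ((by decide : ∀ i j, rD i j → rQ i j) i j k)⟩
  exact ((by decide : ∀ i j, pD2 i j → pT2 i j ∨ pE i j) i j k).elim (a1.1 i j) (ha.1 i j)

theorem mem_D2_Qw {b : Mo} (hb : b ∈ Qw) (h : b * z0 = z0 * b) : b ∈ D2 := by
  have b1 : b ∈ H0 := mem_H0.2 h
  refine ⟨fun i j k => ?_, fun i j k => hb.2 i j ((by decide : ∀ i j, rD i j → rQw i j) i j k)⟩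
  exact ((by decide : ∀ i j, pD2 i j → pH i j ∨ pQw i j) i j k).elim (b1.1 i j) (hb.1 i j)

theorem D2_eq {y : Mo} (hy : y ∈ D2) : ∃ a ∈ Q0, ∃ b ∈ Qw, a * w0 = w0 * a ∧ b * z0 = z0 * b ∧ y = a * b := by
  have hn : Qw ⊓ centralizer {z0} ≤ normalizer ((Q0 ⊓ centralizer {w0} : Subgroup Mo) : Set Mo) := fun b hb => by
    have b1 := mem_centralizer_singleton_iff.1 hb.2
    have b2 := (mem_T2.1 (pat_le (by decide) (by decide) (mem_D2_Qw hb.1 b1))).2
    refine mem_normalizer_of_forall fun a ha => ⟨conj_mem_of_mem_normalizer (H0_norm (mem_H0.2 b1)) ha.1, ?_⟩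
    have b3 : b ∈ centralizer {w0} := mem_centralizer_singleton_iff.2 b2
    exact (centralizer {w0}).mul_mem ((centralizer {w0}).mul_mem b3 ha.2) ((centralizer {w0}).inv_mem b3)
  have cw : ∀ {x : Mo}, x ∈ D2 → x ∈ centralizer {w0} := fun hx =>
    mem_centralizer_singleton_iff.2 (mem_T2.1 (pat_le (by decide) (by decide) hx)).2
  have cz : ∀ {x : Mo}, x ∈ D2 → x ∈ centralizer {z0} := fun hx =>
    mem_centralizer_singleton_iff.2 (mem_H0.1 (pat_le (by decide) (by decide) hx))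
  have hle : D2 ≤ (Q0 ⊓ centralizer {w0}) ⊔ (Qw ⊓ centralizer {z0}) := by
    refine gen_up (by decide) (fun i j hij k => ?_) fun i j hij k => ?_
    · exact ((by decide +kernel : ∀ i j : Fin 5, i < j → t i j ∈ D2 → t i j ∈ Q0 ∨ t i j ∈ Qw) i j hij k).elim
        (fun l => mem_sup_left ⟨l, cw k⟩) fun l => mem_sup_right ⟨l, cz k⟩
    · exact ((by decide +kernel : ∀ i j : Fin 5, i < j → e i j ∈ D2 → e i j ∈ Q0 ∨ e i j ∈ Qw) i j hij k).elim
        (fun l => mem_sup_left ⟨l, cw k⟩) fun l => mem_sup_right ⟨l, cz k⟩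
  have hy' : y ∈ (((Q0 ⊓ centralizer {w0}) ⊔ (Qw ⊓ centralizer {z0}) : Subgroup Mo) : Set Mo) := hle hy
  rw [coe_mul_of_right_le_normalizer_left _ _ hn] at hy'
  obtain ⟨a, ha, b, hb, rfl⟩ := hy'
  exact ⟨a, ha.1, b, hb.1, mem_centralizer_singleton_iff.1 ha.2, mem_centralizer_singleton_iff.1 hb.2, rfl⟩

theorem D2_tr {u : Mo} (hu : u ∈ Z3) (hu' : u ∉ V2) : ∃ y ∈ D2, y * r0 * y⁻¹ = u := by
  have r2 : r0 * r0 = 1 := t_sq 1 2
  have e1 : u = u * r0 * r0 := by rw [mul_assoc, r2, mul_one]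
  rcases mem_V2.1 ((mem_Z3.1 hu).resolve_left hu') with k | k | k | k <;> rw [e1, k]
  · exact ⟨1, one_mem _, by group⟩
  · exact ⟨e 0 2, by decide +kernel, hc_eq (by decide +kernel)⟩
  · exact ⟨e 0 1, by decide +kernel, hc_eq (by decide +kernel)⟩
  · exact ⟨e 0 1 * e 0 2, HC.cd.mem_D2.2 (by decide +kernel), hc_eq (by decide +kernel)⟩

end CfsgLib.L5R
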