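import Mathlib
import Cfsg.Agent.Lib.L5R.Bas2

/-!
# involutions of the model (plans/L5R.md)
-/

set_option autoImplicit false
set_option maxHeartbeats 400000
set_option Elab.async false

namespace CfsgLib.L5R

open Subgroup Cfsg CfsgLib.Tech CfsgLib.Held CfsgLib.MOrb CfsgLib.L72 CfsgLib.LargeExtra CfsgLib.ExtraTwo

namespace InvF

variable {m : Mo} {c : ℕ}

/-- the conjugating involutions -/
def gs : List ℕ := [571885733543936, 571885800652800, 571885934870528, 571886203305984, 571889961402368,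
  571894256369664, 571902846304256, 572160544342016, 572435422248960, 589477852479488, 571884626247680,
  571819094441984, 567625058877440, 299206782746624]

/-- one sweep: conjugate whenever the code becomes smaller -/
noncomputable def swp (l : List ℕ) : ℕ → ℕ := List.rec (fun c => c) (fun s _ ih c => frc c fun c =>
  frc (mulC s (mulC c s)) fun d => ih (cond (Nat.blt (Nat.xor d oneC) (Nat.xor c oneC)) d c)) l

theorem swp_cd : ∀ {l : List ℕ}, (∀ s ∈ l, okC s (cg s) = true ∧ mulC s s = oneC) → ∀ {m : Mo} {c : ℕ}, Cd m c →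
    ∃ k : Mo, Cd (k * m * k⁻¹) (swp l c)
  | [], _, m, c, h => ⟨1, by rw [one_mul, inv_one, mul_one]; exact h⟩
  | s :: l, hl, m, c, h => by
    have hs := cd_el (hl s (by simp)).1
    have ih := fun {m : Mo} {c : ℕ} (h : Cd m c) => swp_cd (l := l) (fun a ha => hl a (by simp [ha])) h
    change ∃ k : Mo, Cd _ (frc c fun c => frc (mulC s (mulC c s)) fun d =>
      swp l (cond (Nat.blt (Nat.xor d oneC) (Nat.xor c oneC)) d c))
    rw [frc_eq, frc_eq]
    cases Nat.blt _ _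
    · exact ih h
    · obtain ⟨k, hk⟩ := ih (hs.mul (h.mul hs))
      refine ⟨k * el s, ?_⟩
      rwa [mul_inv_rev, hs.inv_eq hs (hl s (by simp)).2, show k * el s * m * (el s * k⁻¹) =
        k * (el s * (m * el s)) * k⁻¹ by group]

theorem sw_cd (h : Cd m c) : ∃ k : Mo, Cd (k * m * k⁻¹) (swp gs c) := swp_cd (by decide +kernel) h

theorem cj_cj (k l m : Mo) : k * (l * m * l⁻¹) * k⁻¹ = k * l * m * (k * l)⁻¹ := by group

/-- the complement of `A0` in `T0` -/
def U0 : Subgroup Mo := pat pT pA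

theorem lp_U0 (h : Cd m c) (hm : m ∈ U0) {f : ℕ → Bool} (hf : lp [26, 27, 28, 29, 32, 33, 34, 38, 39, 44] f = true) :
    f c = true := h.loop hm (by decide +kernel) hf

theorem io0_mem {g : GN 5} (h : g ∈ U5) : io0 g ∈ U0 := ⟨h, fun _ _ _ => rfl⟩

/-- test for the classes of involutions -/
noncomputable def fc1 (c : ℕ) : Bool := or (not (Nat.beq (mulC c c) oneC)) (or (Nat.beq c oneC)
  (frc (swp gs (swp gs (swp gs c))) fun d => or (Nat.beq d (eC 0 1)) (Nat.beq d (mulC (eC 0 3) (eC 1 2)))))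

theorem c1 : lp [26, 27, 28, 29, 32, 33, 34, 38, 39, 44] fc1 = true := by decide +kernel

/-- test for `Q0` -/
noncomputable def f2 (g c : ℕ) : Bool := frc (mulC c g) fun c => or (not (Nat.beq (mulC c c) oneC))
  (or (inM 0x3fff8c7ce7000 c) (frc (swp gs c) fun d => or (inM 0x3fff8c7ce7000 d) (inM 0x3fff8c7ce7000 (swp gs d))))

theorem c2 : lp [1, 2, 3, 4, 7, 8, 9, 13, 14, 19] (f2 oneC) = true := by decide +kernel
theorem c3 : lp [1, 2, 3, 4, 7, 8, 9, 13, 14, 19] (f2 (eC 0 4)) = true := by decide +kernel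
theorem c4 : lp [1, 2, 3, 4, 7, 8, 9, 13, 14, 19] (f2 (mulC (eC 0 3) (eC 1 4))) = true := by decide +kernel

theorem th_mem (X : Alt) : th X ∈ A0 := mem_A0.2 rfl

theorem toQ {x : Mo} {g : ℕ} (hg : Cd (io0 x.g) g) (h : x * x = 1)
    (hf : lp [1, 2, 3, 4, 7, 8, 9, 13, 14, 19] (f2 g) = true) : ∃ k : Mo, k * x * k⁻¹ ∈ Q0 := by
  obtain ⟨c, hc⟩ := exists_cd (th x.x)
  have e := hc.lp_A0 (th_mem _) hf
  have hx := hc.mul hg
  rw [th_mul_io0] at hx
  obtain ⟨k, hk⟩ := sw_cd hx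
  obtain ⟨l, hl⟩ := sw_cd hk
  simp only [f2, frc_eq, (hx.mul hx).eq_one.1 h, Nat.beq_refl, Bool.not_true, Bool.false_or, Bool.or_eq_true] at e
  rcases e with e | e | e
  · exact ⟨1, by simpa using hx.mem_Q0.2 e⟩
  · exact ⟨k, hk.mem_Q0.2 e⟩
  · exact ⟨l * k, cj_cj l k x ▸ hl.mem_Q0.2 e⟩

theorem smul_wd (g : GN 5) {i j : Fin 5} (h : i ≠ j) (a b : Fin 5) :
    (g • wd i j).1 a b = g.1 a i * g.1 b j + g.1 a j * g.1 b i := by
  have : (wd i j).1 = Matrix.single i j 1 + Matrix.single j i 1 := by revert i j; decide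
  rw [coe_smul, this]
  simp [Matrix.mul_add, Matrix.add_mul, Matrix.mul_apply, Matrix.single_apply, ite_and, add_mul,
    Finset.sum_add_distrib]

/-- a pattern -/
def rP : Pt := fun i j => decide (1 ≤ i.val ∧ 1 ≤ j.val ∨ j.val = 4)

/-- `e₀ ∧ U₄` -/
def P8 : Subgroup Mo := pat pA rP

theorem eq_of_P8 {g : GN 5} (h : ∀ X, th (X + g • X) ∈ P8) : g = 1 ∨ g = E 0 4 := by
  have h1 : ∀ a b i j : Fin 5, rP a b → i ≠ j → g.1 a i * g.1 b j + g.1 a j * g.1 b i = (wd i j).1 a b :=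
    fun a b i j hp hij => by
      have := (h (wd i j)).2 a b hp
      change (wd i j).1 a b + (g • wd i j).1 a b = 0 at this
      rw [smul_wd g hij] at this
      exact (CharTwo.add_eq_zero.1 this).symm
  have h2 : ∀ a b c : Fin 5, rP a b → a ≠ b → c ≠ a → c ≠ b → g.1 a c = 0 := fun a b c hp ab ca cb => by
    have e1 := h1 a b a b hp ab
    have e2 := h1 a b a c hp ca.symm
    have e3 := h1 a b b c hp cb.symm
    rw [show (wd a b).1 a b = 1 by clear * - ab; revert a b; decide] at e1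
    rw [show (wd a c).1 a b = 0 by clear * - cb ab ca; revert a b c; decide] at e2
    rw [show (wd b c).1 a b = 0 by clear * - cb ab ca; revert a b c; decide] at e3
    revert e1 e2 e3
    generalize g.1 a a = p, g.1 a b = q, g.1 a c = r, g.1 b a = s, g.1 b b = u, g.1 b c = v
    revert p q r s u v; decide
  have h3 : ∀ a c : Fin 5, a ≠ c → ¬ (a = 0 ∧ c = 4) → g.1 a c = 0 := fun a c ac hn => by
    obtain ⟨b, k1, k2, k3⟩ : ∃ b, rP a b ∧ a ≠ b ∧ c ≠ b := by clear * - ac hn; revert a c; decide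
    exact h2 a b c k1 k2 ac.symm k3
  have h4 : ∀ a : Fin 5, g.1 a a = 1 := fun a => by
    obtain ⟨b, k1, k2, k3⟩ : ∃ b, rP a b ∧ a ≠ b ∧ ¬ (b = 0 ∧ a = 4) := by clear * -; revert a; decide
    have e1 := h1 a b a b k1 k2
    rw [h3 b a k2.symm k3, show (wd a b).1 a b = 1 by clear * - k2; revert a b; decide] at e1
    revert e1
    generalize g.1 a a = p, g.1 a b = q, g.1 b b = r
    revert p q r; decide
  have h5 : ∀ M : Mat, (∀ a, M a a = 1) → (∀ a c, a ≠ c → ¬ (a = 0 ∧ c = 4) → M a c = 0) → g.1 0 4 = M 0 4 → g.1 = M :=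
    fun M k1 k2 k3 => Matrix.ext fun a c => by
      by_cases ac : a = c
      · rw [← ac, h4, k1]
      by_cases hn : a = 0 ∧ c = 4
      · rw [hn.1, hn.2, k3]
      · rw [h3 a c ac hn, k2 a c ac hn]
  rcases (show ∀ x : ZMod 2, x = 0 ∨ x = 1 by decide) (g.1 0 4) with e | e
  · exact Or.inl (Units.ext (h5 1 (by decide) (fun a c h _ => Matrix.one_apply_ne h) e))
  · exact Or.inr (Units.ext (h5 (eM 0 4) (by decide) (fun a c h h' => by simp only [eM, Matrix.of_apply, if_neg h, if_neg h']) e))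

theorem two_le {H W : Subgroup Mo} (h : H ≤ W) {w : Mo} (hw : w ∈ W) (hn : w ∉ H) : 2 * Nat.card H ≤ Nat.card W := by
  have := card_mul_relIndex' h
  have h1 : H.relIndex W ≠ 1 := fun e => hn (relIndex_eq_one.1 e hw)
  have h0 : H.relIndex W ≠ 0 := fun e => by rw [e] at this; exact (Nat.card_pos (α := W)).ne' this.symm
  rw [← this, mul_comm]
  exact Nat.mul_le_mul_left _ (by omega)

theorem cm_th (y : Mo) (X : Alt) : th X * y * (th X)⁻¹ * y⁻¹ = th (X + y.g • X) := by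
  rw [th_add, ← conj_th, inv_eq_of_mul_eq_one_right (show th X * th X = 1 by rw [← th_add, alt_two, th_zero])]
  group

theorem cj_W {W : Subgroup Mo} {g : GN 5} (k : GN 5) (h : ∀ X, th (X + g • X) ∈ W) (X : Alt) :
    th (X + (k * g * k⁻¹) • X) ∈ cj (io0 k) W := by
  have := (conj_mem_cj (g := io0 k)).2 (h (k⁻¹ • X))
  rwa [conj_th, smul_add, show (io0 k).g = k from rfl, smul_inv_smul, ← mul_smul, ← mul_smul] at this

theorem big2 {W : Subgroup Mo} (h : ∀ X, th (X + (E 0 3 * E 1 4 : GN 5) • X) ∈ W) : 16 ≤ Nat.card W := by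
  have hZ : Z3 ≤ W := gen_up (by decide) (fun i j hij hm => by
    obtain ⟨X, e⟩ : ∃ X ∈ [wd 1 3, wd 2 3, wd 2 4], th (X + (E 0 3 * E 1 4 : GN 5) • X) = t i j := by
      revert i j; decide +kernel
    exact e.2 ▸ h X) fun i j hij hm => absurd hm (by revert i j; decide +kernel)
  have := two_le hZ (h (wd 3 4)) (by decide +kernel)
  rwa [card_Z3] at this

instance (m : Mo) : Decidable (m ∈ P8) := inferInstanceAs (Decidable (m ∈ pat pA rP))

theorem big1 {W : Subgroup Mo} {g : GN 5} (h : ∀ X, th (X + (E 0 4 : GN 5) • X) ∈ W) (h' : ∀ X, th (X + g • X) ∈ W)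
    (h1 : g ≠ 1) (h2 : g ≠ E 0 4) : 16 ≤ Nat.card W := by
  have hP : P8 ≤ W := gen_up (by decide) (fun i j hij hm => by
    obtain ⟨X, e⟩ : ∃ X ∈ [wd 1 4, wd 2 4, wd 3 4], th (X + (E 0 4 : GN 5) • X) = t i j := by
      revert i j; decide +kernel
    exact e.2 ▸ h X) fun i j hij hm => absurd hm (by revert i j; decide +kernel)
  obtain ⟨X, hX⟩ := not_forall.1 fun e => (eq_of_P8 e).elim h1 h2
  have e1 := two_le hP (h' X) hX
  have e2 := two_le (H := V2) (W := P8) (pat_le (by decide) (by decide)) (w := t 0 3) (by decide +kernel)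
    (by decide +kernel)
  rw [card_V2] at e2
  omega

/-- `s`, `u` and `s u` do not commute with `c` -/
noncomputable def bad (s u c : ℕ) : Bool := and (not (Nat.beq (mulC s c) (mulC c s)))
  (and (not (Nat.beq (mulC u c) (mulC c u))) (frc (mulC s u) fun v => not (Nat.beq (mulC v c) (mulC c v))))

theorem bad_false {K : Subgroup Mo} (hx : Cd m c)
    (H : ∀ a ∈ K, ∀ b ∈ K, a * m = m * a ∨ b * m = m * b ∨ a * b * m = m * (a * b)) {a b : Mo} {s u : ℕ}
    (ha : Cd a s) (hb : Cd b u) (h : a ∈ K ∧ b ∈ K) : bad s u c = false := by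
  rw [bad, frc_eq]
  rcases H a h.1 b h.2 with e | e | e
  · simp [(ha.comm_iff hx).1 e]
  · simp [(hb.comm_iff hx).1 e]
  · simp [((ha.mul hb).comm_iff hx).1 e]

theorem c5 : lp [26, 27, 28, 29, 32, 33, 34, 38, 39, 44] (fun c => or (inM 0x3ef7bde000000 c)
    (or (bad (tC 1 3) (tC 2 3) c) (or (bad (tC 0 3) (tC 2 3) c) (or (bad (tC 1 2) (tC 1 3) c)
      (or (bad (tC 0 2) (tC 2 3) c) (or (bad (tC 0 3) (tC 1 3) c) (bad (tC 1 2) (tC 2 3) c))))))) = true := by
  decide +kernel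

theorem c6 : lp [1, 2, 3, 4, 7, 8, 9, 13, 14, 19] (fun c => or (inM 0x3ffffff084210 c)
    (or (bad (mulC (tC 0 4) (eC 0 4)) (mulC (tC 1 4) (eC 1 4)) c)
      (bad (mulC (tC 2 4) (eC 2 4)) (mulC (tC 3 4) (eC 3 4)) c))) = true := by
  decide +kernel

end InvF

open InvF

theorem inv_cls {g : GN 5} (h : g * g = 1) (h1 : g ≠ 1) : ∃ k : GN 5, k * g * k⁻¹ = E 0 4 ∨ k * g * k⁻¹ = E 0 3 * E 1 4 := by
  have := Fact.mk Nat.prime_two
  obtain ⟨k, -, hk⟩ := syl_U5.exists_conj_mem (mem_top g) (isPGroup_zpowers_of_pow (k := 1) (by rw [pow_one, sq, h]))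
  obtain ⟨c, hc⟩ := exists_cd (io0 (k * g * k⁻¹))
  have e := lp_U0 hc (io0_mem hk) c1
  obtain ⟨k1, h1'⟩ := sw_cd hc
  obtain ⟨k2, h2⟩ := sw_cd h1'
  obtain ⟨k3, h3⟩ := sw_cd h2
  have e1 : mulC c c = oneC := (hc.mul hc).eq_one.1 (by rw [← map_mul, conj_mul, h, mul_one, mul_inv_cancel, map_one])
  have e2 : c ≠ oneC := fun e => h1 (conj_eq_one_iff.1 (congrArg Mo.g (hc.eq_one.2 e)))
  simp only [fc1, frc_eq, e1, Nat.beq_refl, Bool.not_true, Bool.false_or, Bool.or_eq_true, Nat.beq_eq, e2, false_or] at e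
  have e3 : ∀ l : GN 5, l * k3.g * k2.g * k1.g * k * g * (l * k3.g * k2.g * k1.g * k)⁻¹ =
      l * (k3 * (k2 * (k1 * io0 (k * g * k⁻¹) * k1⁻¹) * k2⁻¹) * k3⁻¹).g * l⁻¹ := fun l => by
    simp only [mul_g, inv_g, show ∀ a, (io0 a).g = a from fun _ => rfl]; group
  rcases e with e | e
  · refine ⟨_, Or.inl ((e3 (sw 1 4)).trans ?_)⟩
    rw [(h3.eq_iff (cd_e (i := 0) (j := 1) (by decide))).2 e]
    decide +kernel
  · refine ⟨_, Or.inr ((e3 (sw 2 4)).trans ?_)⟩
    rw [(h3.eq_iff ((cd_e (i := 0) (j := 3) (by decide)).mul (cd_e (i := 1) (j := 2) (by decide)))).2 e]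
    decide +kernel

theorem inv_Q0 {x : Mo} (h : x * x = 1) : ∃ k : Mo, k * x * k⁻¹ ∈ Q0 := by
  by_cases h1 : x.g = 1
  · exact toQ (by rw [h1, map_one]; exact cd_one) h c2
  obtain ⟨k, hk⟩ := inv_cls (congrArg Mo.g h) h1
  have h2 : io0 k * x * (io0 k)⁻¹ * (io0 k * x * (io0 k)⁻¹) = 1 := by rw [conj_mul, h, mul_one, mul_inv_cancel]
  have h3 : (io0 k * x * (io0 k)⁻¹).g = k * x.g * k⁻¹ := rfl
  obtain ⟨l, hl⟩ : ∃ l : Mo, l * (io0 k * x * (io0 k)⁻¹) * l⁻¹ ∈ Q0 := by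
    rcases hk with e | e
    · exact toQ (by rw [h3, e]; exact cd_e (i := 0) (j := 4) (by decide)) h2 c3
    · exact toQ (by
        rw [h3, e, map_mul]
        exact (cd_e (i := 0) (j := 3) (by decide)).mul (cd_e (i := 1) (j := 4) (by decide))) h2 c4
  exact ⟨_, cj_cj l _ x ▸ hl⟩

theorem two_inv {y y' : Mo} (hy : y ∉ A0) (hy' : y' ∉ A0) (h : y * y' ∉ A0) (sq : y * y ∈ A0) (sq' : y' * y' ∈ A0)
    {W : Subgroup Mo} (h1 : ∀ a ∈ A0, a * y * a⁻¹ * y⁻¹ ∈ W) (h2 : ∀ a ∈ A0, a * y' * a⁻¹ * y'⁻¹ ∈ W) :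
    16 ≤ Nat.card W := by
  rw [mem_A0] at hy hy' h sq sq'
  have k1 : ∀ X, th (X + y.g • X) ∈ W := fun X => cm_th y X ▸ h1 _ (th_mem X)
  have k2 : ∀ X, th (X + y'.g • X) ∈ W := fun X => cm_th y' X ▸ h2 _ (th_mem X)
  obtain ⟨k, e | e⟩ := inv_cls sq hy
  · rw [← card_cj (io0 k)]
    refine big1 (e ▸ cj_W k k1) (cj_W k k2) (fun e => hy' (conj_eq_one_iff.1 e)) fun e' => h ?_
    rw [mul_g, conj_injective (e'.trans e.symm)]
    exact sq
  · rw [← card_cj (io0 k)]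
    exact big2 (e ▸ cj_W k k1)

theorem no_tv {x : Mo} (hx : x ∈ T0) {B : Subgroup Mo} (hB : B ≤ A2) (hc : Nat.card B = 2 ^ 9)
    (h : ∀ b ∈ B, b * x = x * b) : x ∈ A2 := by
  have i2 : B.relIndex A2 = 2 := by
    have := card_mul_relIndex' hB
    rw [hc, card_A2] at this
    omega
  have H : ∀ {y : Mo} {K : Subgroup Mo}, K ≤ A2 → (∀ b ∈ B, b ∈ K → b * y = y * b) →
      ∀ a ∈ K, ∀ b ∈ K, a * y = y * a ∨ b * y = y * b ∨ a * b * y = y * (a * b) := fun hK e a ha b hb => by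
    by_cases h1 : a ∈ B
    · exact Or.inl (e a h1 ha)
    by_cases h2 : b ∈ B
    · exact Or.inr (Or.inl (e b h2 hb))
    exact Or.inr (Or.inr (e _ ((mul_mem_iff_of_index_two (H := B.subgroupOf A2) i2 (a := ⟨a, hK ha⟩)
      (b := ⟨b, hK hb⟩)).2 (iff_of_false h1 h2)) (mul_mem ha hb)))
  have hR : x ∈ R0 := by
    obtain ⟨c, hc⟩ := exists_cd (io0 x.g)
    have e := lp_U0 hc (io0_mem (mem_T0.1 hx)) c5
    have B := fun {a b s u} => bad_false (a := a) (b := b) (s := s) (u := u) hc (H (y := io0 x.g) Z0_le_A2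
      fun b hb hZ => mul_left_cancel (a := th x.x) (by
        rw [← mul_assoc, ← mul_assoc, ← cen_Z0.2 (sup01 ▸ mem_sup_left (th_mem x.x)) b hZ, mul_assoc, th_mul_io0,
          h b hb]))
    have T := fun i j k l : Fin 5 => fun (h : (i ≠ j ∧ k ≠ l) ∧ t i j ∈ Z0 ∧ t k l ∈ Z0) =>
      B (cd_t h.1.1) (cd_t h.1.2) h.2
    have e1 := T 1 3 2 3 (by decide +kernel)
    have e2 := T 0 3 2 3 (by decide +kernel)
    have e3 := T 1 2 1 3 (by decide +kernel)
    have e4 := T 0 2 2 3 (by decide +kernel)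
    have e5 := T 0 3 1 3 (by decide +kernel)
    have e6 := T 1 2 2 3 (by decide +kernel)
    change bad (tC 1 3) (tC 2 3) c = false at e1
    change bad (tC 0 3) (tC 2 3) c = false at e2
    change bad (tC 1 2) (tC 1 3) c = false at e3
    change bad (tC 0 2) (tC 2 3) c = false at e4
    change bad (tC 0 3) (tC 1 3) c = false at e5
    change bad (tC 1 2) (tC 2 3) c = false at e6
    simp only [e1, e2, e3, e4, e5, e6, Bool.or_false] at e
    exact ⟨(hc.mem_R0.2 e).1, fun _ _ e => absurd e (by simp [pN])⟩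
  rw [← sup02] at hR
  obtain ⟨a, ha, b, hb, rfl⟩ := mem_sup_of_normal_left.1 hR
  have ab : ∀ u ∈ A2, ∀ v ∈ A2, u * v = v * u := fun u hu v hv => by
    rw [← inv_eq_of_mul_eq_one_right (A2_sq _ (mul_mem hu hv)), mul_inv_rev, inv_eq_of_mul_eq_one_right (A2_sq _ hu),
      inv_eq_of_mul_eq_one_right (A2_sq _ hv)]
  obtain ⟨c, hc⟩ := exists_cd a
  have e0 := hc.lp_A0 ha c6
  have B := fun {a' b' s u} => bad_false (a := a') (b := b') (s := s) (u := u) hc (H (y := a) le_rfl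
    fun v hv hA => mul_right_cancel (b := b) (by rw [mul_assoc, h v hv, mul_assoc, mul_assoc, ab b hb v hA]))
  have T := fun i k : Fin 5 => fun (h : (i ≠ 4 ∧ k ≠ 4) ∧ t i 4 * e i 4 ∈ A2 ∧ t k 4 * e k 4 ∈ A2) =>
    B ((cd_t h.1.1).mul (cd_e h.1.1)) ((cd_t h.1.2).mul (cd_e h.1.2)) h.2
  have e1 := T 0 1 (by decide +kernel)
  have e2 := T 2 3 (by decide +kernel)
  change bad (mulC (tC 0 4) (eC 0 4)) (mulC (tC 1 4) (eC 1 4)) c = false at e1
  change bad (mulC (tC 2 4) (eC 2 4)) (mulC (tC 3 4) (eC 3 4)) c = false at e2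
  simp only [e1, e2, Bool.or_false] at e0
  exact mul_mem (Z0_le_A2 (hc.mem_Z0.2 e0)) hb


end CfsgLib.L5R
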