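import Mathlib
import Cfsg.Agent.Lib.L5R.Ja
import Cfsg.Agent.Lib.L5R.Bas1b

/-!
# `A` is not fused to `A2` in `N(R)` (plans/L5R.md)
-/

set_option autoImplicit false
set_option maxHeartbeats 400000
set_option Elab.async false
set_option linter.unusedSectionVars false

namespace CfsgLib.L5R

open Subgroup Cfsg CfsgLib.Tech CfsgLib.Held CfsgLib.MOrb CfsgLib.L72 CfsgLib.LargeExtra CfsgLib.ExtraTwo

namespace Jt2

/-- the last basis vector -/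
def e4 : Fin 5 → ZMod 2 := Pi.single 4 1

/-- the stabiliser of `a Z` in `N(R)` is covered by `R` and `C(a)` -/
def PP (a : Mo) : Prop := ∀ x ∈ N1, x * a * x⁻¹ * a⁻¹ ∈ Z0 → ∃ r ∈ R0, x * a * x⁻¹ = r * a * r⁻¹

/-- the coefficient of `e₁ ∧ e₂ ∧ e₃` in `ζ ∧ u` -/
def ff (a : Mo) : ZMod 2 := a.x.1 2 3 * a.x.1 1 4 + a.x.1 1 3 * a.x.1 2 4 + a.x.1 1 2 * a.x.1 3 4

theorem smul_wv (g : GN 5) (u v : Fin 5 → ZMod 2) : g • wv u v = wv (g.1.mulVec u) (g.1.mulVec v) := by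
  refine Subtype.ext (Matrix.ext fun i j => ?_)
  simp only [coe_smul, wv, Matrix.mul_apply, Matrix.of_apply, Matrix.transpose_apply, Matrix.mulVec, dotProduct,
    Fin.sum_univ_five]
  ring

theorem pp_wv {u : Fin 5 → ZMod 2} (hu : u 4 = 0) : PP (th (wv u e4)) := fun x hx h => by
  have h1 : ∀ j, x.g.1 4 j = (1 : Mat) 4 j := fun j => hx.1 4 j rfl
  obtain ⟨k, hk, h2⟩ := Bas1.exists_g (P := pE4) (by decide) (by decide) x.g.1
  have h3 : k.1.mulVec e4 = x.g.1.mulVec e4 := by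
    ext i
    simp only [e4, Matrix.mulVec_single_one, Matrix.col_apply]
    by_cases e : i = 4
    · rw [e, h1, hk 4 4 rfl]
    · exact h2 i 4 (by revert i; decide)
  have h4 : k.1.mulVec u = u := by
    ext i
    have h5 : ∀ j, j ≠ 4 → k.1 i j = (1 : Mat) i j := fun j hj => hk i j (by revert i j; decide)
    simp only [Matrix.mulVec, dotProduct, Fin.sum_univ_five, hu, h5 0 (by decide), h5 1 (by decide), h5 2 (by decide),
      h5 3 (by decide)]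
    fin_cases i <;> simp [Matrix.one_apply, hu]
  have h6 : x.g.1.mulVec u 4 = 0 := by
    simp [Matrix.mulVec, dotProduct, Fin.sum_univ_five, h1, hu, Matrix.one_apply]
  have h7 : x.g.1.mulVec e4 4 = 1 := by simp [e4, h1]
  have h8 : x.g.1.mulVec u = u := by
    ext i
    rw [conj_th, smul_wv, inv_eq_of_mul_eq_one_right (show th (wv u e4) * th (wv u e4) = 1 by
      rw [← th_add, alt_two, th_zero]), ← th_add] at h
    have := h.2 i 4 rfl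
    simp only [th, wv, AddSubgroup.coe_add, Matrix.add_apply, Matrix.of_apply, h6, h7, hu] at this
    simpa [e4, CharTwo.add_eq_zero] using this
  refine ⟨io0 k, ⟨hk, fun _ _ e => absurd e (by simp [pN])⟩, ?_⟩
  rw [conj_th, conj_th, smul_wv, smul_wv, h8]
  exact congrArg th (by rw [show (io0 k).g = k from rfl, h3, h4])

theorem act_R {r : Mo} (hr : r ∈ R0) (X : Alt) (i j : Fin 5) (hi : i ≠ 4) :
    (r.g • X).1 i 4 = X.1 i 4 ∧ (j ≠ 4 → (r.g • X).1 i j = X.1 i j + r.g.1 i 4 * X.1 j 4 + X.1 i 4 * r.g.1 j 4) := by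
  have h1 : ∀ a b, b ≠ 4 → r.g.1 a b = (1 : Mat) a b := fun a b hb => hr.1 a b (by revert a b; decide)
  have h2 : r.g.1 4 4 = 1 := hr.1 4 4 rfl
  have h3 : ∀ a, X.1 4 a = X.1 a 4 := fun a => X.2.1 4 a
  simp only [coe_smul, Matrix.mul_apply, Matrix.transpose_apply, Fin.sum_univ_five, h1 _ 0 (by decide),
    h1 _ 1 (by decide), h1 _ 2 (by decide), h1 _ 3 (by decide), h2, X.2.2 4, h3]
  refine ⟨?_, fun hj => ?_⟩
  · fin_cases i <;> simp [Matrix.one_apply] at hi ⊢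
  · fin_cases i <;> fin_cases j <;> simp [Matrix.one_apply] at hi hj ⊢

theorem mul_A2 {a : Mo} (ha : a ∈ A2) (b : Mo) (i j : Fin 5) (hi : i ≠ 4) :
    (a * b).x.1 i 4 = a.x.1 i 4 + b.x.1 i 4 ∧ (j ≠ 4 → (a * b).x.1 i j =
      a.x.1 i j + b.x.1 i j + a.x.1 i 4 * b.x.1 j 4 + b.x.1 i 4 * a.x.1 j 4) := by
  have := act_R ha.1 b.x i j hi
  rw [mul_x, AddSubgroup.coe_add, Matrix.add_apply, Matrix.add_apply, this.1]
  exact ⟨rfl, fun hj => by rw [this.2 hj, ha.2 i hi, ha.2 j hj]; ring⟩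

theorem ff_zero {a : Mo} (ha : a ∈ A2) (h0 : a.x.1 0 4 = 0) (h : PP a) : ff a = 0 := by
  obtain ⟨p1, p2, p3, hp, p0⟩ : ∃ p1 p2 p3 : ZMod 2, p1 * a.x.1 1 4 + p2 * a.x.1 2 4 + p3 * a.x.1 3 4 = 0 ∧
      (p1 = 1 ∨ p2 = 1 ∨ p3 = 1) := by
    generalize a.x.1 1 4 = u, a.x.1 2 4 = v, a.x.1 3 4 = w
    revert u v w; decide
  obtain ⟨k, hk, h2⟩ := Bas1.exists_g (P := fun i j => decide (i ≠ 0 ∨ j = 0 ∨ j = 4)) (by decide) (by decide)
    fun _ => ![0, p1, p2, p3, 0]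
  have k1 : ∀ i j, i ≠ 0 → k.1 i j = (1 : Mat) i j := fun i j hi => hk i j (by simp [hi])
  have k2 : ∀ j, (k • a.x).1 0 j = a.x.1 0 j + p1 * a.x.1 1 j + p2 * a.x.1 2 j + p3 * a.x.1 3 j ∨ j = 0 := fun j => by
    refine (em _).symm.imp_left fun hj => ?_
    simp only [coe_smul, Matrix.mul_apply, Matrix.transpose_apply, Fin.sum_univ_five, k1 j _ hj, hk 0 0 rfl,
      hk 0 4 rfl, h2 0 1 rfl, h2 0 2 rfl, h2 0 3 rfl]
    fin_cases j <;> simp [Matrix.one_apply] at hj ⊢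
  have k3 : ∀ i j, i ≠ 0 → j ≠ 0 → (k • a.x).1 i j = a.x.1 i j := fun i j hi hj => by
    simp only [coe_smul, Matrix.mul_apply, Matrix.transpose_apply, k1 j _ hj, k1 i _ hi]
    simp [Matrix.one_apply]
  have hx : io0 k ∈ N1 := ⟨fun i j e => k1 i j (by revert e; revert i j; decide), fun _ _ e => absurd e (by simp [pN])⟩
  have a1 : io0 k * a * (io0 k)⁻¹ ∈ A2 := (mem_normalizer_iff.1 (N1_norm_A2 hx) a).1 ha
  have a2 : (io0 k * a * (io0 k)⁻¹).x = k • a.x := by simp [mul_x, inv_x, io0]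
  generalize ea : io0 k * a * (io0 k)⁻¹ = a' at a1 a2
  have a3 : ∀ i, a'.x.1 i 4 = a.x.1 i 4 := fun i => by
    rw [a2]
    by_cases e : i = 0
    · rw [e, (k2 4).resolve_right (by decide), add_assoc, add_assoc, ← add_assoc (p1 * _), hp, add_zero]
    · exact k3 i 4 e (by decide)
  have a4 : a'.g = a.g := Units.ext (Matrix.ext fun i j => by
    by_cases e : i ≠ 4 ∧ j = 4
    · rw [e.2, ← a1.2 i e.1, ← ha.2 i e.1, a3]
    · rw [a1.1.1 i j (by revert e; revert i j; decide), ha.1.1 i j (by revert e; revert i j; decide)])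
  obtain ⟨r, hr, e⟩ := h _ hx (by
    rw [ea, ← inf02]
    exact mem_inf.2 ⟨mem_A0.2 (by rw [mul_g, inv_g, a4, mul_inv_cancel]), mul_mem a1 (inv_mem ha)⟩)
  rw [ea, eq_mul_inv_iff_mul_eq] at e
  have k4 : ∀ j : Fin 5, j ≠ 0 → j ≠ 4 → p1 * a.x.1 1 j + p2 * a.x.1 2 j + p3 * a.x.1 3 j =
      (r.g.1 0 4 + r.x.1 0 4) * a.x.1 j 4 := fun j h1 h4 => by
    have e1 := (mul_A2 a1 r 0 j (by decide)).2 h4
    rw [e, mul_x, AddSubgroup.coe_add, Matrix.add_apply, (act_R hr a.x 0 j (by decide)).2 h4, a3, a3, h0, a2,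
      (k2 j).resolve_right h1] at e1
    have two : (2 : ZMod 2) = 0 := rfl
    linear_combination -e1 - r.x.1 0 4 * a.x.1 j 4 * two
  have e1 := k4 1 (by decide) (by decide)
  have e2 := k4 2 (by decide) (by decide)
  have e3 := k4 3 (by decide) (by decide)
  rw [a.x.2.2, a.x.2.1 2 1, a.x.2.1 3 1] at e1
  rw [a.x.2.2, a.x.2.1 3 2] at e2
  rw [a.x.2.2] at e3
  rw [ff]
  generalize a.x.1 1 4 = u, a.x.1 2 4 = v, a.x.1 3 4 = w, a.x.1 1 2 = x, a.x.1 1 3 = y, a.x.1 2 3 = z,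
    r.g.1 0 4 + r.x.1 0 4 = s at *
  clear * - hp p0 e1 e2 e3
  revert p1 p2 p3 u v w x y z s
  decide +kernel

end Jt2

open Jt2

variable {G : Type*} [Group G] [Finite G] {m : Fr G}

theorem Fr.cen_A {g : G} (h : ∀ a ∈ m.A, a * g = g * a) : g ∈ m.A := by
  obtain ⟨x, rfl⟩ : g ∈ m.N := Fr.mem_N.2 (mem_normalizer_iff_cj.1 (mem_normalizer_of_cj_le (cj_le_iff.2 fun a ha => by
    rw [← h a ha, mul_inv_cancel_right]; exact ha)))
  exact Fr.φ_mem.2 (cen_A0 fun a ha => (Fr.φ_eq (m := m)).1 (by rw [map_mul, map_mul]; exact h _ (Fr.φ_mem.2 ha)))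

theorem Fr.jt2_cj {g : G} {K : Subgroup Mo} (hK : Nat.card K = 2 ^ 10) (sq : ∀ a ∈ K, a * a = 1)
    (h : cj g (m.im K) ≤ m.T) : cj g (m.im K) = m.A ∨ cj g (m.im K) = m.im A1 ∨ cj g (m.im K) = m.im A2 := by
  have e := Fr.im_comap (h.trans Fr.im_le_N)
  rw [← e]
  refine ((ja (Fr.im_le.1 (e.le.trans h)) fun b hb => (Fr.φ_eq (m := m)).1 ?_).2 (by
    rw [← Fr.card_im (m := m), e, card_cj, Fr.card_im, hK])).imp (congrArg _) (Or.imp (congrArg _) (congrArg _))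
  obtain ⟨a, ha, k⟩ := mem_cj.1 (mem_comap.1 hb)
  rw [map_mul, map_one, show m.φ b = g * m.φ a * g⁻¹ by rw [k]; group, conj_mul, ← map_mul, sq a ha, map_one,
    mul_one, mul_inv_cancel]

theorem Fr.cj_T {g : G} (h : cj g m.A ≤ m.T) : cj g m.A = m.A ∨ cj g m.A = m.im A1 ∨ cj g m.A = m.im A2 :=
  Fr.jt2_cj card_A0 A0_sq h

theorem Fr.jt2_nrm {x : Mo} {K : Subgroup Mo} :
    m.φ x ∈ normalizer (m.im K : Set G) ↔ x ∈ normalizer (K : Set Mo) := by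
  rw [mem_normalizer_iff_cj, mem_normalizer_iff_cj, Fr.cj_im]
  exact (map_injective m.inj).eq_iff

theorem Fr.nr_N1 {g : G} (hg : g ∈ normalizer (m.R : Set G)) : g ∈ normalizer (m.im N1 : Set G) := by
  refine mem_normalizer_of_cj_le (cj_le_iff.2 ?_)
  rintro _ ⟨x, hx, rfl⟩
  have h1 : cj g⁻¹ m.A ≤ m.T := (cj_mono _ (Fr.im_le.2 (sup01 ▸ le_sup_left))).trans
    ((mem_normalizer_iff_cj.1 (inv_mem hg)).le.trans (Fr.im_le.2 (pat_le (by decide) (by decide))))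
  have h2 : m.φ x ∈ normalizer ((cj g⁻¹ m.A : Subgroup G) : Set G) := by
    rcases Fr.cj_T h1 with e | e | e <;> rw [e, Fr.jt2_nrm]
    exacts [normalizer_eq_top A0 ▸ mem_top x, N1_norm_A1 hx, N1_norm_A2 hx]
  obtain ⟨y, e⟩ : g * m.φ x * g⁻¹ ∈ m.N := Fr.mem_N.2 (by
    rw [cj_mul, cj_mul, mem_normalizer_iff_cj.1 h2, cj_cj_inv])
  rw [← e]
  refine Fr.φ_mem.2 (mem_N1.2 ((Fr.jt2_nrm (m := m)).1 ?_))
  rw [e]
  exact mul_mem (mul_mem hg (Fr.jt2_nrm.2 (mem_N1.1 hx))) (inv_mem hg)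

theorem Fr.jt2_Z {g : G} (hg : g ∈ normalizer (m.R : Set G)) {z : Mo} (hz : z ∈ Z0) :
    ∃ y ∈ Z0, g * m.φ z * g⁻¹ = m.φ y := by
  have hZ : Z0 ≤ R0 := pat_le (by decide) (by decide)
  obtain ⟨y, -, e⟩ := (mem_normalizer_iff.1 hg _).1 (Fr.φ_mem.2 (hZ hz))
  refine ⟨y, cen_R0 fun a ha => (Fr.φ_eq (m := m)).1 ?_, e.symm⟩
  obtain ⟨b, hb, k⟩ := (mem_normalizer_iff''.1 hg _).1 (Fr.φ_mem.2 ha)
  rw [map_mul, map_mul, e, show m.φ a = g * m.φ b * g⁻¹ by rw [k]; group, conj_mul, conj_mul, ← map_mul, ← map_mul,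
    cen_Z0.2 hb z hz]

theorem Fr.jt2_pp {g : G} (hg : g ∈ normalizer (m.R : Set G)) {b c : Mo} (e : g * m.φ b * g⁻¹ = m.φ c) (h : PP b) :
    PP c := fun x hx hz => by
  obtain ⟨y, hy, k⟩ := (mem_normalizer_iff''.1 (Fr.nr_N1 hg) _).1 (Fr.φ_mem.2 hx)
  obtain ⟨z, z1, z2⟩ := Fr.jt2_Z (inv_mem hg) hz
  obtain ⟨r, hr, k2⟩ := h y hy (by
    rw [show y * b * y⁻¹ * b⁻¹ = z from (Fr.φ_eq (m := m)).1 (by
      rw [← z2]; simp only [map_mul, map_inv, k, ← e]; group)]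
    exact z1)
  obtain ⟨s, hs, k3⟩ := (mem_normalizer_iff.1 hg _).1 (Fr.φ_mem.2 hr)
  refine ⟨s, hs, (Fr.φ_eq (m := m)).1 ?_⟩
  have k4 := congrArg m.φ k2
  simp only [map_mul, map_inv, k] at k4
  simp only [map_mul, map_inv, k3, ← e]
  calc _ = g * (g⁻¹ * m.φ x * g * m.φ b * (g⁻¹ * m.φ x * g)⁻¹) * g⁻¹ := by group
    _ = _ := by rw [k4]; group

theorem Fr.jt2 {g : G} (hg : g ∈ normalizer (m.R : Set G)) : cj g m.A ≠ m.im A2 := by
  intro h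
  let D : Mo → Prop := fun c => c ∈ A2 ∧ c.x.1 0 4 = 0 ∧ ∃ u : Fin 5 → ZMod 2, u 4 = 0 ∧
    g * m.φ (th (wv u e4)) * g⁻¹ = m.φ c
  have d1 : ∀ a b, D a → D b → D (a * b) := fun a b ⟨a1, a2, u, a3, a4⟩ ⟨b1, b2, v, b3, b4⟩ =>
    ⟨mul_mem a1 b1, by rw [(mul_A2 a1 b 0 0 (by decide)).1, a2, b2, add_zero], u + v, by simp [a3, b3], by
      rw [map_mul, ← a4, ← b4, conj_mul, ← map_mul, ← th_add]
      congr 4
      refine Subtype.ext (Matrix.ext fun i j => ?_)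
      simp only [wv, AddSubgroup.coe_add, Matrix.add_apply, Matrix.of_apply, Pi.add_apply]
      ring⟩
  have d2 : ∀ a, D a → ff a = 0 := fun a ⟨a1, a2, u, a3, a4⟩ => ff_zero a1 a2 (Fr.jt2_pp hg a4 (pp_wv a3))
  have d3 : ∀ i : Fin 5, i ≠ 0 → i ≠ 4 → ∃ c, D c ∧ ∀ j, j ≠ 4 → c.x.1 j 4 = if j = i then 1 else 0 := fun i i0 i4 => by
    obtain ⟨a, ha, k⟩ := mem_cj.1 (h ▸ Fr.φ_mem.2 (Bas1.te_mem i i4) : m.φ (t i 4 * e i 4) ∈ cj g m.A)
    have k1 : a * th (wv (fun j => a.x.1 j 4) e4) ∈ Z0 := by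
      rw [← inf01]
      have k2 : (a * th (wv (fun j => a.x.1 j 4) e4)).g = 1 := by rw [mul_g, mem_A0.1 ha]; exact one_mul _
      refine mem_inf.2 ⟨mem_A0.2 k2, fun i j _ => by rw [k2]; rfl, fun i j e => ?_⟩
      obtain rfl : j = 4 := by revert e; revert j; unfold rZ; simp [Fin.ext_iff]
      rw [mul_x, mem_A0.1 ha, one_smul]
      simp [th, wv, e4, a.x.2.2, CharTwo.add_self_eq_zero]
    obtain ⟨y, hy, k2⟩ := Fr.jt2_Z hg k1
    have k3 : ∀ j, j ≠ 4 → (t i 4 * e i 4 * y).x.1 j 4 = if j = i then 1 else 0 := fun j hj => by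
      rw [(mul_A2 (Bas1.te_mem i i4) y j j hj).1, hy.2 j 4 rfl, add_zero]
      clear * - i4 hj
      revert i j
      decide +kernel
    refine ⟨t i 4 * e i 4 * y, ⟨mul_mem (Bas1.te_mem i i4) (Z0_le_A2 hy), by rw [k3 0 (by decide), if_neg i0.symm],
      fun j => a.x.1 j 4, a.x.2.2 4, ?_⟩, k3⟩
    rw [map_mul _ _ y, ← k2, show m.φ (t i 4 * e i 4) = g * m.φ a * g⁻¹ by rw [k]; group, conj_mul, ← map_mul,
      ← mul_assoc a, A0_sq a ha, one_mul]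
  obtain ⟨a, a1, a2⟩ := d3 1 (by decide) (by decide)
  obtain ⟨b, b1, b2⟩ := d3 2 (by decide) (by decide)
  obtain ⟨c, c1, c2⟩ := d3 3 (by decide) (by decide)
  have e1 := d2 _ a1
  have e2 := d2 _ b1
  have e3 := d2 _ c1
  have e4 := d2 _ (d1 _ _ a1 b1)
  have e5 := d2 _ (d1 _ _ a1 c1)
  have e6 := d2 _ (d1 _ _ b1 c1)
  have e7 := d2 _ (d1 _ _ a1 (d1 _ _ b1 c1))
  have m1 : ∀ {a : Mo}, D a → ∀ (b : Mo) (i : Fin 5), i ≠ 4 → (a * b).x.1 i 4 = a.x.1 i 4 + b.x.1 i 4 :=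
    fun ha b i hi => (mul_A2 ha.1 b i i hi).1
  have m2 : ∀ {a : Mo}, D a → ∀ (b : Mo) (i j : Fin 5), i ≠ 4 → j ≠ 4 → (a * b).x.1 i j =
      a.x.1 i j + b.x.1 i j + a.x.1 i 4 * b.x.1 j 4 + b.x.1 i 4 * a.x.1 j 4 :=
    fun ha b i j hi hj => (mul_A2 ha.1 b i j hi).2 hj
  simp (config := {decide := true}) only [ff, m1 a1, m1 b1, m2 a1, m2 b1, a2, b2, c2, ne_eq, not_false_eq_true,
    if_true, if_false] at e1 e2 e3 e4 e5 e6 e7
  have two : (2 : ZMod 2) = 0 := rfl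
  exact one_ne_zero (show (1 : ZMod 2) = 0 by linear_combination e7 - e4 - e5 - e6 + e1 + e2 + e3 - two)

end CfsgLib.L5R
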