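import Mathlib
import Cfsg.Agent.Lib.L5R.Jt2
import Cfsg.Agent.Lib.L5R.Bas3

/-!
# the normaliser of `R` and the two cases (plans/L5R.md)
-/

set_option autoImplicit false
set_option maxHeartbeats 400000
set_option Elab.async false
set_option linter.unusedSectionVars false

namespace CfsgLib.L5R

open Subgroup Cfsg CfsgLib.Tech CfsgLib.Held CfsgLib.MOrb CfsgLib.L72 CfsgLib.LargeExtra CfsgLib.ExtraTwo

variable {G : Type*} [Group G] [Finite G] {m : Fr G}

namespace Nrx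

theorem R0_T0 : R0 ≤ T0 := pat_le (by decide) (by decide)
theorem T0_N1 : T0 ≤ N1 := pat_le (by decide) (by decide)
theorem T0_H0 : T0 ≤ H0 := pat_le (by decide) (by decide)
theorem A0_R0 : A0 ≤ R0 := sup01 ▸ le_sup_left
theorem A1_R0 : A1 ≤ R0 := sup01 ▸ le_sup_right

theorem im_inj {K L : Subgroup Mo} : m.im K = m.im L ↔ K = L := (map_injective m.inj).eq_iff

theorem φ_norm {x : Mo} {K : Subgroup Mo} :
    m.φ x ∈ normalizer (m.im K : Set G) ↔ x ∈ normalizer (K : Set Mo) := by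
  rw [mem_normalizer_iff_cj, mem_normalizer_iff_cj, Fr.cj_im, im_inj]

theorem im_norm {K L : Subgroup Mo} (h : L ≤ normalizer (K : Set Mo)) : m.im L ≤ normalizer (m.im K : Set G) := by
  rintro _ ⟨x, hx, rfl⟩
  exact φ_norm.2 (h hx)

theorem im_sup (K L : Subgroup Mo) : m.im K ⊔ m.im L = m.im (K ⊔ L) := (Subgroup.map_sup _ _ _).symm

theorem syl_N : IsSylowIn 2 m.T m.N :=
  ⟨Fr.im_le_N, syl_T0.pgroup.map _, by
    rw [Fr.N, MonoidHom.range_eq_map, relIndex_map_map_of_injective _ _ m.inj]; exact syl_T0.not_dvd⟩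

/-- conjugates of an elementary abelian subgroup of order `2^10` -/
theorem cj_ja {K : Subgroup Mo} (sq : ∀ a ∈ K, a * a = 1) (hc : Nat.card K = 2 ^ 10) {g : G}
    (h : cj g (m.im K) ≤ m.T) : cj g (m.im K) = m.A ∨ cj g (m.im K) = m.im A1 ∨ cj g (m.im K) = m.im A2 := by
  have e := Fr.im_comap (h.trans Fr.im_le_N)
  have := (ja (B := (cj g (m.im K)).comap m.φ) (Fr.im_le.1 (e.le.trans h)) fun b hb => m.inj (by
    obtain ⟨_, ⟨a, ha, rfl⟩, e⟩ := hb
    rw [map_mul, ← e, ← map_mul, ← map_mul, sq a ha, map_one, map_one])).2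
      (by rw [← m.card_im, e, card_cj, m.card_im, hc])
  rw [← e]
  exact this.imp (congrArg _) (Or.imp (congrArg _) (congrArg _))

theorem le_T {K : Subgroup Mo} (hK : K ≤ R0) {g : G} (hg : g ∈ normalizer (m.R : Set G)) : cj g (m.im K) ≤ m.T :=
  ((cj_mono g (Fr.im_le.2 hK)).trans (mem_normalizer_iff_cj.1 hg).le).trans (Fr.im_le.2 R0_T0)

theorem norm_R {y : G} (hy : y ∈ normalizer (m.T : Set G)) : y ∈ normalizer (m.R : Set G) := by
  have k : ∀ {K : Subgroup Mo}, K ≤ R0 → cj y (m.im K) ≤ m.T := fun h =>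
    (cj_mono y (Fr.im_le.2 (h.trans R0_T0))).trans (mem_normalizer_iff_cj.1 hy).le
  have k' : ∀ {B : Subgroup G}, B = m.A ∨ B = m.im A1 ∨ B = m.im A2 → B ≤ m.R := by
    rintro _ (rfl | rfl | rfl)
    exacts [Fr.im_le.2 A0_R0, Fr.im_le.2 A1_R0, Fr.im_le.2 A2_le_R0]
  refine mem_normalizer_of_cj_le ?_
  rw [Fr.R, ← sup01, ← im_sup, cj_sup, im_sup, sup01]
  exact sup_le (k' (cj_ja A0_sq card_A0 (k A0_R0))) (k' (cj_ja A1_sq card_A1 (k A1_R0)))

end Nrx

open Nrx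

theorem Fr.nr {g : G} (hg : g ∈ normalizer (m.R : Set G)) :
    g ∈ m.im N1 ∨ (cj g m.A = m.im A1 ∧ cj g (m.im A1) = m.A) := by
  rcases Fr.cj_T (le_T A0_R0 hg) with e | e | e
  · obtain ⟨x, rfl⟩ := Fr.mem_N.2 e
    exact Or.inl (Fr.φ_mem.2 (mem_N1.2 (φ_norm.1 hg)))
  · refine Or.inr ⟨e, ?_⟩
    rcases cj_ja A1_sq card_A1 (le_T A1_R0 hg) with e' | e' | e'
    · exact e'
    · exact absurd (im_inj.1 (cj_injective g (e.trans e'.symm))) ne01
    · exact absurd (by rw [cj_mul, e, e']) (Fr.jt2 (mul_mem hg hg))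
  · exact absurd e (Fr.jt2 hg)

theorem Fr.nr_A2 {g : G} (hg : g ∈ normalizer (m.R : Set G)) : cj g (m.im A2) = m.im A2 := by
  rcases Fr.nr hg with h | ⟨h1, h2⟩
  · exact mem_normalizer_iff_cj.1 (im_norm N1_norm_A2 h)
  rcases cj_ja A2_sq card_A2 (le_T A2_le_R0 hg) with e | e | e
  · exact absurd (im_inj.1 (cj_injective g (h2.trans e.symm))) ne12
  · exact absurd (im_inj.1 (cj_injective g (h1.trans e.symm))) ne02
  · exact e

theorem Fr.cases (m : Fr G) : (IsSylowIn 2 m.T ⊤ ∧ m.WC) ∨ ∃ g ∈ normalizer (m.R : Set G), cj g m.A = m.im A1 := by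
  have key : ∀ y ∈ normalizer (m.T : Set G), y ∉ m.N → ∃ g ∈ normalizer (m.R : Set G), cj g m.A = m.im A1 :=
    fun y hy hn => ⟨y, norm_R hy, ((Fr.nr (norm_R hy)).resolve_left fun h => hn (Fr.im_le_N h)).1⟩
  by_cases hT : IsSylowIn 2 m.T ⊤
  · refine or_iff_not_imp_left.2 fun hn => ?_
    obtain ⟨g, h1, h2⟩ : ∃ g, cj g m.A ≤ m.T ∧ cj g m.A ≠ m.A := by
      by_contra! h
      exact hn ⟨hT, h⟩
    have h3 : m.T ≤ normalizer (cj g m.A : Set G) := by
      rcases Fr.cj_T h1 with e | e | e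
      · exact absurd e h2
      · rw [e]; exact im_norm (T0_N1.trans N1_norm_A1)
      · rw [e]; exact im_norm (T0_N1.trans N1_norm_A2)
    have h4 : cj g m.T ≤ normalizer (cj g m.A : Set G) := by
      rw [← cj_normalizer]
      exact cj_mono g (Fr.im_le_N.trans m.range.le)
    obtain ⟨c, hc, e⟩ := ((hT.cj_of_mem (mem_top g)).of_le h4 le_top).exists_cj_eq (hT.of_le h3 le_top)
    refine key (c * g) (mem_normalizer_iff_cj.2 (by rw [cj_mul, e])) fun h => h2 ?_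
    rw [← mem_normalizer_iff_cj.1 hc, ← cj_mul]
    exact Fr.mem_N.1 h
  · obtain ⟨P, hP, h1, -, h2⟩ := exists_lt_pgroup_normalizer syl_N.pgroup le_top hT
    obtain ⟨y, hy, hy'⟩ := SetLike.exists_of_lt h1
    exact Or.inr (key y (h2 hy) fun h => hy' ((syl_N.eq_of_le (Q := P ⊓ m.N) (hP.to_le inf_le_left)
      (le_inf h1.le Fr.im_le_N) inf_le_right).le (mem_inf.2 ⟨hy, h⟩)))

theorem Fr.st_T (h : IsSylowIn 2 m.T ⊤) : St m m.T where
  le := le_rfl
  syl := h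
  zc := by
    rintro _ ⟨x, hx, rfl⟩
    exact Fr.mem_H.2 (by rw [← map_mul, ← map_mul, mem_H0.1 (T0_H0 hx)])
  nQ := im_norm (T0_H0.trans H0_norm)
  nd := by
    rintro _ ⟨x, hx, rfl⟩
    simp only [← map_mul, ← map_inv, Fr.φ_mem]
    exact H0_d0 (T0_H0 hx)
  idx := fun _ hs _ _ h _ => absurd hs h
  swap := fun _ hs h => absurd hs h

end CfsgLib.L5R
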