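import Mathlib
import Cfsg.Agent.Lib.L5R.Nr
import Cfsg.Agent.Lib.L5R.Bas3
import Cfsg.Agent.Lib.L33.Tool

/-!
# the subgroups `S` and `V` in case II (plans/L5R.md)
-/

set_option autoImplicit false
set_option maxHeartbeats 400000
set_option Elab.async false
set_option linter.unusedSectionVars false
set_option linter.unusedVariables false

namespace CfsgLib.L5R

open Subgroup Cfsg CfsgLib.Tech CfsgLib.Held CfsgLib.MOrb CfsgLib.L72 CfsgLib.LargeExtra CfsgLib.ExtraTwo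

variable {G : Type*} [Group G] [Finite G] {m : Fr G} {s : G}

namespace Sv

theorem T_N1 : T0 ≤ N1 := pat_le (by decide) (by decide)
theorem T_H : T0 ≤ H0 := pat_le (by decide) (by decide)
theorem R_Tz : R0 ≤ Tz := pat_le (by decide) (by decide)
theorem Tz_T : Tz ≤ T0 := pat_le (by decide) (by decide)
theorem Q_Tz : Q0 ≤ Tz := pat_le (by decide) (by decide)
theorem A0_T : A0 ≤ T0 := pat_le (by decide) (by decide)
theorem A2_Tz : A2 ≤ Tz := A2_le_R0.trans R_Tz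
theorem A2_T : A2 ≤ T0 := A2_Tz.trans Tz_T

omit [Finite G] in
theorem im_norm {K L : Subgroup Mo} (h : K ≤ normalizer (L : Set Mo)) : m.im K ≤ normalizer (m.im L : Set G) := by
  rintro _ ⟨x, hx, rfl⟩
  rw [mem_normalizer_iff_cj, Fr.cj_im, mem_normalizer_iff_cj.1 (h hx)]

omit [Finite G] in
theorem im_inj {K L : Subgroup Mo} (h : m.im K = m.im L) : K = L := map_injective m.inj h

omit [Finite G] in
theorem comm_of_sq {B : Subgroup G} (sq : ∀ b ∈ B, b * b = 1) {a b : G} (ha : a ∈ B) (hb : b ∈ B) : a * b = b * a := by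
  have h1 := sq _ (mul_mem ha hb)
  rw [← inv_eq_of_mul_eq_one_right h1, mul_inv_rev, inv_eq_of_mul_eq_one_right (sq a ha),
    inv_eq_of_mul_eq_one_right (sq b hb)]

omit [Finite G] in
theorem cj_of_comm {B : Subgroup G} {x : G} (h : ∀ b ∈ B, b * x = x * b) : cj x B = B :=
  le_antisymm (cj_le_iff.2 fun b hb => by rwa [← h b hb, mul_inv_cancel_right])
    (le_cj_iff.2 fun b hb => by rwa [mul_assoc, h b hb, inv_mul_cancel_left])

omit [Finite G] in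
theorem card_comap {B : Subgroup G} (h : B ≤ m.N) : Nat.card (B.comap m.φ) = Nat.card B := by
  rw [← Fr.card_im (m := m), Fr.im_comap h]

omit [Finite G] in
theorem sq_comap {B : Subgroup G} (sq : ∀ b ∈ B, b * b = 1) : ∀ b ∈ B.comap m.φ, b * b = 1 := fun b hb =>
  m.inj (by rw [map_mul, map_one]; exact sq _ hb)

omit [Finite G] in
theorem cen_A2' {x : G} (hx : x ∈ m.N) (h : ∀ a ∈ m.im A2, a * x = x * a) : x ∈ m.im A2 := by
  obtain ⟨y, rfl⟩ := hx
  exact Fr.φ_mem.2 (cen_A2 fun a ha => m.inj (by rw [map_mul, map_mul]; exact h _ ⟨a, ha, rfl⟩))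

end Sv

open Sv

omit [Finite G] in
theorem SX.inv_s (h : SX m s) : s⁻¹ = s := inv_eq_of_mul_eq_one_right h.sq

omit [Finite G] in
theorem SX.ss (h : SX m s) (x : G) : s * (s * x) = x := by rw [← mul_assoc, h.sq, one_mul]

theorem SX.not_N (h : SX m s) : s ∉ m.N := fun hs => ne01 (im_inj ((Fr.mem_N.1 hs).symm.trans h.swap))

theorem SX.nT (h : SX m s) : s ∈ normalizer (m.T : Set G) := mem_normalizer_of_forall fun x hx => by
  rw [show s * x * s⁻¹ = s * x * s⁻¹ * x⁻¹ * x by group]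
  exact mul_mem (Fr.im_le.2 A2_T (h.com x (Fr.im_le.2 T_N1 hx))) hx

theorem SX.mem_S (h : SX m s) {x : G} : x ∈ m.S s ↔ x ∈ m.T ∨ s * x ∈ m.T :=
  L33.mem_sup_two (fun _ hk => conj_mem_of_mem_normalizer h.nT hk) (h.sq ▸ one_mem _)

omit [Finite G] in
theorem SX.nA2 (h : SX m s) : ∀ k ∈ m.im A2, s * k * s⁻¹ ∈ m.im A2 := fun k hk => by
  rwa [h.cen k hk, mul_inv_cancel_right]

theorem SX.mem_V (h : SX m s) {x : G} : x ∈ m.V s ↔ x ∈ m.im A2 ∨ s * x ∈ m.im A2 :=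
  L33.mem_sup_two h.nA2 (h.sq ▸ one_mem _)

theorem SX.card_S (h : SX m s) : Nat.card (m.S s) = 2 ^ 21 := by
  rw [Fr.S, L33.card_sup_two (fun _ hk => conj_mem_of_mem_normalizer h.nT hk) (h.sq ▸ one_mem _)
    (fun hs => h.not_N (Fr.im_le_N hs)), Fr.card_im, card_T0]
  norm_num

theorem SX.card_V (h : SX m s) : Nat.card (m.V s) = 2 ^ 11 := by
  rw [Fr.V, L33.card_sup_two h.nA2 (h.sq ▸ one_mem _) (fun hs => h.not_N (Fr.im_le_N hs)), Fr.card_im, card_A2]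
  norm_num

theorem SX.V_sq (h : SX m s) : ∀ v ∈ m.V s, v * v = 1 := by
  have k : ∀ a ∈ m.im A2, a * a = 1 := by
    rintro _ ⟨a, ha, rfl⟩
    rw [← map_mul, A2_sq a ha, map_one]
  intro v hv
  rcases h.mem_V.1 hv with hv | hv
  · exact k v hv
  · have h1 := h.cen _ hv
    have h2 := k _ hv
    rw [h.ss] at h1
    rw [← h2, ← mul_assoc, ← h1]

theorem SX.V_le (h : SX m s) : m.V s ≤ m.S s := sup_le_sup_right (Fr.im_le.2 A2_T) _

theorem SX.inf_N (h : SX m s) : m.V s ⊓ m.N = m.im A2 := by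
  refine le_antisymm (fun x hx => (h.mem_V.1 hx.1).resolve_right fun e => h.not_N ?_) (le_inf le_sup_left Fr.im_le_N)
  simpa using mul_mem (Fr.im_le_N e) (inv_mem hx.2)

theorem SX.N1_norm (h : SX m s) : m.im N1 ≤ normalizer (m.V s : Set G) := fun x hx =>
  mem_normalizer_of_forall fun v hv => by
    have hn := im_norm (m := m) N1_norm_A2 hx
    rcases h.mem_V.1 hv with hv | hv
    · exact mem_sup_left (conj_mem_of_mem_normalizer hn hv)
    · refine h.mem_V.2 (.inr ?_)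
      rw [show s * (x * v * x⁻¹) = s * x * s⁻¹ * x⁻¹ * (x * (s * v) * x⁻¹) by group]
      exact mul_mem (h.com x hx) (conj_mem_of_mem_normalizer hn hv)

theorem SX.S_norm (h : SX m s) : m.S s ≤ normalizer (m.V s : Set G) :=
  sup_le ((Fr.im_le.2 T_N1).trans h.N1_norm) (le_sup_right.trans le_normalizer)

theorem SX.swap' (h : SX m s) {x : G} (hx : x ∈ m.S s) (hx' : x ∉ m.T) : cj x m.A = m.im A1 ∧ cj x (m.im A1) = m.A := by
  obtain ⟨y, ht, rfl⟩ : ∃ y ∈ m.T, x = s * y := ⟨s * x, (h.mem_S.1 hx).resolve_left hx', (h.ss x).symm⟩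
  rw [cj_mul, cj_mul, Fr.mem_N.1 (Fr.im_le_N ht),
    mem_normalizer_iff_cj.1 (im_norm N1_norm_A1 (Fr.im_le.2 T_N1 ht)), h.swap]
  refine ⟨rfl, ?_⟩
  rw [← h.swap, ← cj_mul, h.sq, cj_one]

theorem SX.mem_V_of (h : SX m s) {x : G} (hx : x ∈ m.S s) (hc : ∀ a ∈ m.im A2, a * x = x * a) : x ∈ m.V s := by
  rcases h.mem_S.1 hx with ht | ht
  · exact mem_sup_left (cen_A2' (Fr.im_le_N ht) hc)
  · refine h.mem_V.2 (.inr (cen_A2' (Fr.im_le_N ht) fun a ha => ?_))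
    rw [← mul_assoc, ← h.cen a ha, mul_assoc, hc a ha, mul_assoc]

theorem SX.half (h : SX m s) {B : Subgroup G} (hB : B ≤ m.S s) : Nat.card B ≤ 2 * Nat.card ↥(B ⊓ m.T) :=
  L33.card_le_two_mul fun g hg g' hg' k k' => by
    have := mul_mem (inv_mem ((h.mem_S.1 (hB hg)).resolve_left k)) ((h.mem_S.1 (hB hg')).resolve_left k')
    rwa [mul_inv_rev, mul_assoc, inv_mul_cancel_left] at this

theorem SX.uniq (h : SX m s) {B : Subgroup G} (hB : B ≤ m.S s) (sq : ∀ b ∈ B, b * b = 1) (hc : Nat.card B = 2 ^ 11) :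
    B = m.V s := by
  have hN : B ⊓ m.T ≤ m.N := inf_le_right.trans Fr.im_le_N
  have h1 := h.half hB
  obtain ⟨h2, h3⟩ := ja (B := (B ⊓ m.T).comap m.φ) (fun x hx => Fr.φ_mem.1 hx.2) (sq_comap fun b hb => sq b hb.1)
  rw [card_comap hN] at h2 h3
  have hT : ¬ B ≤ m.T := fun e => by rw [inf_eq_left.2 e] at h2; omega
  obtain ⟨x, hx, hxT⟩ := SetLike.not_le_iff_exists.1 hT
  have h4 : cj x (B ⊓ m.T) = B ⊓ m.T := cj_of_comm fun b hb => comm_of_sq sq hb.1 hx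
  obtain ⟨h5, h6⟩ := h.swap' (hB hx) hxT
  have h7 : B ⊓ m.T = m.im A2 := by
    rcases h3 (by omega) with e | e | e <;> rw [← Fr.im_comap hN, e] at h4
    · exact absurd (im_inj (h4.symm.trans h5)) ne01
    · exact absurd (im_inj (h6.symm.trans h4)) ne01
    · rw [← Fr.im_comap hN, e]
  refine eq_of_le_of_card_ge (fun b hb => h.mem_V_of (hB hb) fun a ha => comm_of_sq sq ?_ hb) (by rw [h.card_V, hc])
  rw [← h7] at ha
  exact ha.1

theorem SX.cen_V (h : SX m s) {x : G} (hx : x ∈ m.S s) (hc : ∀ v ∈ m.V s, v * x = x * v) : x ∈ m.V s :=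
  h.mem_V_of hx fun a ha => hc a (mem_sup_left ha)

theorem SX.cen_S (h : SX m s) {x : G} (hx : x ∈ m.S s) (hc : ∀ y ∈ m.S s, y * x = x * y) : x = 1 ∨ x = m.z := by
  by_cases hT : x ∈ m.T
  · obtain ⟨y, hy, rfl⟩ := hT
    rcases cen_T0 (x := y) fun a ha => m.inj (by rw [map_mul, map_mul]; exact hc _ (mem_sup_left ⟨a, ha, rfl⟩)) with e | e
    · exact .inl (by rw [e, map_one])
    · exact .inr (by rw [e])
  · have := cj_of_comm (B := m.A) fun b hb => hc b (mem_sup_left (Fr.im_le.2 A0_T hb))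
    exact absurd (im_inj (this.symm.trans (h.swap' hx hT).1)) ne01

theorem SX.nd (h : SX m s) : s * m.d * s⁻¹ * m.d⁻¹ ∈ m.Q := by
  obtain ⟨a, ha, e⟩ := h.com m.d ⟨d0, d0_N1, rfl⟩
  rw [← e]
  refine Fr.φ_mem.2 ?_
  have e1 : m.φ (a * d0) = s * m.d * s⁻¹ := by rw [map_mul, e]; group
  have e2 : (a * d0) ^ 3 = 1 := m.inj (by
    rw [map_pow, e1, conj_pow, ← map_pow, d0_three, map_one, mul_one, mul_inv_cancel])
  have hc := inv_mem (Tz_d0 (A2_Tz ha))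
  have := mul_mem (mul_mem (conj_mem_of_mem_normalizer (H0_norm (T_H (A2_T ha))) hc)
    (conj_mem_of_mem_normalizer (H0_norm d0_H0) hc)) hc
  rw [show a * (a * d0 * a⁻¹ * d0⁻¹)⁻¹ * a⁻¹ * (d0 * (a * d0 * a⁻¹ * d0⁻¹)⁻¹ * d0⁻¹) * (a * d0 * a⁻¹ * d0⁻¹)⁻¹ =
    a * d0 * a * d0⁻¹ * (a * a)⁻¹ * d0 * d0 * a * d0⁻¹ * d0⁻¹ * a⁻¹ by group, A2_sq a ha,
    show a * d0 * a * d0⁻¹ * 1⁻¹ * d0 * d0 * a * d0⁻¹ * d0⁻¹ * a⁻¹ = (a * d0) ^ 3 * (d0 ^ 3)⁻¹ * a⁻¹ by
      simp only [pow_succ, pow_zero]; group, e2, d0_three] at this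
  simpa using this

theorem SX.nQ (h : SX m s) : s ∈ normalizer (m.Q : Set G) := by
  obtain ⟨a, ha, e⟩ := h.nd
  have : Q0 ≤ (cj s⁻¹ m.Q).comap m.φ := gen_d0 fun q hq => by
    obtain ⟨b, hb, e'⟩ := h.com (m.φ q) ⟨q, T_N1 (Tz_T (Q_Tz hq)), rfl⟩
    have hx : b * q ∈ Tz := mul_mem (A2_Tz hb) (Q_Tz hq)
    have k := mul_mem (mul_mem (conj_mem_of_mem_normalizer (H0_norm (T_H (Tz_T hx))) ha) (Tz_d0 hx)) (inv_mem ha)
    rw [mem_comap, mem_cj, inv_inv]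
    convert Fr.φ_mem (m := m).2 k using 1
    simp only [map_mul, map_inv, e, e']
    group
  refine mem_normalizer_of_forall ?_
  rintro _ ⟨q, hq, rfl⟩
  have k := this hq
  rwa [mem_comap, mem_cj, inv_inv] at k

end CfsgLib.L5R
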