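import Mathlib
import Cfsg.Agent.Lib.L5R.Sv
import Cfsg.Agent.Lib.L5R.Inv

/-!
# the conjugates of `A` in `S` (plans/L5R.md)
-/

set_option autoImplicit false
set_option maxHeartbeats 400000
set_option Elab.async false
set_option linter.unusedSectionVars false

namespace CfsgLib.L5R

open Subgroup Cfsg CfsgLib.Tech CfsgLib.Held CfsgLib.MOrb CfsgLib.L72 CfsgLib.LargeExtra CfsgLib.ExtraTwo

variable {G : Type*} [Group G] [Finite G] {m : Fr G} {s : G}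

open Sv

namespace Cj

theorem Z_A0 : Z0 ≤ A0 := pat_le (by decide) (by decide)
theorem Z3_Z : Z3 ≤ Z0 := pat_le (by decide) (by decide)

theorem comm_F0 {ζ y : Mo} (hζ : ζ ∈ Z0) (hy : y ∈ F0) : ζ * y * ζ⁻¹ * y⁻¹ ∈ Z3 := by
  have e : ζ = th ζ.x := Mo.ext rfl (mem_A0.1 (Z_A0 hζ))
  have e1 : ζ⁻¹ = ζ := inv_eq_of_mul_eq_one_right (A0_sq ζ (Z_A0 hζ))
  rw [e1, show ζ * y * ζ * y⁻¹ = ζ * (y * ζ * y⁻¹) by group, e, conj_th, ← th_add]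
  refine ⟨fun _ _ _ => rfl, fun i j hj => ?_⟩
  have h1 : ∀ i, ζ.x.1 i 4 = 0 := fun i => hζ.2 i 4 rfl
  have h2 : ∀ i, ζ.x.1 4 i = 0 := fun i => (ζ.x.2.1 4 i).trans (h1 i)
  have h3 : ∀ i j : Fin 5, j.val ≤ 2 ∨ j ≤ i → y.g.1 i j = (1 : Mat) i j := fun i j h => hy.1 i j (by revert i j; decide)
  have h4 := ζ.x.2.2
  change ζ.x.1 i j + (y.g.1 * ζ.x.1 * y.g.1.transpose) i j = 0
  have hj' : j = 3 ∨ j = 4 := by revert i j; decide
  rcases hj' with rfl | rfl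
  · fin_cases i <;>
      simp [Matrix.mul_apply, Fin.sum_univ_five, h1, h2, h3, h4, CharTwo.add_self_eq_zero]
  · simp [Matrix.mul_apply, Fin.sum_univ_five, h1, h2, h3, h4, Matrix.one_apply]

theorem sq_cj (g : G) : ∀ b ∈ cj g m.A, b * b = 1 := fun b hb => by
  obtain ⟨a, ha, e⟩ := mem_cj.1 hb
  rw [show b = g * m.φ a * g⁻¹ by rw [e]; group, show g * m.φ a * g⁻¹ * (g * m.φ a * g⁻¹) = g * (m.φ a * m.φ a) * g⁻¹ by group,
    ← map_mul, A0_sq a ha, map_one, mul_one, mul_inv_cancel]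

theorem cen_cj {g y : G} (h : ∀ b ∈ cj g m.A, b * y = y * b) : y ∈ cj g m.A :=
  mem_cj.2 (Fr.cen_A fun a ha => by
    have := h _ (conj_mem_cj.2 ha)
    calc a * (g⁻¹ * y * g) = g⁻¹ * (g * a * g⁻¹ * y) * g := by group
      _ = _ := by rw [this]; group)

theorem card_cjA (g : G) : Nat.card (cj g m.A) = 2 ^ 10 := by rw [card_cj, Fr.card_im, card_A0]

/-- the case `B ⊓ Z = Z3` -/
theorem not_Z3 (h : SX m s) {g : G} (hg : cj g m.A ≤ m.S s) (h3 : (cj g m.A ⊓ m.T).comap m.φ ⊓ Z0 = Z3) : False := by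
  have hZ : ∀ w ∈ Z3, m.φ w ∈ cj g m.A := fun w hw => (h3.ge hw).1.1
  have hsZ : ∀ ζ ∈ Z0, s * m.φ ζ = m.φ ζ * s := fun ζ hζ => h.cen _ ⟨ζ, Z0_le_A2 hζ, rfl⟩
  have key : ∀ ζ ∈ Z0, ∀ b ∈ cj g m.A, m.φ ζ * b * (m.φ ζ)⁻¹ * b⁻¹ ∈ m.im Z3 := fun ζ hζ b hb => by
    have hc : ∀ w ∈ Z3, m.φ w * b = b * m.φ w := fun w hw => comm_of_sq (sq_cj g) (hZ w hw) hb
    rcases h.mem_S.1 (hg hb) with ⟨y, hy, e⟩ | ⟨y, hy, e⟩
    · have hF : y ∈ F0 := F0_eq ▸ ⟨hy, mem_Y0.2 fun w hw => m.inj (by rw [map_mul, map_mul, e]; exact hc w hw)⟩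
      exact ⟨_, comm_F0 hζ hF, by simp only [map_mul, map_inv, e]⟩
    · have hF : y ∈ F0 := F0_eq ▸ ⟨hy, mem_Y0.2 fun w hw => m.inj (by
        rw [map_mul, map_mul, e, ← mul_assoc, ← hsZ w (Z3_Z hw), mul_assoc, hc w hw, mul_assoc])⟩
      refine ⟨_, comm_F0 hζ hF, ?_⟩
      have h1 := hsZ _ (conj_mem_of_mem_normalizer (N1_norm_Z0 (T_N1 hy)) (inv_mem hζ))
      simp only [map_mul, map_inv, e] at h1 ⊢
      calc m.φ ζ * (s * b) * (m.φ ζ)⁻¹ * (s * b)⁻¹ = m.φ ζ * (s⁻¹ * (s * (s * b * (m.φ ζ)⁻¹ * (s * b)⁻¹))) := by group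
        _ = m.φ ζ * b * (m.φ ζ)⁻¹ * b⁻¹ := by
          rw [h1]
          have h2 : s⁻¹ * (s * b * (m.φ ζ)⁻¹ * (s * b)⁻¹ * s) = b * (m.φ ζ)⁻¹ * b⁻¹ := by group
          rw [h2]; group
  have pull : ∀ ζ ∈ Z0, ∃ y : Mo, m.φ y = g⁻¹ * m.φ ζ * g := fun ζ hζ => by
    have h1 : m.φ ζ ∈ normalizer (cj g m.A : Set G) := mem_normalizer_of_forall fun b hb => by
      obtain ⟨w, hw, e⟩ := key ζ hζ b hb
      rw [show m.φ ζ * b * (m.φ ζ)⁻¹ = m.φ ζ * b * (m.φ ζ)⁻¹ * b⁻¹ * b by group, ← e]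
      exact mul_mem (hZ w hw) hb
    have h2 : g⁻¹ * m.φ ζ * g ∈ m.N := Fr.mem_N.2 (by rw [cj_mul, cj_mul, mem_normalizer_iff_cj.1 h1, cj_inv_cj])
    exact h2
  have nA : ∀ ζ ∈ Z0, ζ ∉ Z3 → ∀ y : Mo, m.φ y = g⁻¹ * m.φ ζ * g → y ∉ A0 := fun ζ hζ hζ' y e hy =>
    hζ' (h3.le ⟨⟨mem_cj.2 ⟨y, hy, e⟩, ⟨ζ, A0_T (Z_A0 hζ), rfl⟩⟩, hζ⟩)
  have sq : ∀ ζ ∈ Z0, ∀ y : Mo, m.φ y = g⁻¹ * m.φ ζ * g → y * y ∈ A0 := fun ζ hζ y e => by
    rw [show y * y = 1 from m.inj (by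
      rw [map_mul, e, show g⁻¹ * m.φ ζ * g * (g⁻¹ * m.φ ζ * g) = g⁻¹ * (m.φ ζ * m.φ ζ) * g by group, ← map_mul,
        A0_sq ζ (Z_A0 hζ), map_one, mul_one, inv_mul_cancel])]
    exact one_mem _
  have br : ∀ ζ ∈ Z0, ∀ y : Mo, m.φ y = g⁻¹ * m.φ ζ * g → ∀ a ∈ A0,
      a * y * a⁻¹ * y⁻¹ ∈ (cj g⁻¹ (m.im Z3)).comap m.φ := fun ζ hζ y e a ha => by
    rw [mem_comap, mem_cj, inv_inv]
    convert inv_mem (key ζ hζ _ ((conj_mem_cj (g := g)).2 ⟨a, ha, rfl⟩)) using 1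
    simp only [map_mul, map_inv, e]
    group
  have m1 : t 0 3 ∈ Z0 := by decide +kernel
  have m2 : t 1 3 ∈ Z0 := by decide +kernel
  obtain ⟨y, e⟩ := pull _ m1
  obtain ⟨y', e'⟩ := pull _ m2
  have := two_inv (nA _ m1 (by decide +kernel) y e) (nA _ m2 (by decide +kernel) y' e')
    (nA _ (mul_mem m1 m2) (by decide +kernel) _ (by rw [map_mul, map_mul, e, e']; group)) (sq _ m1 y e) (sq _ m2 y' e')
    (br _ m1 y e) (br _ m2 y' e')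
  have h4 := card_le_of_le (map_comap_le m.φ (cj g⁻¹ (m.im Z3)))
  rw [card_cj, Fr.card_im, Fr.card_im, card_Z3] at h4
  omega

end Cj

open Cj

theorem SX.cj_S (h : SX m s) {g : G} (hg : cj g m.A ≤ m.S s) : cj g m.A = m.A ∨ cj g m.A = m.im A1 := by
  by_cases hT : cj g m.A ≤ m.T
  · rcases Fr.cj_T hT with e | e | e
    · exact .inl e
    · exact .inr e
    · exact absurd (Fr.im_le_N (hT (cen_cj fun b hb => (h.cen b (e ▸ hb)).symm))) h.not_N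
  exfalso
  obtain ⟨x, hx, hxT⟩ := SetLike.not_le_iff_exists.1 hT
  have hN : cj g m.A ⊓ m.T ≤ m.N := inf_le_right.trans Fr.im_le_N
  have h1 := h.half hg
  have h2 := L33.two_mul_card_le (inf_le_left : cj g m.A ⊓ m.T ≤ cj g m.A) hx fun e => hxT e.2
  rw [card_cjA] at h1 h2
  have hc : Nat.card ((cj g m.A ⊓ m.T).comap m.φ) = 2 ^ 9 := by rw [card_comap hN]; omega
  obtain ⟨h5, h6⟩ := h.swap' (hg hx) hxT
  have fx : ∀ y ∈ (cj g m.A ⊓ m.T).comap m.φ, x * m.φ y * x⁻¹ = m.φ y := fun y hy => by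
    rw [comm_of_sq (sq_cj g) hx hy.1, mul_inv_cancel_right]
  rcases jb (B := (cj g m.A ⊓ m.T).comap m.φ) (fun y hy => Fr.φ_mem.1 hy.2) (sq_comap fun b hb => sq_cj g b hb.1) hc
    (fun y hy => inf01 ▸ ⟨hy.2, Fr.φ_mem.1 (by
      rw [← h5, ← fx y hy.1]; exact conj_mem_cj.2 ⟨y, hy.2, rfl⟩)⟩)
    (fun y hy => inf01 ▸ ⟨Fr.φ_mem.1 (by
      change m.φ y ∈ m.A
      rw [← h6, ← fx y hy.1]; exact conj_mem_cj.2 ⟨y, hy.2, rfl⟩), hy.2⟩) with h7 | h7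
  · have hV : cj g m.A ≤ m.V s := fun b hb => by
      rcases h.mem_S.1 (hg hb) with ⟨y, hy, e⟩ | ⟨y, hy, e⟩
      · exact mem_sup_left ⟨y, h7 ⟨e ▸ hb, y, hy, rfl⟩, e⟩
      · refine h.mem_V.2 (.inr ⟨y, no_tv hy h7 hc fun a ha => m.inj ?_, e⟩)
        rw [map_mul, map_mul, e, ← mul_assoc, ← h.cen _ ⟨a, h7 ha, rfl⟩, mul_assoc, comm_of_sq (sq_cj g) ha.1 hb,
          mul_assoc]
    have h8 : m.V s ≤ cj g m.A := fun v hv => cen_cj fun b hb => comm_of_sq h.V_sq (hV hb) hv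
    have h9 := card_le_of_le h8
    rw [h.card_V, card_cjA] at h9
    omega
  · exact not_Z3 h hg h7

theorem SX.nR_of (h : SX m s) {P : Subgroup G} (h1 : m.R ≤ P) (h2 : P ≤ m.S s) {g : G}
    (hg : g ∈ normalizer (P : Set G)) : g ∈ normalizer (m.R : Set G) := by
  have eR : m.R = m.A ⊔ m.im A1 := by rw [Fr.R, ← sup01, Fr.im, Subgroup.map_sup]
  have k : ∀ x : G, cj x m.A ≤ m.S s → cj x m.A ≤ m.R := fun x hx => by
    rcases h.cj_S hx with e | e <;> rw [e, eR]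
    exacts [le_sup_left, le_sup_right]
  have hP : cj g m.R ≤ m.S s := (cj_mono g h1).trans ((mem_normalizer_iff_cj.1 hg).le.trans h2)
  refine mem_normalizer_of_cj_le ?_
  rw [eR, cj_sup, sup_le_iff, ← h.swap, ← cj_mul] at hP
  conv_lhs => rw [eR, cj_sup, ← h.swap, ← cj_mul]
  exact sup_le (k _ hP.1) (k _ hP.2)

theorem SX.two_S (h : SX m s) : IsPGroup 2 (m.S s) :=
  L33.two_sup_two (syl_T0.pgroup.map _) (fun _ hk => conj_mem_of_mem_normalizer h.nT hk) (h.sq ▸ one_mem _)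

theorem SX.syl (h : SX m s) : IsSylowIn 2 (m.S s) ⊤ := by
  have : Fact (Nat.Prime 2) := ⟨Nat.prime_two⟩
  by_contra hn
  obtain ⟨P, hP, hlt, -, hN⟩ := exists_lt_pgroup_normalizer h.two_S le_top hn
  obtain ⟨y, hy, hyS⟩ := SetLike.exists_of_lt hlt
  have e := syl_T0.eq_of_le (hP.comap_of_injective m.φ m.inj)
    (fun x hx => hlt.le (mem_sup_left ⟨x, hx, rfl⟩)) le_top
  have k : ∀ x ∈ P, x ∈ m.im N1 → x ∈ m.T := by
    rintro _ hx ⟨a, -, rfl⟩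
    exact ⟨a, e.le hx, rfl⟩
  refine hyS (h.mem_S.2 ?_)
  exact (h.all y (h.nR_of ((Fr.im_le.2 (R_Tz.trans Tz_T)).trans le_sup_left) le_rfl (hN hy))).imp (k y hy)
    (k _ (mul_mem (hlt.le (mem_sup_right (mem_zpowers s))) hy))

theorem SX.st (h : SX m s) : St m (m.S s) where
  le := le_sup_left
  syl := h.syl
  zc := sup_le (by
      rintro _ ⟨y, hy, rfl⟩
      exact Fr.mem_H.2 (by rw [← map_mul, ← map_mul, mem_H0.1 (T_H hy)]))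
    (zpowers_le.2 (Fr.mem_H.2 (h.cen _ ⟨z0, Z0_le_A2 (by decide +kernel), rfl⟩)))
  nQ := sup_le (im_norm (T_H.trans H0_norm)) (zpowers_le.2 h.nQ)
  nd x hx := by
    have k : ∀ y ∈ m.T, y * m.d * y⁻¹ * m.d⁻¹ ∈ m.Q ∨ y * m.d * y⁻¹ * m.d ∈ m.Q := by
      rintro _ ⟨y, hy, rfl⟩
      exact (H0_d0 (T_H hy)).imp (fun e => ⟨_, e, by simp only [map_mul, map_inv]⟩)
        fun e => ⟨_, e, by simp only [map_mul, map_inv]⟩
    rcases h.mem_S.1 hx with hT | hT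
    · exact k x hT
    · obtain ⟨y, hy, rfl⟩ : ∃ y ∈ m.T, x = s * y := ⟨s * x, hT, (h.ss x).symm⟩
      refine (k y hy).imp (fun e => ?_) fun e => ?_
      · convert mul_mem (conj_mem_of_mem_normalizer h.nQ e) h.nd using 1
        group
      · convert mul_mem (conj_mem_of_mem_normalizer h.nQ e)
          (conj_mem_of_mem_normalizer' (im_norm H0_norm ⟨d0, d0_H0, rfl⟩) (inv_mem h.nd)) using 1
        group
  idx x hx y hy hx' hy' := by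
    have := mul_mem (conj_mem_of_mem_normalizer' h.nT ((h.mem_S.1 hx).resolve_left hx'))
      ((h.mem_S.1 hy).resolve_left hy')
    rwa [inv_mul_cancel_left, mul_assoc, h.ss] at this
  swap x hx hx' := (h.swap' hx hx').1

end CfsgLib.L5R
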