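import Mathlib
import Cfsg.Agent.Lib.L5R.Bas2

/-!
# the action of `Tz / Q0` on `Q0 / ⟨z0⟩` (plans/L5R.md)
-/

set_option autoImplicit false
set_option maxHeartbeats 400000
set_option Elab.async false

namespace CfsgLib.L5R

open Subgroup Cfsg CfsgLib.Tech CfsgLib.Held CfsgLib.MOrb CfsgLib.L72 CfsgLib.LargeExtra CfsgLib.ExtraTwo

namespace F1

theorem allP_of {f : ℕ → Bool} : ∀ {bs : List ℕ} {x : ℕ},
    (∀ n, (∀ i ∉ bs, n.testBit i = x.testBit i) → f n = true) → allP bs f x = true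
  | [], x, h => h x fun _ _ => rfl
  | b :: bs, x, h => by
    have e : allP (b :: bs) f x =
      (allP bs f x && frc (Nat.xor x (Nat.shiftLeft 1 b)) (allP bs f)) := rfl
    rw [e, frc_eq, Bool.and_eq_true]
    refine ⟨allP_of fun n hn => h n fun i hi => hn i fun k => hi (List.mem_cons_of_mem _ k),
      allP_of fun n hn => h n fun i hi => ?_⟩
    rw [hn i fun k => hi (List.mem_cons_of_mem _ k), testBit_flip,
      decide_eq_false fun k : b = i => hi (k ▸ List.mem_cons_self), Bool.xor_false]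

theorem cnt_not {f : ℕ → Bool} : ∀ (bs : List ℕ) (x : ℕ),
    cntP bs f x + cntP bs (fun c => !f c) x = 2 ^ bs.length
  | [], x => by
    have e : ∀ g : ℕ → Bool, cntP [] g x = Bool.rec 0 1 (g x) := fun _ => rfl
    rw [e, e]
    cases f x <;> rfl
  | b :: bs, x => by
    have e : ∀ g : ℕ → Bool, cntP (b :: bs) g x =
      cntP bs g x + frc (Nat.xor x (Nat.shiftLeft 1 b)) (cntP bs g) := fun _ => rfl
    have h1 := cnt_not (f := f) bs x
    have h2 := cnt_not (f := f) bs (Nat.xor x (Nat.shiftLeft 1 b))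
    rw [e, e, frc_eq, frc_eq, List.length_cons, pow_succ]
    omega

/-- the number of codes in a pattern subgroup that pass a test -/
noncomputable def ct (bs : List ℕ) (f : ℕ → Bool) : ℕ := cntP bs (fun h => frc (sy h) f) oneC

theorem ncard_le {P R : Pt} {h1 : okG P} {h2 : okX P R} {bs : List ℕ}
    (hbs : ∀ k < 50, k ∈ bs ∨ (mkM P R).testBit k = true ∨ (k < 25 ∧ k % 5 ≤ k / 5)) {S : Set Mo}
    {f : ℕ → Bool} (hS : ∀ q ∈ S, q ∈ pat P R h1 h2 ∧ ∀ c, Cd q c → f c = true) : S.ncard ≤ ct bs f := by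
  classical
  have k : ∀ q : S, ∃ n, (∀ i ∉ bs, n.testBit i = oneC.testBit i) ∧ Cd q (sy n) := fun q => by
    obtain ⟨c, hc⟩ := exists_cd q
    have := hc.loop (hS q q.2).1 hbs
      (f := fun c => decide (∃ n, (∀ i ∉ bs, n.testBit i = oneC.testBit i) ∧ sy n = c))
      (allP_of fun n hn => by rw [frc_eq]; exact decide_eq_true ⟨n, hn, rfl⟩)
    obtain ⟨n, h3, h4⟩ := of_decide_eq_true this
    exact ⟨n, h3, h4 ▸ hc⟩
  choose g h3 h4 using k
  have := Fintype.ofFinite S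
  have h5 : Function.Injective g := fun a b e => Subtype.ext (((h4 a).eq_iff (h4 b)).2 (by rw [e]))
  rw [← Nat.card_coe_set_eq, Nat.card_eq_fintype_card, ← Finset.card_univ,
    ← Finset.card_image_of_injective _ h5]
  refine card_le_cntP _ fun n hn => ?_
  obtain ⟨q, -, rfl⟩ := Finset.mem_image.1 hn
  exact ⟨by rw [frc_eq]; exact (hS q q.2).2 _ (h4 q), h3 q⟩

variable {m q y : Mo} {c d : ℕ}

theorem cd_z (h : Cd m c) : Cd (z0 * m) (c ^^^ 34) := by
  refine ⟨Nat.xor_lt_two_pow h.lt (by norm_num), ?_, ?_⟩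
  · have e : cx (c ^^^ 34) = 34 ^^^ cx c := by
      rw [Nat.xor_comm]
      exact Nat.and_xor_distrib_right
    rw [e, dec_xor, ← h.x, mul_x, show z0.g = 1 from rfl, one_smul]
    exact congrArg (· + m.x.1) (show z0.x.1 = dec 34 by decide +kernel)
  · have e : cg (c ^^^ 34) = cg c := (Nat.shiftRight_xor_distrib).trans (Nat.xor_zero _)
    rw [e, ← h.g, mul_g, show z0.g = 1 from rfl, one_mul]

/-- test: `c` commutes with `y` modulo `z0` -/
noncomputable def cm (y c : ℕ) : Bool :=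
  frc (Nat.xor (mulC c y) (mulC y c)) fun u => or (Nat.beq u 0) (Nat.beq u 34)

theorem cm_iff (hq : Cd q c) (hy : Cd y d) :
    (q * y * q⁻¹ * y⁻¹ = 1 ∨ q * y * q⁻¹ * y⁻¹ = z0) ↔ cm d c = true := by
  rw [cm, frc_eq, Bool.or_eq_true, Nat.beq_eq, Nat.beq_eq, mul_assoc, ← mul_inv_rev, mul_inv_eq_one,
    mul_inv_eq_iff_eq_mul, (hq.mul hy).eq_iff (hy.mul hq), (hq.mul hy).eq_iff (cd_z (hy.mul hq))]
  refine or_congr (Nat.xor_eq_zero_iff).symm ⟨fun e => ?_, fun e => ?_⟩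
  · rw [e]
    exact Nat.xor_comm _ 34 ▸ Nat.xor_xor_cancel_right _ _
  · rw [← e, Nat.xor_comm]
    exact (Nat.xor_xor_cancel_right _ _).symm

theorem cs_mul (hq : q ∈ Q0) {r : Mo} (hr : r ∈ Q0) (hy : y * z0 = z0 * y)
    (h : q * y * q⁻¹ * y⁻¹ = 1 ∨ q * y * q⁻¹ * y⁻¹ = z0) :
    q * (y * r) * q⁻¹ * (y * r)⁻¹ = 1 ∨ q * (y * r) * q⁻¹ * (y * r)⁻¹ = z0 := by
  have e : q * (y * r) * q⁻¹ * (y * r)⁻¹ = q * y * q⁻¹ * y⁻¹ * (y * (q * r * (r * q)⁻¹) * y⁻¹) := by group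
  rw [e]
  rcases es_Q0.comm q hq r hr with k | k <;> rw [k]
  · simpa using h
  · rw [mul_inv_cancel_right, hy, mul_inv_cancel_right]
    rcases h with h | h <;> rw [h]
    · exact Or.inr (one_mul _)
    · exact Or.inl z0_sq

/-- a complement to `Q0` in `T0` -/
def B1 : Subgroup Mo :=
  pat (fun i j => decide (j.val ≤ i.val ∨ (i.val ≤ 1 ∧ 2 ≤ j.val))) fun i j => decide (i.val ≤ 1 ∨ j.val ≤ 1)

/-- a subgroup of index four in `Q0` -/
def K1 : Subgroup Mo := pat (fun i j => pE i j || decide (j.val = 2)) rQ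

theorem lp_B1 (h : Cd m c) (hm : m ∈ B1) {f : ℕ → Bool} (hf : lp [13, 14, 19, 26, 38, 39, 44] f = true) :
    f c = true := h.loop hm (by decide +kernel) hf

theorem T0_H0 : T0 ≤ H0 := pat_le (by decide) (by decide)
theorem Tz_T0 : Tz ≤ T0 := pat_le (by decide) (by decide)
theorem B1_T0 : B1 ≤ T0 := pat_le (by decide) (by decide)
theorem Q0_Tz : Q0 ≤ Tz := pat_le (by decide) (by decide)
theorem Q0_S16 : Q0 ≤ S16 := pat_le (by decide) (by decide)
theorem S16_Tz : S16 ≤ Tz := pat_le (by decide) (by decide)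
theorem Z3_Q0 : Z3 ≤ Q0 := pat_le (by decide) (by decide)

theorem split (h : y ∈ T0) : ∃ b ∈ B1, ∃ r ∈ Q0, b * r = y := by
  have h1 : T0 ≤ B1 ⊔ Q0 := by
    have k : ∀ i j : Fin 5, i < j → (t i j ∈ B1 ∨ t i j ∈ Q0) ∧ (e i j ∈ B1 ∨ e i j ∈ Q0) := by
      unfold B1
      decide +kernel
    exact gen_up (by decide) (fun i j l _ => (k i j l).1.elim (mem_sup_left ·) (mem_sup_right ·))
      fun i j l _ => (k i j l).2.elim (mem_sup_left ·) (mem_sup_right ·)
  have h2 : y ∈ ((B1 ⊔ Q0 : Subgroup Mo) : Set Mo) := h1 h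
  rw [coe_mul_of_left_le_normalizer_right B1 Q0 (B1_T0.trans (T0_H0.trans H0_norm))] at h2
  exact h2

theorem sq_of {b r : Mo} (hb : b ∈ B1) (hr : r ∈ Q0) (h : b * r * (b * r) ∈ Q0) : b * b ∈ Q0 := by
  have := mul_mem h (inv_mem (mul_mem (conj_mem_of_mem_normalizer' (H0_norm (T0_H0 (B1_T0 hb))) hr) hr))
  rwa [show b * r * (b * r) * (b⁻¹ * r * b * r)⁻¹ = b * b by group] at this

theorem cS_mul {r : Mo} (hr : r ∈ Q0) (hy : y ∈ H0) : cS Q0 z0 {y * r} = cS Q0 z0 {y} := by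
  ext q
  simp only [mem_cS, Set.mem_singleton_iff, forall_eq]
  refine and_congr_right fun hq => ⟨fun h => ?_, cs_mul hq hr (mem_H0.1 hy)⟩
  simpa using cs_mul hq (inv_mem hr) (mem_H0.1 (mul_mem hy (T0_H0 (Tz_T0 (Q0_Tz hr))))) h

theorem cS_conj {k : Mo} (hk : k ∈ H0) : (cS Q0 z0 {k * y * k⁻¹}).ncard = (cS Q0 z0 {y}).ncard := by
  have := ncard_cS_map (Q := Q0) (z := z0) (f := (MulAut.conj k).toMonoidHom) (MulAut.conj k).injective {y}
  rwa [show Q0.map (MulAut.conj k).toMonoidHom = Q0 from mem_normalizer_iff_cj.1 (H0_norm hk),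
    show (MulAut.conj k).toMonoidHom z0 = z0 from mul_inv_eq_iff_eq_mul.2 (mem_H0.1 hk),
    Set.image_singleton] at this

theorem ncard_eq (hy : Cd y d) :
    (cS Q0 z0 {y}).ncard = ct [1, 2, 3, 4, 7, 8, 9, 27, 28, 29, 32, 33, 34] (cm d) := by
  have h1 : (cS Q0 z0 {y}).ncard ≤ ct [1, 2, 3, 4, 7, 8, 9, 27, 28, 29, 32, 33, 34] (cm d) :=
    ncard_le (P := pE) (R := rQ) (by decide +kernel) fun q hq =>
      ⟨hq.1, fun c hc => (cm_iff hc hy).1 (hq.2 y rfl)⟩
  have h2 : ((Q0 : Set Mo) \ cS Q0 z0 {y}).ncard ≤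
      ct [1, 2, 3, 4, 7, 8, 9, 27, 28, 29, 32, 33, 34] (fun c => !cm d c) :=
    ncard_le (P := pE) (R := rQ) (by decide +kernel) fun q hq => ⟨hq.1, fun c hc => by
      rw [Bool.not_eq_true', ← Bool.not_eq_true, ← cm_iff hc hy]
      exact fun k => hq.2 ⟨hq.1, fun b hb => hb ▸ k⟩⟩
  have h3 := Set.ncard_diff_add_ncard_of_subset (s := cS Q0 z0 {y}) (t := Q0) fun q hq => hq.1
  have h4 : (Q0 : Set Mo).ncard = 2 ^ 13 := card_Q0
  have h5 := cnt_not (f := fun h => frc (sy h) (cm d)) [1, 2, 3, 4, 7, 8, 9, 27, 28, 29, 32, 33, 34] oneC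
  simp only [ct, frc_eq, List.length_cons, List.length_nil] at h1 h2 h5 ⊢
  omega

/-- conjugating elements -/
def ks : List (ℕ × ℕ) := [(150085518229504, 4472897), (158606733344768, 8536129), (158606742257664, 8536129),
  (286424960073728, 4726849), (299206782746624, 8917057), (299206791659520, 8917057), (308002875768832, 25694273),
  (308002884681728, 25694273), (427162448429056, 4988993), (439944271101952, 9048129), (439944280014848, 9048129),
  (571885666435072, 17043521), (571885675347968, 17043521), (708362547232768, 25305153),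
  (849100035588096, 21110849), (989837523943424, 29499457)]

/-- test: `b` is conjugate to a member of `l` -/
noncomputable def cjT (l : List ℕ) (b : ℕ) : Bool :=
  eL ks fun k => frc (mulC k.1 b) fun u => eL l fun r => Nat.beq u (mulC r k.1)

theorem ncard_of {l : List ℕ} {n : ℕ} (hy : Cd y d) (h : cjT l d = true)
    (hl : ∀ r ∈ l, okC r (cg r) = true ∧ ct [1, 2, 3, 4, 7, 8, 9, 27, 28, 29, 32, 33, 34] (cm r) = n) :
    (cS Q0 z0 {y}).ncard = n := by
  have hk : ∀ k ∈ ks, okC k.1 k.2 = true ∧ inM 0x631800000000 k.1 = true := by decide +kernel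
  simp only [cjT, eL_iff, frc_eq, Nat.beq_eq] at h
  obtain ⟨k, h1, r, h2, h3⟩ := h
  have c1 := cd_el (hk k h1).1
  have c2 := cd_el (hl r h2).1
  rw [← cS_conj (c1.mem_H0.2 (hk k h1).2), ((c1.mul hy).eq_iff (c2.mul c1)).2 h3, mul_inv_cancel_right,
    ncard_eq c2, (hl r h2).2]

theorem tabA : ∀ r ∈ [571885666574336, 572160544342016, 572160544481280],
    okC r (cg r) = true ∧ ct [1, 2, 3, 4, 7, 8, 9, 27, 28, 29, 32, 33, 34] (cm r) = 512 := by
  decide +kernel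

theorem tabB : ∀ r ∈ [571885733543936, 571885733683200, 572160611450880, 572160611590144],
    okC r (cg r) = true ∧ ct [1, 2, 3, 4, 7, 8, 9, 27, 28, 29, 32, 33, 34] (cm r) = 128 := by
  decide +kernel

/-- the involutions of `B1 ⊓ Tz` -/
def inv : List ℕ := [571885666574336, 571885670645760, 571885670785024, 571885675347968, 571885675487232,
  571885679558656, 571885679697920, 572160544342016, 572160544481280, 572160548552704, 572160548691968,
  572435422248960, 572435422388224, 572435426459648, 572435426598912, 572710300155904, 572710300295168,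
  572710304366592, 572710304505856, 589477852479488, 589477852618752, 589477861392384, 589477861531648,
  590027608293376, 590027608432640, 590027621416960, 590027621556224]

theorem tabI : lp [13, 14, 19, 26, 38, 39, 44] (fun b => imp (inM 0x3fff8c7ce7000 (mulC b b))
    (cond (inM 0x3ef38c6000000 b) (or (Nat.beq b oneC) (mL b inv))
      (cjT [571885733543936, 571885733683200, 572160611450880, 572160611590144] b))) = true := by
  decide +kernel

theorem tabJ : ∀ b ∈ inv, cjT [571885666574336, 572160544342016, 572160544481280] b = true := by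
  decide +kernel

theorem mem_inv {b : Mo} (h : Cd b c) (hb : b ∈ B1) (h1 : b ∈ Tz) (h2 : b * b ∈ Q0) (h3 : b ≠ 1) :
    c ∈ inv := by
  have := (imp_iff _ _).1 (lp_B1 h hb tabI) ((h.mul h).mem_Q0.1 h2)
  rw [h.mem_Tz.1 h1, cond_true, Bool.or_eq_true, Nat.beq_eq, mL_iff] at this
  exact this.resolve_left fun e => h3 (h.eq_one.2 e)

/-- the elementary abelian subgroups of order 8 of `Tz / Q0` -/
def L8 : List (ℕ × ℕ × ℕ) := [(571885666574336, 571885670645760, 572160544342016),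
  (571885666574336, 571885670645760, 572435422248960), (571885666574336, 571885670645760, 572710300155904),
  (571885666574336, 571885675347968, 589477852479488), (571885666574336, 571885679558656, 590027608293376),
  (571885666574336, 572160544342016, 572435422248960), (571885666574336, 572160544342016, 572435426459648),
  (571885666574336, 572160548552704, 572435422248960), (571885666574336, 572160548552704, 572435426459648),
  (571885670645760, 572160544342016, 572435422248960), (571885670645760, 572160544342016, 572435422388224),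
  (571885670645760, 572160544481280, 572435422248960), (571885670645760, 572160544481280, 572435422388224),
  (571885670785024, 572160544342016, 572435422248960), (571885670785024, 572160544342016, 572435422388224),
  (571885670785024, 572160544481280, 572435422248960), (571885670785024, 572160544481280, 572435422388224),
  (571885666574336, 571885670645760, 571885675347968), (571885666574336, 572435422248960, 589477852479488),
  (571885666574336, 572435426459648, 589477861392384)]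

/-- test: the square of the product lies in `Q0` -/
noncomputable def sq2 (a b : ℕ) : Bool := frc (mulC a b) fun u => inM 0x3fff8c7ce7000 (mulC u u)

/-- test: `u` is a product -/
noncomputable def pr8 (a b c : ℕ) (f : List ℕ → Bool) : Bool :=
  frc (mulC a b) fun u => frc (mulC a c) fun v => frc (mulC b c) fun w => frc (mulC u c) fun x =>
    f [oneC, a, b, u, c, v, w, x]

theorem tab8 : aL inv (fun a => aL inv fun b => imp (and (not (Nat.beq b a)) (sq2 a b)) (aL inv fun c =>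
    imp (and (not (or (Nat.beq c a) (or (Nat.beq c b) (Nat.beq c (mulC a b))))) (and (sq2 a c) (sq2 b c)))
      (pr8 a b c fun l => eL L8 fun g => and (mL g.1 l) (and (mL g.2.1 l) (mL g.2.2 l))))) = true := by
  decide +kernel

theorem tab16 : aL L8 (fun g => aL inv fun d => imp (and (sq2 g.1 d) (and (sq2 g.2.1 d) (sq2 g.2.2 d)))
    (pr8 g.1 g.2.1 g.2.2 fun l => or (mL d l) (aL (d :: l) (inM 0x3ff38c78c0000)))) = true := by
  decide +kernel

theorem tabK : ∀ g ∈ [571885666574336, 571885670645760, 571885670785024],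
    lp [1, 2, 3, 4, 7, 8, 9, 27, 28, 29, 32, 33, 34] (fun c => imp (cm g c) (inM 0x3fff9cfce7000 c)) = true := by
  decide +kernel

/-- test: `c` commutes with three elements modulo `z0` -/
noncomputable def cm3 (g : ℕ × ℕ × ℕ) (c : ℕ) : Bool := and (cm g.1 c) (and (cm g.2.1 c) (cm g.2.2 c))

theorem tabC : ∀ g ∈ L8, g.1 ∈ [571885666574336, 571885670645760, 571885670785024] ∧
    frc (ct [1, 2, 3, 4, 7, 8, 9, 28, 29, 33, 34] (cm3 g)) (fun n => or (Nat.beq n 32) (and (Nat.beq n 128)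
      (or (lp [1, 2, 3, 4, 7, 8, 9, 28, 29, 33, 34] fun c => imp (cm3 g c) (inM 0x3fffffe000000 c))
        (or (lp [1, 2, 3, 4, 7, 8, 9, 28, 29, 33, 34] fun c => imp (cm3 g c) (inM 0x3ef7bdf084210 c))
          (lp [1, 2, 3, 4, 7, 8, 9, 28, 29, 33, 34] fun c => imp (cm3 g c) (inA2 c)))))) = true := by
  decide +kernel

theorem idx_le {G : Type*} [Group G] {Q Y : Subgroup G} (l : List G) (h : ∀ y ∈ Y, ∃ r ∈ l, r⁻¹ * y ∈ Q) :
    Q.relIndex Y ≤ l.length := by
  classical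
  choose f h1 h2 using h
  refine le_trans ?_ (List.toFinset_card_le l)
  rw [← Fintype.card_coe, ← Nat.card_eq_fintype_card]
  refine Nat.card_le_card_of_injective (fun x : Y ⧸ Q.subgroupOf Y =>
    (⟨f x.out x.out.2, List.mem_toFinset.2 (h1 _ _)⟩ : l.toFinset)) fun a b e => ?_
  have e' : f a.out a.out.2 = f b.out b.out.2 := congrArg Subtype.val e
  rw [← a.out_eq, ← b.out_eq]
  refine QuotientGroup.eq.2 ?_
  have := mul_mem (inv_mem (h2 _ a.out.2)) (h2 _ b.out.2)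
  rw [e'] at this
  simpa [mem_subgroupOf, mul_assoc] using this

variable {Y : Subgroup Mo}

theorem exists_out (h1 : Q0 ≤ Y) (h2 : Y ≤ Tz) (l : List Mo) (h : l.length < Q0.relIndex Y) :
    ∃ b ∈ Y, b ∈ B1 ∧ b ∉ l := by
  by_contra k
  push Not at k
  refine (idx_le l fun y hy => ?_).not_gt h
  obtain ⟨b, hb, r, hr, rfl⟩ := split (Tz_T0 (h2 hy))
  exact ⟨b, k b (by simpa using mul_mem hy (inv_mem (h1 hr))) hb, by simpa using hr⟩

theorem sq2_of (sq : ∀ y ∈ Y, y * y ∈ Q0) {a b : Mo} (ha : a ∈ Y) (hb : b ∈ Y) (h : Cd a c) (h' : Cd b d) :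
    sq2 c d = true := by
  rw [sq2, frc_eq]
  exact ((h.mul h').mul (h.mul h')).mem_Q0.1 (sq _ (mul_mem ha hb))

theorem pr8_spec {a b c : Mo} {x y z : ℕ} (ha : Cd a x) (hb : Cd b y) (hc : Cd c z) {f : List ℕ → Bool}
    (h : pr8 x y z f = true) : ∃ l, f l = true ∧
      List.Forall₂ Cd [1, a, b, a * b, c, a * c, b * c, a * b * c] l := by
  simp only [pr8, frc_eq] at h
  exact ⟨_, h, .cons cd_one (.cons ha (.cons hb (.cons (ha.mul hb) (.cons hc (.cons (ha.mul hc)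
    (.cons (hb.mul hc) (.cons ((ha.mul hb).mul hc) .nil)))))))⟩

theorem of_forall₂ {L : List Mo} {l : List ℕ} (h : List.Forall₂ Cd L l) :
    (∀ c ∈ l, ∃ m ∈ L, Cd m c) ∧ ∀ m ∈ L, ∃ c ∈ l, Cd m c := by
  induction h with
  | nil => simp
  | cons h _ ih =>
    simp only [List.mem_cons, forall_eq_or_imp, exists_eq_or_imp]
    exact ⟨⟨Or.inl h, fun c hc => Or.inr (ih.1 c hc)⟩, Or.inl h, fun c hc => Or.inr (ih.2 c hc)⟩

theorem exists_e8 (h1 : Q0 ≤ Y) (h2 : Y ≤ Tz) (sq : ∀ y ∈ Y, y * y ∈ Q0) (h8 : 8 ≤ Q0.relIndex Y) :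
    ∃ g ∈ L8, ∃ a ∈ Y, ∃ b ∈ Y, ∃ c ∈ Y, Cd a g.1 ∧ Cd b g.2.1 ∧ Cd c g.2.2 := by
  obtain ⟨a, ha, a1, a2⟩ := exists_out h1 h2 [1] (by simp; omega)
  obtain ⟨b, hb, b1, b2⟩ := exists_out h1 h2 [1, a] (by simp; omega)
  obtain ⟨c, hc, c1, c2⟩ := exists_out h1 h2 [1, a, b, a * b] (by simp; omega)
  simp only [List.mem_cons, List.not_mem_nil, or_false, not_or] at a2 b2 c2
  obtain ⟨x, hx⟩ := exists_cd a
  obtain ⟨y, hy⟩ := exists_cd b
  obtain ⟨z, hz⟩ := exists_cd c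
  have t := tab8
  simp only [aL_iff, imp_iff, Bool.and_eq_true, Bool.not_eq_true', ← Bool.not_eq_true, Bool.or_eq_true,
    Nat.beq_eq, not_or] at t
  obtain ⟨l, h3, h4⟩ := pr8_spec hx hy hz (t x (mem_inv hx a1 (h2 ha) (sq a ha) a2)
    y (mem_inv hy b1 (h2 hb) (sq b hb) b2.1) ⟨(hy.eq_iff hx).not.1 b2.2, sq2_of sq ha hb hx hy⟩
    z (mem_inv hz c1 (h2 hc) (sq c hc) c2.1) ⟨⟨(hz.eq_iff hx).not.1 c2.2.1, (hz.eq_iff hy).not.1 c2.2.2.1,
      (hz.eq_iff (hx.mul hy)).not.1 c2.2.2.2⟩, sq2_of sq ha hc hx hz, sq2_of sq hb hc hy hz⟩)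
  simp only [eL_iff, Bool.and_eq_true, mL_iff] at h3
  obtain ⟨g, hg, g1, g2, g3⟩ := h3
  have k : ∀ u ∈ l, ∃ m ∈ Y, Cd m u := fun u hu => by
    obtain ⟨m, h5, h6⟩ := (of_forall₂ h4).1 u hu
    refine ⟨m, ?_, h6⟩
    simp only [List.mem_cons, List.not_mem_nil, or_false] at h5
    rcases h5 with rfl | rfl | rfl | rfl | rfl | rfl | rfl | rfl
    exacts [one_mem _, ha, hb, mul_mem ha hb, hc, mul_mem ha hc, mul_mem hb hc, mul_mem (mul_mem ha hb) hc]
  obtain ⟨a', k1, k2⟩ := k _ g1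
  obtain ⟨b', k3, k4⟩ := k _ g2
  obtain ⟨c', k5, k6⟩ := k _ g3
  exact ⟨g, hg, a', k1, b', k3, c', k5, k2, k4, k6⟩

theorem comm_of {A : Subgroup Mo} (h : ∀ a ∈ A, a * a = 1) {a b : Mo} (ha : a ∈ A) (hb : b ∈ A) :
    a * b = b * a := by
  rw [← inv_eq_of_mul_eq_one_right (h _ (mul_mem hb ha)), mul_inv_rev, inv_eq_of_mul_eq_one_right (h a ha),
    inv_eq_of_mul_eq_one_right (h b hb)]

end F1

open F1

theorem f1a {y : Mo} (h : y ∈ Tz) (h' : y ∉ Q0) (sq : y * y ∈ Q0) : (cS Q0 z0 {y}).ncard = 512 := by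
  obtain ⟨b, hb, r, hr, rfl⟩ := split (Tz_T0 h)
  obtain ⟨c, hc⟩ := exists_cd b
  rw [cS_mul hr (T0_H0 (B1_T0 hb))]
  exact ncard_of hc (tabJ c (mem_inv hc hb (by simpa using mul_mem h (inv_mem (Q0_Tz hr))) (sq_of hb hr sq)
    fun e => h' (by rwa [e, one_mul]))) tabA

theorem f1b {y : Mo} (h : y ∈ T0) (h' : y ∉ Tz) (sq : y * y ∈ Q0) : (cS Q0 z0 {y}).ncard = 128 := by
  obtain ⟨b, hb, r, hr, rfl⟩ := split h
  obtain ⟨c, hc⟩ := exists_cd b
  rw [cS_mul hr (T0_H0 (B1_T0 hb))]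
  have := (imp_iff _ _).1 (lp_B1 hc hb tabI) ((hc.mul hc).mem_Q0.1 (sq_of hb hr sq))
  rw [Bool.eq_false_iff.2 fun e => h' (mul_mem (hc.mem_Tz.2 e) (Q0_Tz hr)), cond_false] at this
  exact ncard_of hc this tabB

theorem f1c {Y : Subgroup Mo} (h1 : Q0 ≤ Y) (h2 : Y ≤ Tz) (sq : ∀ y ∈ Y, y * y ∈ Q0) (h8 : 8 ≤ Q0.relIndex Y) :
    (cS Q0 z0 Y).ncard ≤ 128 ∧ ((cS Q0 z0 Y).ncard = 128 → ∀ a ∈ cS Q0 z0 Y, ∀ b ∈ cS Q0 z0 Y, a * b = b * a) := by
  obtain ⟨g, hg, a, ha, b, hb, c, hc, ca, cb, cc⟩ := exists_e8 h1 h2 sq h8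
  obtain ⟨t1, t2⟩ := tabC g hg
  have k : ∀ q ∈ cS Q0 z0 Y, q ∈ K1 ∧ ∀ u, Cd q u → cm3 g u = true := fun q hq => by
    have k1 : ∀ u, Cd q u → cm g.1 u = true := fun u hu => (cm_iff hu ca).1 (hq.2 a ha)
    obtain ⟨u, hu⟩ := exists_cd q
    refine ⟨(hu.mem_iff (by decide +kernel)).2 ((imp_iff _ _).1 (hu.lp_Q0 hq.1 (tabK _ t1)) (k1 u hu)),
      fun u hu => ?_⟩
    rw [cm3, k1 u hu, (cm_iff hu cb).1 (hq.2 b hb), (cm_iff hu cc).1 (hq.2 c hc)]
    rfl
  have k2 : (cS Q0 z0 Y).ncard ≤ ct [1, 2, 3, 4, 7, 8, 9, 28, 29, 33, 34] (cm3 g) :=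
    ncard_le (by decide +kernel) k
  have k3 : ∀ {f : ℕ → Bool} {A : Subgroup Mo}, (∀ a ∈ A, a * a = 1) → (∀ {m u}, Cd m u → f u = true → m ∈ A) →
      lp [1, 2, 3, 4, 7, 8, 9, 28, 29, 33, 34] (fun c => imp (cm3 g c) (f c)) = true →
      ∀ a ∈ cS Q0 z0 Y, ∀ b ∈ cS Q0 z0 Y, a * b = b * a := fun {f A} h3 h4 h5 => by
    have k4 : ∀ q ∈ cS Q0 z0 Y, q ∈ A := fun q hq => by
      obtain ⟨u, hu⟩ := exists_cd q
      exact h4 hu ((imp_iff _ _).1 (hu.loop (k q hq).1 (by decide +kernel) h5) ((k q hq).2 u hu))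
    exact fun a ha b hb => comm_of h3 (k4 a ha) (k4 b hb)
  simp only [frc_eq, Bool.or_eq_true, Bool.and_eq_true, Nat.beq_eq] at t2
  rcases t2 with e | ⟨e, t | t | t⟩
  · exact ⟨by omega, fun _ => by omega⟩
  · exact ⟨e ▸ k2, fun _ => k3 A0_sq (fun h => h.mem_A0.2) t⟩
  · exact ⟨e ▸ k2, fun _ => k3 A1_sq (fun h => h.mem_A1.2) t⟩
  · exact ⟨e ▸ k2, fun _ => k3 A2_sq (fun h => h.mem_A2.2) t⟩

theorem f1d {Y : Subgroup Mo} (h1 : Q0 ≤ Y) (h2 : Y ≤ Tz) (sq : ∀ y ∈ Y, y * y ∈ Q0) :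
    Q0.relIndex Y ≤ 16 ∧ (Q0.relIndex Y = 16 → Y = S16) := by
  by_cases h8 : Q0.relIndex Y ≤ 8
  · exact ⟨by omega, fun _ => by omega⟩
  obtain ⟨g, hg, a, ha, b, hb, c, hc, ca, cb, cc⟩ := exists_e8 h1 h2 sq (by omega)
  have k : ∀ d ∈ Y, d ∈ B1 → d ∉ [1, a, b, a * b, c, a * c, b * c, a * b * c] →
      ∀ x ∈ d :: [1, a, b, a * b, c, a * c, b * c, a * b * c], x ∈ S16 := fun d hd d1 d2 x hx => by
    obtain ⟨u, hu⟩ := exists_cd d
    have t := tab16
    simp only [aL_iff, imp_iff, Bool.and_eq_true] at t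
    obtain ⟨l, h3, h4⟩ := pr8_spec ca cb cc (t g hg u (mem_inv hu d1 (h2 hd) (sq d hd) fun e => d2 (by simp [e]))
      ⟨sq2_of sq ha hd ca hu, sq2_of sq hb hd cb hu, sq2_of sq hc hd cc hu⟩)
    rw [Bool.or_eq_true, mL_iff, aL_iff] at h3
    rcases h3 with h3 | h3
    · obtain ⟨m, h5, h6⟩ := (of_forall₂ h4).1 u h3
      exact absurd ((h6.eq_iff hu).2 rfl ▸ h5) d2
    · obtain ⟨v, h5, h6⟩ := (of_forall₂ (.cons hu h4)).2 x hx
      exact h6.mem_S16.2 (h3 v h5)
  obtain ⟨d, hd, d1, d2⟩ := exists_out h1 h2 [1, a, b, a * b, c, a * c, b * c, a * b * c] (by simp; omega)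
  have le : Y ≤ S16 := fun y hy => by
    obtain ⟨x, hx, r, hr, rfl⟩ := split (Tz_T0 (h2 hy))
    refine mul_mem ?_ (Q0_S16 hr)
    by_cases e : x ∈ [1, a, b, a * b, c, a * c, b * c, a * b * c]
    · exact k d hd d1 d2 x (List.mem_cons_of_mem _ e)
    · exact k x (by simpa using mul_mem hy (inv_mem (h1 hr))) hx e x List.mem_cons_self
  have c1 := card_mul_relIndex' h1
  have c2 := card_le_of_le le
  rw [card_Q0] at c1
  rw [card_S16] at c2
  exact ⟨by omega, fun e => eq_of_le_of_card_ge le (by rw [card_S16]; omega)⟩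

theorem f1e : cS Q0 z0 S16 = Z3 := by
  ext q
  obtain ⟨u, hu⟩ := exists_cd q
  refine ⟨fun hq => ?_, fun hq => ⟨Z3_Q0 hq, fun y hy => ?_⟩⟩
  · have t : lp [1, 2, 3, 4, 7, 8, 9, 27, 28, 29, 32, 33, 34] (fun c => imp (cm (tC 2 3) c) (imp (cm (tC 2 4) c)
        (imp (cm (eC 2 3) c) (imp (cm (eC 2 4) c) (inM 0x3ffffff8c6318 c))))) = true := by
      decide +kernel
    have := hu.lp_Q0 hq.1 t
    simp only [imp_iff] at this
    exact hu.mem_Z3.2 (this ((cm_iff hu (cd_t (i := 2) (j := 3) (by decide))).1 (hq.2 _ (show L5R.t 2 3 ∈ S16 by decide +kernel)))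
      ((cm_iff hu (cd_t (i := 2) (j := 4) (by decide))).1 (hq.2 _ (show L5R.t 2 4 ∈ S16 by decide +kernel)))
      ((cm_iff hu (cd_e (i := 2) (j := 3) (by decide))).1 (hq.2 _ (show L5R.e 2 3 ∈ S16 by decide +kernel)))
      ((cm_iff hu (cd_e (i := 2) (j := 4) (by decide))).1 (hq.2 _ (show L5R.e 2 4 ∈ S16 by decide +kernel))))
  · obtain ⟨b, hb, r, hr, rfl⟩ := split (Tz_T0 (S16_Tz hy))
    obtain ⟨v, hv⟩ := exists_cd b
    have t : lp [1, 2, 7] (fun c => lp [13, 14, 19, 26, 38, 39, 44] fun b =>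
        imp (inM 0x3ff38c78c0000 b) (cm b c)) = true := by
      decide +kernel
    exact cs_mul (Z3_Q0 hq) hr (mem_H0.1 (T0_H0 (B1_T0 hb))) ((cm_iff hu hv).2 ((imp_iff _ _).1
      (lp_B1 hv hb (hu.lp_Z3 hq t)) (hv.mem_S16.1 (by simpa using mul_mem hy (inv_mem (Q0_S16 hr))))))

end CfsgLib.L5R
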