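import Mathlib
import Cfsg.Agent.Lib.L5R.Defs2
import Cfsg.Agent.Lib.He.Main
import Cfsg.Agent.Lib.PF.Wielandt

/-!
# the Held group has no faithful module of order `2^11` (plans/L5R.md)
-/

set_option autoImplicit false
set_option maxHeartbeats 400000
set_option Elab.async false

namespace CfsgLib.L5R

open Subgroup Cfsg CfsgLib.Tech CfsgLib.Held CfsgLib.MOrb CfsgLib.L72 CfsgLib.LargeExtra CfsgLib.ExtraTwo

namespace He7

open CfsgLib.PF CfsgLib.CosetEnum

/-- a Frobenius group `5² : 3` acting on a group of order `2^11` -/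
theorem frob {T V : Type*} [Group T] [Finite T] [Group V] [Finite V] (hc : Nat.card V = 2 ^ 11) (φ : T →* MulAut V)
    {x t : T} (x5 : x ^ 5 = 1) (t3 : t ^ 3 = 1) (t1 : t ≠ 1) (c : x * (t * x * t⁻¹) = t * x * t⁻¹ * x)
    (n : (x * t) ^ 3 = 1) : φ x = 1 := by
  have := Fact.mk Nat.prime_two
  have := Fact.mk Nat.prime_three
  have := Fact.mk Nat.prime_five
  have ot := orderOf_eq_prime t3 t1
  have nx : x * (t * x * t⁻¹) * (t * (t * x * t⁻¹) * t⁻¹) = 1 :=
    calc _ = (x * t) ^ 3 * (t ^ 3)⁻¹ := by simp only [pow_succ]; group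
      _ = 1 := by rw [n, t3]; simp
  set U := closure {x, t * x * t⁻¹}
  set E := zpowers t
  have xU : x ∈ U := subset_closure (by simp)
  have yU : t * x * t⁻¹ ∈ U := subset_closure (by simp)
  have cm : ∀ {a b}, a ∈ U → b ∈ U → Commute a b := fun ha hb =>
    have := isMulCommutative_closure (k := {x, t * x * t⁻¹}) (by
      rintro _ (rfl | rfl) _ (rfl | rfl)
      exacts [rfl, c, c.symm, rfl])
    setLike_mul_comm ha hb
  have tU : ∀ {u}, u ∈ U → t * u * t⁻¹ ∈ U := fun hu => by
    induction hu using closure_induction with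
    | mem a ha =>
      rcases ha with rfl | rfl
      · exact yU
      · rw [eq_inv_of_mul_eq_one_right nx]; exact inv_mem (mul_mem xU yU)
    | one => simp
    | mul a b _ _ ha hb => simpa [mul_assoc] using mul_mem ha hb
    | inv a _ ha => simpa [mul_assoc] using inv_mem ha
  have u5 : ∀ u ∈ U, u ^ 5 = 1 := fun u hu => by
    induction hu using closure_induction with
    | mem a ha =>
      rcases ha with rfl | rfl
      · exact x5
      · rw [conj_pow, x5]; simp
    | one => simp
    | mul a b ha hb ha' hb' => rw [(cm ha hb).mul_pow, ha', hb', one_mul]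
    | inv a _ ha => rw [inv_pow, ha, inv_one]
  have nm : ∀ u ∈ U, u * (t * u * t⁻¹) * (t * (t * u * t⁻¹) * t⁻¹) = 1 := fun u hu => by
    induction hu using closure_induction with
    | mem a ha =>
      rcases ha with rfl | rfl
      · exact nx
      · rw [conj_mul, conj_mul, nx]; simp
    | one => simp
    | mul a b ha hb ha' hb' =>
      rw [← conj_mul, ← conj_mul, (cm hb (tU ha)).mul_mul_mul_comm,
        (cm (mul_mem hb (tU hb)) (tU (tU ha))).mul_mul_mul_comm, ha', hb', one_mul]
    | inv a ha ha' =>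
      rw [← conj_inv, ← conj_inv, ← mul_inv_rev, ← mul_inv_rev, (cm (tU ha) ha).eq,
        (cm (tU (tU ha)) (mul_mem ha (tU ha))).eq, ha', inv_one]
  have pU : IsPGroup 5 U := isPGroup_iff_mem.2 fun u hu => ⟨1, u5 u hu⟩
  obtain ⟨k, hk⟩ := pU.exists_card_eq
  have cE : Nat.card (E.subgroupOf (U ⊔ E)) = 3 := by
    rw [Nat.card_congr (subgroupOfEquivOfLe le_sup_right).toEquiv, Nat.card_zpowers, ot]
  have cU : Nat.card (U.subgroupOf (U ⊔ E)) = 5 ^ k :=
    (Nat.card_congr (subgroupOfEquivOfLe le_sup_left).toEquiv).trans hk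
  have hN : (U.subgroupOf (U ⊔ E)).Normal := normal_subgroupOf_of_le_normalizer (sup_le le_normalizer
    (zpowers_le.2 (mem_normalizer_of_forall fun a ha => tU ha)))
  have hbot : U.subgroupOf (U ⊔ E) ⊓ E.subgroupOf (U ⊔ E) = ⊥ :=
    disjoint_iff.1 (disjoint_of_coprime_natCard (by rw [cU, cE]; exact Nat.Coprime.pow_left _ (by norm_num)))
  have htop : U.subgroupOf (U ⊔ E) ⊔ E.subgroupOf (U ⊔ E) = ⊤ := by
    rw [← subgroupOf_sup le_sup_left le_sup_right, subgroupOf_self]
  have := (IsPGroup.of_card hc).isNilpotent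
  have hw := wielandt_frobenius_action _ _ hbot htop (fun e he e1 a ha h => Subtype.ext (by
      have h1 : E ≤ centralizer {(a : T)} := by
        have : zpowers (e : T) = E := eq_of_le_of_card_ge (zpowers_le.2 he) (by
          have h3 : orderOf (e : T) ∣ 3 := ot ▸ orderOf_dvd_of_mem_zpowers he
          rw [Nat.card_zpowers, Nat.card_zpowers, ot, orderOf_eq_prime (orderOf_dvd_iff_pow_eq_one.1 h3)
            fun h => e1 (Subtype.ext h)])
        exact this.ge.trans (zpowers_le.2 (mem_centralizer_singleton_iff.2 (congrArg Subtype.val h)))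
      have h2 : t * a * t⁻¹ = a := mul_inv_eq_iff_eq_mul.2 (mem_centralizer_singleton_iff.1 (h1 (mem_zpowers t)))
      have h3 := nm a ha
      rw [h2, h2] at h3
      calc (a : T) = (a * a * a) ^ 2 * ((a : T) ^ 5)⁻¹ := by simp only [pow_succ]; group
        _ = 1 := by rw [h3, u5 a ha]; simp)) (φ.comp (U ⊔ E).subtype) inferInstance (by
    rw [hc, ← (isComplement'_of_disjoint_and_mul_eq_univ (disjoint_iff.mpr hbot)
      (by rw [← normal_mul, htop]; rfl)).card_mul_card, cE, cU]
    exact Nat.Coprime.pow_left _ (Nat.Coprime.mul_right (Nat.Coprime.pow_right _ (by norm_num)) (by norm_num)))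
  have pw : ∀ B : Subgroup V, ∃ j ≤ 11, Nat.card B = 2 ^ j := fun B =>
    (Nat.dvd_prime_pow Nat.prime_two).1 (hc ▸ card_subgroup_dvd_card B)
  obtain ⟨a, -, ha⟩ := pw (actFix (φ.comp (U ⊔ E).subtype) ⊤)
  obtain ⟨b, -, hb⟩ := pw (actFix (φ.comp (U ⊔ E).subtype) (E.subgroupOf _))
  obtain ⟨d, d1, hd⟩ := pw (actFix (φ.comp (U ⊔ E).subtype) (U.subgroupOf _))
  rw [ha, hb, hd, hc, cE, ← pow_mul, ← pow_mul, ← pow_add, ← pow_add, Nat.pow_right_inj (by norm_num)] at hw
  let _ : MulAction U V := MulAction.compHom V (φ.comp U.subtype)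
  have hm := pU.card_modEq_card_fixedPoints V
  rw [hc, show Nat.card (MulAction.fixedPoints U V) = 2 ^ d from hd ▸ Nat.card_congr (Equiv.subtypeEquivRight fun v =>
    ⟨fun h a ha => h ⟨a, ha⟩, fun h a => h ⟨a, mem_sup_left a.2⟩ a.2⟩)] at hm
  obtain rfl : d = 11 := by
    have : d % 3 = 2 := by omega
    revert hm this
    interval_cases d <;> decide
  ext v
  have : v ∈ actFix (φ.comp (U ⊔ E).subtype) (U.subgroupOf _) := by
    rw [eq_top_of_card_eq _ (hd.trans hc.symm)]; trivial
  exact this ⟨x, mem_sup_left xU⟩ xU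

/-- an element of order 5 -/
def X : List ℕ := [6, 12, 4, 6, 10, 12, 6, 2, 4, 6, 10, 4, 2, 4, 8, 6, 2, 4, 10, 6, 4, 2, 6, 12, 10, 6, 4, 12, 6]
/-- an element of order 3 -/
def Tw : List ℕ := [2, 4]

theorem one_of {w : List ℕ} (h : allL (fixesP He.M0_nets w) (He.chain.map Lev.p) = true) : ev He.g w = 1 :=
  He.base _ fun p hp => He.S.fixesP_sound (allL_sound h p hp)

theorem X5 : ev He.g X ^ 5 = 1 := by
  simpa only [ev_append, pow_succ, pow_zero, one_mul] using one_of (w := X ++ X ++ X ++ X ++ X) (by decide +kernel)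

theorem T3 : ev He.g Tw ^ 3 = 1 := by
  simpa only [ev_append, pow_succ, pow_zero, one_mul] using one_of (w := Tw ++ Tw ++ Tw) (by decide +kernel)

theorem XT3 : (ev He.g X * ev He.g Tw) ^ 3 = 1 := by
  simpa only [ev_append, pow_succ, pow_zero, one_mul] using
    one_of (w := X ++ Tw ++ (X ++ Tw) ++ (X ++ Tw)) (by decide +kernel)

theorem XT : ev He.g X * (ev He.g Tw * ev He.g X * (ev He.g Tw)⁻¹) =
    ev He.g Tw * ev He.g X * (ev He.g Tw)⁻¹ * ev He.g X := by
  have := one_of (w := X ++ (Tw ++ X ++ pushI 0 Tw []) ++ pushI 0 (Tw ++ X ++ pushI 0 Tw [] ++ X) []) (by decide +kernel)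
  simpa only [ev_append, ev_pushI (invOk_zero He.g), ev_nil, mul_one, mul_inv_eq_one] using this

theorem X_ne : ev He.g X ≠ 1 := fun h =>
  He.S.fixesP_false (w := X) (p := 0) (by decide +kernel) (by rw [h]; simp)

theorem T_ne : ev He.g Tw ≠ 1 := fun h =>
  He.S.fixesP_false (w := Tw) (p := 0) (by decide +kernel) (by rw [h]; simp)

end He7

theorem he_not {V : Type*} [Group V] [Finite V] (sq : ∀ v : V, v * v = 1) (hc : Nat.card V = 2 ^ 11)
    (f : Spor.He →* MulAut V) (hf : Function.Injective f) : False :=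
  have _ := sq
  He7.X_ne (hf ((He7.frob hc f He7.X5 He7.T3 He7.T_ne He7.XT He7.XT3).trans (map_one f).symm))


end CfsgLib.L5R
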