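import Mathlib
import Cfsg.Agent.Lib.L5R.Bas1
import Cfsg.Agent.Lib.CR.Hecke
import Cfsg.Agent.Lib.ClSys.SL

/-!
# weight vectors (plans/L5R.md)
-/

set_option autoImplicit false
set_option maxHeartbeats 400000
set_option Elab.async false
set_option linter.unusedSectionVars false

namespace CfsgLib.L5R

open Subgroup Cfsg CfsgLib.Tech CfsgLib.Held CfsgLib.MOrb CfsgLib.L72 CfsgLib.LargeExtra CfsgLib.ExtraTwo

namespace ModA

open CfsgLib.ClSys

theorem gl_x (r : OffD 5) : ClAut.slGL (Fin 5) (ZMod 2) ((slSys 5 (ZMod 2)).x r 1) = E r.1.1 r.1.2 :=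
  Units.ext (eM_eq r.2).symm

theorem gl_n (r : OffD 5) : ClAut.slGL (Fin 5) (ZMod 2) ((slSys 5 (ZMod 2)).n r 1) = sw r.1.1 r.1.2 := by
  rw [RGD.StSys.n, map_mul, map_mul, show (-(1 : ZMod 2)⁻¹) = 1 by rw [inv_one]; rfl, gl_x, gl_x]
  rfl

theorem gl_U {u : Matrix.SpecialLinearGroup (Fin 5) (ZMod 2)} :
    u ∈ (slSys 5 (ZMod 2)).U ↔ ClAut.slGL (Fin 5) (ZMod 2) u ∈ U5 := by
  rw [mem_slSys_U]
  refine ⟨fun h i j k => ?_, fun h => ⟨fun i j k => ?_, fun i => ?_⟩⟩
  · rcases (show j ≤ i by simpa [pT] using k).lt_or_eq with l | rfl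
    · exact (h.1 i j l).trans (Matrix.one_apply_ne l.ne').symm
    · exact (h.2 j).trans (Matrix.one_apply_eq j).symm
  · exact (h i j (by simpa [pT] using k.le)).trans (Matrix.one_apply_ne k.ne')
  · exact (h i i (by simp [pT])).trans (Matrix.one_apply_eq i)

theorem braid (i : Fin 4) : (sw i.castSucc i.succ : GN 5) =
    E i.succ i.castSucc * E i.castSucc i.succ * E i.succ i.castSucc := by
  have h : i.castSucc ≠ i.succ := i.castSucc_lt_succ.ne
  exact congrArg Mo.g (((cd_n h).eq_iff (cd_n h.symm)).2 (by clear h; revert i; decide +kernel))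

theorem wE (i j : Fin 5) : E i j * (sw 0 4 * sw 1 3) = sw 0 4 * sw 1 3 * (E i.rev j.rev : GN 5) := by
  by_cases h : i = j
  · rw [h, E_self, E_self, one_mul, mul_one]
  have c := (cd_n (i := 0) (j := 4) (by decide)).mul (cd_n (i := 1) (j := 3) (by decide))
  exact congrArg Mo.g ((((cd_e h).mul c).eq_iff (c.mul (cd_e (Fin.rev_injective.ne h)))).2
    (by clear c; revert i j; decide +kernel))

theorem wmul {G : Type*} [Group G] {a b a' b' w : G} (h : a * w = w * a') (k : b * w = w * b') :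
    a * b * w = w * (a' * b') := by rw [mul_assoc, k, ← mul_assoc, h, mul_assoc]

theorem wS (i j : Fin 5) : sw i j * (sw 0 4 * sw 1 3) = sw 0 4 * sw 1 3 * (sw i.rev j.rev : GN 5) :=
  wmul (wmul (wE i j) (wE j i)) (wE i j)

theorem E_U5 : ∀ i j : Fin 5, i < j → E i j ∈ U5 := by
  unfold U5
  decide +kernel

theorem aux {V : Type*} [CommGroup V] [Finite V] [Nontrivial V] (sq : ∀ v : V, v * v = 1) (ρ : GN 5 →* MulAut V) :
    ∃ v, Wt ρ v := by
  classical
  let : Module (ZMod 2) (Additive V) := AddCommGroup.zmodModule fun x => (two_nsmul x).trans (sq x.toMul)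
  let σ : Representation (ZMod 2) (Matrix.SpecialLinearGroup (Fin 5) (ZMod 2)) (Additive V) :=
    { toFun := fun g => (MonoidHom.toAdditive (ρ (ClAut.slGL (Fin 5) (ZMod 2) g)).toMonoidHom).toZModLinearMap 2
      map_one' := LinearMap.ext fun v => by simp
      map_mul' := fun a b => LinearMap.ext fun v => by simp }
  have hσ : ∀ g v, σ g v = Additive.ofMul (ρ (ClAut.slGL (Fin 5) (ZMod 2) g) v.toMul) := fun _ _ => rfl
  obtain ⟨v, hv, v1⟩ : ∃ v : V, (∀ u ∈ U5, ρ u v = v) ∧ v ≠ 1 := by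
    let := MulAction.compHom V (ρ.comp U5.subtype)
    obtain ⟨x, hx⟩ := exists_ne (1 : V)
    obtain ⟨v, h1, h2⟩ := syl_U5.pgroup.exists_fixed_point_of_prime_dvd_card_of_fixed_point V
      (orderOf_eq_prime (p := 2) ((pow_two x).trans (sq x)) hx ▸ orderOf_dvd_natCard x) (a := 1)
      fun u => map_one (ρ u)
    exact ⟨v, fun u hu => h1 ⟨u, hu⟩, h2.symm⟩
  have hB : CR.IsB (slSys 5 (ZMod 2)) σ (Additive.ofMul v) := by
    refine ⟨fun u hu => congrArg Additive.ofMul (hv _ (gl_U.1 hu)), fun a ha => ⟨1, ?_⟩⟩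
    have : (slSys 5 (ZMod 2)).H ≤ ⊥ := (closure_le _).2 (by
      rintro _ ⟨r, c, hc, rfl⟩
      rw [(by decide : ∀ c : ZMod 2, c ≠ 0 → c = 1) c hc]
      exact RGD.StSys.h_one _ r)
    rw [mem_bot.1 (this ha), map_one, one_smul]
    rfl
  let := Fintype.ofFinite (Matrix.SpecialLinearGroup (Fin 5) (ZMod 2))
  obtain ⟨ω, m, m0, hm⟩ := hB.exists_isWt slSys_nondeg slSys_r3 (by decide) v1
  have fx : ∀ u ∈ U5, ρ u m.toMul = m.toMul := fun u hu => by
    have := hm.fix (toSL 5 u) (gl_U.2 (by rwa [slGL_toSL]))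
    rw [hσ, slGL_toSL] at this
    exact congrArg Additive.toMul this
  refine ⟨m.toMul, m0, fx, fun i => ?_⟩
  have k := hm.hecke i
  rw [CR.T_apply, show (Finset.univ : Finset (ZMod 2)) = {0, 1} from rfl, Finset.sum_pair (by decide),
    RGD.StSys.x_zero, one_mul, hσ, hσ, map_mul, gl_x, gl_n] at k
  replace k : ρ (sw i.castSucc i.succ) m.toMul * ρ (E i.castSucc i.succ * sw i.castSucc i.succ) m.toMul =
    (CR.cc (ω i) • m).toMul := congrArg Additive.toMul k
  cases hω : ω i with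
  | none =>
    right
    rw [mul_assoc, k, hω]
    change m.toMul * ((-1 : ZMod 2) • m).toMul = 1
    rw [neg_one_smul, toMul_neg, mul_inv_cancel]
  | some ψ =>
    left
    rw [hω] at k
    change _ = ((0 : ZMod 2) • m).toMul at k
    rw [zero_smul, toMul_zero, ← sq (ρ (sw i.castSucc i.succ) m.toMul), mul_right_inj] at k
    have a1 := fx (E i.castSucc i.succ) (E_U5 _ _ i.castSucc_lt_succ)
    have e1 : ∀ a b : GN 5, ρ (a * b) m.toMul = ρ a (ρ b m.toMul) := fun a b => by rw [map_mul]; rfl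
    have e2 : ∀ (a : GN 5) (x : V), a * a = 1 → ρ a (ρ a x) = x := fun a x h => by
      rw [← MulAut.mul_apply, ← map_mul, h, map_one, MulAut.one_apply]
    rw [e1, sw, e1, a1, e1, e2 _ _ (E_mul_self _ _)] at k
    rw [braid, e1, map_mul, MulAut.mul_apply, ← k, e2 _ _ (E_mul_self _ _)]

end ModA

variable {V : Type*} [Group V] [Finite V] {ρ : GN 5 →* MulAut V}

theorem exists_wt [Nontrivial V] (sq : ∀ v : V, v * v = 1) (ρ : GN 5 →* MulAut V) : ∃ v, Wt ρ v := by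
  let : CommGroup V := { (inferInstance : Group V) with
    mul_comm := fun a b => by
      rw [← inv_eq_of_mul_eq_one_right (sq (a * b)), mul_inv_rev, inv_eq_of_mul_eq_one_right (sq a),
        inv_eq_of_mul_eq_one_right (sq b)] }
  exact ModA.aux sq ρ

theorem Wt.tw {v : V} (h : Wt ρ v) : Wt (ρ.comp (io 5).toMonoidHom) (ρ (sw 0 4 * sw 1 3) v) ∧
    ∀ i : Fin 4, (ρ.comp (io 5).toMonoidHom) (sw i.castSucc i.succ) (ρ (sw 0 4 * sw 1 3) v) = ρ (sw 0 4 * sw 1 3) v ↔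
      ρ (sw i.rev.castSucc i.rev.succ) v = v := by
  have e1 : ∀ a b : GN 5, a * (sw 0 4 * sw 1 3) = sw 0 4 * sw 1 3 * b →
      ρ a (ρ (sw 0 4 * sw 1 3) v) = ρ (sw 0 4 * sw 1 3) (ρ b v) := fun a b k => by
    rw [← MulAut.mul_apply, ← map_mul, k, map_mul, MulAut.mul_apply]
  have e2 : ∀ i : Fin 4, (ρ.comp (io 5).toMonoidHom) (sw i.castSucc i.succ) (ρ (sw 0 4 * sw 1 3) v) =
      ρ (sw 0 4 * sw 1 3) (ρ (sw i.rev.castSucc i.rev.succ) v) := fun i => e1 _ _ (by
    rw [← Fin.rev_succ, ← Fin.rev_castSucc, ← ModA.wS]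
    simp only [sw, map_mul, MulEquiv.coe_toMonoidHom, io_E])
  have e3 : ∀ i : Fin 4, (ρ.comp (io 5).toMonoidHom) (E i.castSucc i.succ * sw i.castSucc i.succ)
      (ρ (sw 0 4 * sw 1 3) v) =
      ρ (sw 0 4 * sw 1 3) (ρ (E i.rev.castSucc i.rev.succ * sw i.rev.castSucc i.rev.succ) v) := fun i => e1 _ _ (by
    rw [← Fin.rev_succ, ← Fin.rev_castSucc, ← ModA.wmul (ModA.wE _ _) (ModA.wS _ _)]
    simp only [sw, map_mul, MulEquiv.coe_toMonoidHom, io_E])
  refine ⟨⟨fun k => h.ne ((map_eq_one_iff _ (MulEquiv.injective _)).1 k), fun u hu => ?_, fun i => ?_⟩, fun i => ?_⟩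
  · refine gen_upG (K := (MulAction.stabilizer (MulAut V) (ρ (sw 0 4 * sw 1 3) v)).comap (ρ.comp (io 5).toMonoidHom))
      (by decide) (fun i j hij _ => ?_) hu
    change ρ (io 5 (E i j)) _ = _
    rw [io_E, e1 _ _ (ModA.wE j i), h.fix _ (ModA.E_U5 _ _ (Fin.rev_lt_rev.2 hij))]
  · rw [e2, e3, ← map_mul, ← map_mul]
    exact (h.dich i.rev).imp (congrArg _) fun k => by rw [k, map_one]
  · rw [e2]
    exact (MulEquiv.injective _).eq_iff

end CfsgLib.L5R
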