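import Mathlib
import Cfsg.Agent.Lib.L5R.Bas1

/-!
# small modules are fundamental (plans/L5R.md)
-/

set_option autoImplicit false
set_option maxHeartbeats 400000
set_option Elab.async false

namespace CfsgLib.L5R

open Subgroup Cfsg CfsgLib.Tech CfsgLib.Held CfsgLib.MOrb CfsgLib.L72 CfsgLib.LargeExtra CfsgLib.ExtraTwo

variable {V : Type*} [Group V] [Finite V] {ρ : GN 5 →* MulAut V}

namespace ModB

open Equiv Bas1

/-- permutation matrices -/
def PM : Perm (Fin 5) →* GN 5 := (Matrix.permMatrixHom (n := Fin 5) (R := ZMod 2)).toHomUnits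

theorem PM_cj (σ : Perm (Fin 5)) (g : GN 5) (a b : Fin 5) : (PM σ * g * (PM σ)⁻¹).1 (σ a) (σ b) = g.1 a b := by
  rw [← map_inv]
  change ((σ⁻¹).toPEquiv.toMatrix * g.1 * (σ⁻¹⁻¹).toPEquiv.toMatrix : Mat) (σ a) (σ b) = _
  rw [PEquiv.toMatrix_toPEquiv_mul, PEquiv.mul_toMatrix_toPEquiv]
  simp

theorem PM_E (σ : Perm (Fin 5)) (i j : Fin 5) : PM σ * E i j * (PM σ)⁻¹ = E (σ i) (σ j) := by
  refine Units.ext (Matrix.ext fun a b => ?_)
  obtain ⟨a, rfl⟩ := σ.surjective a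
  obtain ⟨b, rfl⟩ := σ.surjective b
  rw [PM_cj]
  simp [coe_E, eM]

/-- the simple transpositions -/
abbrev sp (i : Fin 4) : Perm (Fin 5) := swap i.castSucc i.succ

theorem PM_sp (i : Fin 4) : PM (sp i) = sw i.castSucc i.succ := by
  refine Units.ext (Matrix.ext ?_)
  have : ∀ (i : Fin 4) (a b : Fin 5), (if sp i a = b then (1 : ZMod 2) else 0) =
      (eM i.castSucc i.succ * eM i.succ i.castSucc * eM i.castSucc i.succ : Mat) a b := by decide +kernel
  change ∀ a b, ((sp i)⁻¹).toPEquiv.toMatrix a b = _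
  simp only [PEquiv.toMatrix_apply, Equiv.toPEquiv_apply, Option.mem_def, Option.some.injEq, swap_inv]
  exact this i

/-- a length function -/
def wt (σ : Perm (Fin 5)) : ℕ := 4 * (σ 0).val + 3 * (σ 1).val + 2 * (σ 2).val + (σ 3).val

theorem ind {p : Perm (Fin 5) → Prop} (h1 : p 1)
    (h2 : ∀ σ (i : Fin 4), σ i.castSucc < σ i.succ → p σ → p (σ * sp i)) (σ : Perm (Fin 5)) : p σ := by
  have k : ∀ σ : Perm (Fin 5), σ = 1 ∨ ∃ i : Fin 4, (σ * sp i) i.castSucc < (σ * sp i) i.succ ∧ wt (σ * sp i) < wt σ := by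
    decide +kernel
  induction hn : wt σ using Nat.strong_induction_on generalizing σ with
  | _ n ih =>
    rcases k σ with rfl | ⟨i, h3, h4⟩
    · exact h1
    · have := h2 _ i h3 (ih _ (hn ▸ h4) _ rfl)
      rwa [mul_assoc, swap_mul_self, mul_one] at this

/-- lower unitriangular matrices -/
def Lo : Subgroup (GN 5) := patG fun i j => decide (i.val ≤ j.val)

theorem E_Lo {i j : Fin 5} (h : j < i) : E i j ∈ Lo := E_mem (decide_eq_false (not_le.2 h))

theorem E_U5 {i j : Fin 5} (h : i < j) : E i j ∈ U5 := E_mem (decide_eq_false (not_le.2 h))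

theorem one_cj (σ : Perm (Fin 5)) (a b : Fin 5) : (1 : Mat) a b = (1 : Mat) (σ a) (σ b) := by
  simp [Matrix.one_apply]

theorem two_Lo : IsPGroup 2 Lo := fun l => by
  have h : PM Fin.revPerm * l.1 * (PM Fin.revPerm)⁻¹ ∈ U5 := fun a b hab => by
    obtain ⟨a, rfl⟩ := (Fin.revPerm (n := 5)).surjective a
    obtain ⟨b, rfl⟩ := (Fin.revPerm (n := 5)).surjective b
    rw [PM_cj, ← one_cj]
    exact l.2 a b (by revert a b; decide)
  obtain ⟨k, hk⟩ := syl_U5.pgroup ⟨_, h⟩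
  refine ⟨k, Subtype.ext ?_⟩
  have := congrArg Subtype.val hk
  simpa only [SubmonoidClass.coe_pow, conj_pow, OneMemClass.coe_one, conj_eq_one_iff] using this

theorem cj_Lo {l : GN 5} (hl : l ∈ Lo) (i : Fin 4) (h : l.1 i.succ i.castSucc = 0) :
    PM (sp i) * l * (PM (sp i))⁻¹ ∈ Lo := fun a b hab => by
  obtain ⟨a, rfl⟩ := (sp i).surjective a
  obtain ⟨b, rfl⟩ := (sp i).surjective b
  rw [PM_cj, ← one_cj]
  by_cases e : a = i.succ ∧ b = i.castSucc
  · rw [e.1, e.2, h, Matrix.one_apply_ne (Fin.castSucc_lt_succ (i := i)).ne']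
  · exact hl a b (by clear h; revert a b i; decide)

theorem exists_inv (sq : ∀ v : V, v * v = 1) {v : V} (hv : v ≠ 1) (ρ : GN 5 →* MulAut V) :
    ∃ f : V →* ℂˣ, f ≠ 1 ∧ ∀ l ∈ Lo, ∀ x, f (ρ l x) = f x := by
  letI : CommGroup V := { ‹Group V› with
    mul_comm := fun a b => by
      rw [eq_inv_of_mul_eq_one_left (sq (a * b)), mul_inv_rev, ← eq_inv_of_mul_eq_one_left (sq a),
        ← eq_inv_of_mul_eq_one_left (sq b)] }
  letI : MulAction Lo (V →* ℂˣ) :=
    { smul := fun l f => f.comp (ρ l.1⁻¹).toMonoidHom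
      one_smul := fun f => MonoidHom.ext fun x => by
        change f (ρ (1 : GN 5)⁻¹ x) = f x
        simp
      mul_smul := fun a b f => MonoidHom.ext fun x => by
        change f (ρ (a.1 * b.1)⁻¹ x) = f (ρ b.1⁻¹ (ρ a.1⁻¹ x))
        simp }
  have hc : Nat.card (V →* ℂˣ) = Nat.card V := CommGroup.card_monoidHom_of_hasEnoughRootsOfUnity V ℂ
  haveI : Finite (V →* ℂˣ) := Nat.finite_of_card_ne_zero (hc ▸ Nat.card_pos.ne')
  obtain ⟨f, h1, h2⟩ := two_Lo.exists_fixed_point_of_prime_dvd_card_of_fixed_point (V →* ℂˣ)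
    (hc ▸ (W2.ord_two (sq v) hv) ▸ orderOf_dvd_natCard v) (a := 1) fun _ => rfl
  refine ⟨f, h2.symm, fun l hl x => ?_⟩
  have := DFunLike.congr_fun (h1 ⟨l⁻¹, inv_mem hl⟩) x
  change f (ρ l⁻¹⁻¹ x) = f x at this
  rwa [inv_inv] at this

variable {v : V}

omit [Finite V] in
theorem mul_ap (g h : GN 5) (x : V) : ρ (g * h) x = ρ g (ρ h x) := by rw [map_mul]; rfl

omit [Finite V] in
theorem claim (h : Wt ρ v) (sq : ∀ v : V, v * v = 1) {f : V →* ℂˣ} (hf : ∀ l ∈ Lo, ∀ x, f (ρ l x) = f x)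
    (σ : Perm (Fin 5)) : f (ρ (PM σ) v) = 1 ∨ (ρ (PM σ) v = v ∧
      ∀ j : Fin 4, ρ (sw j.castSucc j.succ) v ≠ v → ∀ a, a ≤ j.castSucc → σ a ≤ j.castSucc) := by
  induction σ using ind with
  | h1 => exact Or.inr ⟨by simp, fun _ _ _ ha => ha⟩
  | h2 σ i hi ih =>
    rw [map_mul, mul_ap, PM_sp]
    by_cases e : ρ (sw i.castSucc i.succ) v = v
    · rw [e]
      refine ih.imp_right fun ⟨h1, h2⟩ => ⟨h1, fun j hj a ha => h2 j hj _ ?_⟩
      have : j ≠ i := fun e' => hj (e' ▸ e)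
      clear hi h2 hj e
      revert a i j
      decide
    · left
      have h1 := congrArg (ρ (PM σ * PM (sp i))) ((h.dich i).resolve_left e)
      rw [map_mul, map_mul, map_one, ← PM_sp, ← mul_ap, ← mul_ap, mul_assoc (PM σ), ← map_mul PM (sp i), swap_mul_self,
        map_one, mul_one, show PM σ * PM (sp i) * (E i.castSucc i.succ * PM (sp i)) =
          PM (σ * sp i) * E i.castSucc i.succ * (PM (σ * sp i))⁻¹ * PM σ by
            rw [map_mul, mul_inv_rev, ← map_inv PM (sp i), swap_inv]; group, PM_E, mul_ap, mul_ap] at h1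
      have h2 := congrArg f h1
      rw [map_mul, map_mul, hf _ (E_Lo (by simpa using hi)), mul_assoc, ← map_mul f, sq, map_one, mul_one] at h2
      rwa [← PM_sp]

theorem bruhat (h : Wt ρ v) (g : GN 5) : ∃ l ∈ Lo, ∃ σ, ρ g v = ρ l (ρ (PM σ) v) := by
  let K : Subgroup (GN 5) := ofMul {g | ∀ l ∈ Lo, ∀ σ, ∃ l' ∈ Lo, ∃ σ', ρ g (ρ l (ρ (PM σ) v)) = ρ l' (ρ (PM σ') v)}
    (fun l hl σ => ⟨l, hl, σ, by simp⟩) fun a ha b hb l hl σ => by
      obtain ⟨l', h1, σ', e⟩ := hb l hl σ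
      rw [mul_ap, e]
      exact ha l' h1 σ'
  have h1 : Lo ≤ K := fun g hg l hl σ => ⟨g * l, mul_mem hg hl, σ, (mul_ap _ _ _).symm⟩
  have h2 : ∀ i, PM (sp i) ∈ K := fun i l hl σ => by
    have ne := (Fin.castSucc_lt_succ (i := i)).ne
    have fx : ∀ a b, σ⁻¹ a < σ⁻¹ b → ρ (E a b) (ρ (PM σ) v) = ρ (PM σ) v := fun a b hab => by
      have := PM_E σ (σ⁻¹ a) (σ⁻¹ b)
      rw [show σ (σ⁻¹ a) = a from σ.apply_symm_apply a, show σ (σ⁻¹ b) = b from σ.apply_symm_apply b] at this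
      rw [← this, ← mul_ap, inv_mul_cancel_right, mul_ap, h.fix _ (E_U5 hab)]
    have k : ∀ l x, ρ (PM (sp i)) (ρ l x) = ρ (PM (sp i) * l * (PM (sp i))⁻¹) (ρ (PM (sp i)) x) := fun l x => by
      rw [← mul_ap, ← mul_ap, inv_mul_cancel_right]
    by_cases e : l.1 i.succ i.castSucc = 0
    · exact ⟨_, cj_Lo hl i e, sp i * σ, by rw [k, map_mul PM, mul_ap (PM _) (PM _)]⟩
    · have h3 := cj_Lo (mul_mem hl (E_Lo (Fin.castSucc_lt_succ (i := i)))) i (by
        rw [mul_E_same _ ne.symm, eq_one_of_ne e, hl _ _ (by simp), Matrix.one_apply_eq]; rfl)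
      rw [show l = l * E i.succ i.castSucc * E i.succ i.castSucc by rw [mul_assoc, E_mul_self, mul_one], mul_ap, k]
      rcases lt_or_gt_of_ne ((σ⁻¹).injective.ne ne) with e' | e'
      · refine ⟨_, mul_mem h3 (E_Lo (Fin.castSucc_lt_succ (i := i))), σ, ?_⟩
        rw [mul_ap _ (E _ _), k, PM_E, swap_apply_left, swap_apply_right, ← mul_ap (E _ _), PM_sp, sw,
          ← mul_assoc (E i.castSucc i.succ) (_ * _), ← mul_assoc (E i.castSucc i.succ) (E _ _) (E _ _), E_mul_self,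
          one_mul, mul_ap (E _ _), fx _ _ e']
      · exact ⟨_, h3, sp i * σ, by rw [fx _ _ e', map_mul PM, mul_ap (PM _) (PM _)]⟩
  have h3 : ∀ σ, PM σ ∈ K := ind (by rw [map_one]; exact one_mem K) fun σ i _ ih => by
    rw [map_mul]; exact mul_mem ih (h2 i)
  have h4 : K = ⊤ := gen_GN K fun i j => by
    rcases lt_trichotomy i j with e | rfl | e
    · have := PM_E (swap i j) j i
      rw [swap_apply_left, swap_apply_right] at this
      exact this ▸ mul_mem (mul_mem (h3 _) (h1 (E_Lo e))) (inv_mem (h3 _))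
    · rw [E_self]; exact one_mem K
    · exact h1 (E_Lo e)
  simpa using h4.ge (mem_top g) 1 (one_mem _) 1

/-- twelve elements of a Frobenius group of order 20 -/
def pm (k : Fin 12) : Perm (Fin 5) :=
  (⟨![1, 2, 3, 4, 0], ![4, 0, 1, 2, 3], by decide, by decide⟩ : Perm (Fin 5)) ^ (k.val / 3) *
    (⟨![0, 2, 4, 1, 3], ![0, 3, 1, 4, 2], by decide, by decide⟩ : Perm (Fin 5)) ^ (k.val % 3)

theorem pm_spec : ∀ k l : Fin 12, ∀ i j : Fin 4, i ≠ j → (∀ a, a ≤ i.castSucc → ((pm l)⁻¹ * pm k) a ≤ i.castSucc) →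
    (∀ a, a ≤ j.castSucc → ((pm l)⁻¹ * pm k) a ≤ j.castSucc) → k = l := by
  decide +kernel

end ModB

open ModB

theorem Wt.single {v : V} (h : Wt ρ v) (sq : ∀ v : V, v * v = 1) (irr : Irr ρ) (hc : Nat.card V ≤ 2 ^ 11) :
    ∃ k : Fin 4, ∀ i : Fin 4, i ≠ k → ρ (sw i.castSucc i.succ) v = v := by
  classical
  by_contra hn
  push Not at hn
  obtain ⟨i, -, hi⟩ := hn 0
  obtain ⟨j, hij, hj⟩ := hn i
  obtain ⟨f, h1, hf⟩ := exists_inv sq h.ne ρ
  have h2 : f v ≠ 1 := fun e => by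
    rcases irr (⨅ g, f.ker.comap (ρ g).toMonoidHom) (fun g w hw => mem_iInf.2 fun k => by
      have := mem_iInf.1 hw (k * g)
      change f (ρ k (ρ g w)) = 1
      rw [← mul_ap]; exact this) with h3 | h3
    · refine h.ne (mem_bot.1 (h3.le (mem_iInf.2 fun g => ?_)))
      obtain ⟨l, hl, σ, e'⟩ := bruhat h g
      change f (ρ g v) = 1
      rw [e', hf l hl]
      exact (claim h sq hf σ).elim id fun a => by rw [a.1, e]
    · refine h1 (MonoidHom.ext fun x => ?_)
      have : f (ρ 1 x) = 1 := mem_iInf.1 (h3.ge (mem_top x)) 1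
      simpa using this
  letI : CommGroup V := { ‹Group V› with
    mul_comm := fun a b => by
      rw [eq_inv_of_mul_eq_one_left (sq (a * b)), mul_inv_rev, ← eq_inv_of_mul_eq_one_left (sq a),
        ← eq_inv_of_mul_eq_one_left (sq b)] }
  have h3 : ∀ (s : Finset (Fin 12)) l, f (ρ (PM (pm l)⁻¹) (∏ k ∈ s, ρ (PM (pm k)) v)) = if l ∈ s then f v else 1 :=
    fun s l => by
      rw [map_prod, map_prod, ← Finset.prod_ite_eq' s l fun _ => f v]
      refine Finset.prod_congr rfl fun k _ => ?_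
      rw [← mul_ap, ← map_mul]
      split_ifs with e
      · simp [e]
      · exact (claim h sq hf _).resolve_right fun a => e (pm_spec k l j i hij (a.2 j hj) (a.2 i hi))
  have h4 : Function.Injective fun s : Finset (Fin 12) => ∏ k ∈ s, ρ (PM (pm k)) v := fun s t e => Finset.ext fun l => by
    have h5 := (h3 s l).symm.trans ((congrArg (fun x => f (ρ (PM (pm l)⁻¹) x)) e).trans (h3 t l))
    by_cases a : l ∈ s <;> by_cases b : l ∈ t <;> simp [a, b, h2, h2.symm] at h5 ⊢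
  have h5 := (Nat.card_le_card_of_injective _ h4).trans hc
  rw [Nat.card_eq_fintype_card, Fintype.card_finset, Fintype.card_fin] at h5
  norm_num at h5

end CfsgLib.L5R
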