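import Mathlib
import Cfsg.Agent.Lib.L5R.Bas1

/-!
# the fundamental modules (plans/L5R.md)
-/

set_option autoImplicit false
set_option maxHeartbeats 400000
set_option Elab.async false

namespace CfsgLib.L5R

open Subgroup Cfsg CfsgLib.Tech CfsgLib.Held CfsgLib.MOrb CfsgLib.L72 CfsgLib.LargeExtra CfsgLib.ExtraTwo

namespace ModC

open Equiv Bas1

theorem perm_mem {α : Type*} [DecidableEq α] [Fintype α] {K : Subgroup (Perm α)} (p : α → Prop)
    (hK : ∀ a b, (p a ↔ p b) → swap a b ∈ K) (σ : Perm α) (hσ : ∀ x, p (σ x) ↔ p x) : σ ∈ K := by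
  induction' hn : σ.support.card using Nat.strong_induction_on with m ih generalizing σ
  by_cases h1 : σ = 1
  · rw [h1]; exact one_mem _
  obtain ⟨x, hx⟩ : ∃ x, σ x ≠ x := not_forall.1 fun k => h1 (Equiv.ext k)
  have h2 := ih _ (hn ▸ Perm.card_support_swap_mul hx) (swap x (σ x) * σ) (fun y => by
    rw [Perm.mul_apply, ← hσ y, swap_apply_def]
    split_ifs with a b
    · rw [a, hσ x]
    · rw [b, hσ x]
    · rfl) rfl
  exact (K.mul_mem_cancel_left (hK _ _ (hσ x).symm)).1 h2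

/-- permutation matrices -/
noncomputable def P : Perm (Fin 5) →* GN 5 := (Matrix.permMatrixHom (R := ZMod 2)).toHomUnits

theorem coe_P (σ : Perm (Fin 5)) : (P σ).1 = σ⁻¹.toPEquiv.toMatrix := rfl

theorem P_swap (a b : Fin 5) : P (swap a b) = sw a b := by
  have k : ∀ a b x y : Fin 5, (eM a b * eM b a * eM a b) x y = if swap a b x = y then 1 else 0 := by
    decide +kernel
  refine Units.ext (Matrix.ext fun x y => ?_)
  rw [coe_P, PEquiv.toMatrix_apply, swap_inv]
  refine Eq.trans ?_ (k a b x y).symm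
  simp [Option.mem_def]

theorem E_P (σ : Perm (Fin 5)) (a b : Fin 5) : E (σ a) (σ b) * P σ = P σ * E a b := by
  refine Units.ext (Matrix.ext fun x y => ?_)
  rw [Units.val_mul, Units.val_mul, coe_P, PEquiv.toMatrix_toPEquiv_mul, PEquiv.mul_toMatrix_toPEquiv]
  obtain ⟨x, rfl⟩ := σ.surjective x
  have : (Equiv.symm σ⁻¹) y = σ y := rfl
  simp [coe_E, eM, this]

theorem down {K : Subgroup (GN 5)} (d : ℕ) : ∀ a b : Fin 5, a.val = b.val + d + 1 →
    (∀ i : Fin 4, b.val ≤ i.val → i.val < a.val → E i.succ i.castSucc ∈ K) → E a b ∈ K := by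
  induction d with
  | zero =>
    intro a b e h
    have := h ⟨b.val, by omega⟩ le_rfl (by simp [e])
    rwa [show Fin.succ _ = a from Fin.ext (by simp [e]), show Fin.castSucc _ = b from Fin.ext rfl] at this
  | succ d ih =>
    intro a b e h
    have h1 := ih ⟨b.val + d + 1, by omega⟩ b rfl fun i h1 h2 => h i h1 (by simp at h2; omega)
    have h2 := h ⟨b.val + d + 1, by omega⟩ (by simp; omega) (by simp; omega)
    rw [show Fin.succ _ = a from Fin.ext (by simp; omega)] at h2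
    rw [← E_cmt (i := a) (j := ⟨b.val + d + 1, by omega⟩) (l := b) (fun k => by simp [Fin.ext_iff] at k; omega)
      (fun k => by simp [Fin.ext_iff] at k; omega) (fun k => by simp [Fin.ext_iff] at k; omega)]
    exact mul_mem (mul_mem (mul_mem h2 h1) h2) h1

theorem act_E {a b : Fin 5} (h : a ≠ b) (X : Alt) (x y : Fin 5) : (E a b • X).1 x y =
    X.1 x y + (if x = a then X.1 b y else 0) + (if y = a then X.1 x b else 0) := by
  have e : (E a b : GN 5).1.transpose = Matrix.transvection b a 1 := by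
    rw [← eM_eq h.symm, ← coe_E, ← io_E a b, CfsgLib.ClAut.coe_glInvT, E_inv]
  rw [coe_smul, e, coe_E, eM_eq h]
  by_cases hy : y = a <;> by_cases hx : x = a
  · subst hx; subst hy
    simp [X.2.2]
  · subst hy
    simp [Matrix.transvection_mul_apply_of_ne _ _ _ _ hx, hx]
  · subst hx
    simp [Matrix.mul_transvection_apply_of_ne _ _ _ _ hy, hy]
  · simp [Matrix.mul_transvection_apply_of_ne _ _ _ _ hy, Matrix.transvection_mul_apply_of_ne _ _ _ _ hx, hx, hy]

set_option synthInstance.maxSize 2000 in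
theorem E_wd {a b i j : Fin 5} (h : a ≠ b) (hij : i ≠ j) : E a b • wd i j =
    if (a = i ∨ a = j) ∨ ¬ (b = i ∨ b = j) then wd i j else wd i j + wd (swap a b i) (swap a b j) := by
  have k : ∀ a b i j : Fin 5, a ≠ b → i ≠ j → ∀ x y, (wd i j).1 x y + (if x = a then (wd i j).1 b y else 0) +
      (if y = a then (wd i j).1 x b else 0) = (wd i j).1 x y +
        if (a = i ∨ a = j) ∨ ¬ (b = i ∨ b = j) then 0 else (wd (swap a b i) (swap a b j)).1 x y := by
    decide +kernel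
  refine Subtype.ext (Matrix.ext fun x y => ?_)
  rw [act_E h, k a b i j h hij]
  split_ifs
  · exact add_zero _
  · rfl

theorem alt_ind (Q : Alt → Prop) (h0 : Q 0) (hadd : ∀ X Y, Q X → Q Y → Q (X + Y))
    (hw : ∀ i j, i < j → Q (wd i j)) (X : Alt) : Q X :=
  (th_mem (K := ofMul {m : Mo | m.g = 1 ∧ Q m.x} ⟨rfl, h0⟩ fun a ha b hb =>
    ⟨by rw [mul_g, ha.1, hb.1, mul_one], by rw [mul_x, ha.1, one_smul]; exact hadd _ _ ha.2 hb.2⟩) X
    fun i j hij _ => ⟨rfl, hw i j hij⟩).2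

variable {V : Type*} [CommGroup V] {ρ : GN 5 →* MulAut V} {v : V} {k : Fin 4}

/-- the stabiliser -/
def St (ρ : GN 5 →* MulAut V) (v : V) : Subgroup (GN 5) := (MulAction.stabilizer (MulAut V) v).comap ρ

theorem mem_St {g : GN 5} : g ∈ St ρ v ↔ ρ g v = v := Iff.rfl

theorem up (h : Wt ρ v) {a b : Fin 5} (hab : a ≤ b) : E a b ∈ St ρ v := by
  rcases hab.eq_or_lt with rfl | hab
  · rw [E_self]; exact one_mem _
  · exact h.fix _ (E_mem (by simpa [pT] using hab))

theorem low (h : Wt ρ v) {i : Fin 4} (hi : ρ (sw i.castSucc i.succ) v = v) : E i.succ i.castSucc ∈ St ρ v := by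
  have h1 := up h (a := i.castSucc) (b := i.succ) Fin.castSucc_lt_succ.le
  exact ((St ρ v).mul_mem_cancel_left h1).1 (((St ρ v).mul_mem_cancel_right h1).1 hi)

theorem top_of [Finite V] (irr : Irr ρ) {W : Subgroup V} (h1 : W ≠ ⊥) (h : ∀ a b, ∀ w ∈ W, ρ (E a b) w ∈ W) :
    W = ⊤ := by
  refine (irr W fun g => ?_).resolve_left h1
  have := gen_GN (ofMul {g : GN 5 | ∀ w ∈ W, ρ g w ∈ W} (fun w hw => by rwa [map_one])
    fun a ha b hb w hw => by rw [map_mul]; exact ha _ (hb w hw)) h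
  exact (this.ge (mem_top g) :)

theorem deg [Finite V] (h : Wt ρ v) (sq : ∀ v : V, v * v = 1) (irr : Irr ρ)
    (hk : ∀ i : Fin 4, ρ (sw i.castSucc i.succ) v = v) : Nat.card V ≤ 2 := by
  have h1 : ∀ a b, ρ (E a b) v = v := fun a b => by
    rcases le_or_gt a b with e | e
    · exact up h e
    · exact down (K := St ρ v) (a.val - b.val - 1) a b (by have : b.val < a.val := e; omega) fun i _ _ => low h (hk i)
  have h2 := top_of irr (W := zpowers v) (zpowers_ne_bot.2 h.ne) fun a b w hw => by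
    obtain ⟨m, rfl⟩ := mem_zpowers_iff.1 hw
    rw [map_zpow, h1]; exact hw
  rw [← card_top, ← h2, Nat.card_zpowers]
  exact orderOf_le_of_pow_eq_one two_pos (by rw [pow_two, sq])

/-- the images of the weight vector under the Weyl group -/
noncomputable def ε (ρ : GN 5 →* MulAut V) (v : V) (σ : Perm (Fin 5)) : V := ρ (P σ) v

theorem ε_one : ε ρ v 1 = v := by rw [ε, map_one, map_one]; rfl

section
variable (h : Wt ρ v) (hk : ∀ i : Fin 4, i ≠ k → ρ (sw i.castSucc i.succ) v = v)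
include h hk

theorem E_St {a b : Fin 5} (hab : a ≤ k.castSucc ∨ ¬ b ≤ k.castSucc) : E a b ∈ St ρ v := by
  rcases le_or_gt a b with e | e
  · exact up h e
  · refine down (a.val - b.val - 1) a b (by have : b.val < a.val := e; omega) fun i h1 h2 => low h (hk i ?_)
    rintro rfl
    simp only [Fin.le_def, Fin.val_castSucc] at hab
    omega

theorem ε_mul (σ : Perm (Fin 5)) {τ : Perm (Fin 5)} (hτ : ∀ x, τ x ≤ k.castSucc ↔ x ≤ k.castSucc) :
    ε ρ v (σ * τ) = ε ρ v σ := by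
  have : τ ∈ (St ρ v).comap P := perm_mem (· ≤ k.castSucc) (fun a b e => by
    rw [mem_comap, P_swap]
    have h1 := E_St h hk (a := a) (b := b) (by tauto)
    exact mul_mem (mul_mem h1 (E_St h hk (by tauto))) h1) τ hτ
  rw [ε, map_mul, map_mul, MulAut.mul_apply, show ρ (P τ) v = v from this, ε]

theorem E_ε {σ : Perm (Fin 5)} {a b : Fin 5} (hab : a ≤ k.castSucc ∨ ¬ b ≤ k.castSucc) :
    ρ (E (σ a) (σ b)) (ε ρ v σ) = ε ρ v σ := by
  rw [ε, ← MulAut.mul_apply, ← map_mul, E_P, map_mul, MulAut.mul_apply, mem_St.1 (E_St h hk hab)]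

theorem E_ε' (sq : ∀ v : V, v * v = 1) (hn : ρ (sw k.castSucc k.succ) v ≠ v) {σ : Perm (Fin 5)} {a b : Fin 5}
    (hab : ¬ (a ≤ k.castSucc ∨ ¬ b ≤ k.castSucc)) :
    ρ (E (σ a) (σ b)) (ε ρ v σ) = ε ρ v σ * ε ρ v (swap (σ a) (σ b) * σ) := by
  have h0 : ρ (E k.succ k.castSucc) v = v * ρ (sw k.castSucc k.succ) v := by
    have h2 := mem_St.1 (up h (a := k.castSucc) (b := k.succ) Fin.castSucc_lt_succ.le)
    have h3 : ρ (E k.castSucc k.succ * sw k.castSucc k.succ) v = ρ (E k.succ k.castSucc) v := by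
      rw [sw, ← mul_assoc, ← mul_assoc, E_mul_self, one_mul, map_mul, MulAut.mul_apply, h2]
    have h4 := (h.dich k).resolve_left hn
    rw [h3] at h4
    rw [eq_inv_of_mul_eq_one_right h4, inv_eq_of_mul_eq_one_right (sq _)]
  have key : ∀ (k : Fin 4) (a b : Fin 5), ¬ (a ≤ k.castSucc ∨ ¬ b ≤ k.castSucc) →
      (swap k.succ a * swap k.castSucc b) k.succ = a ∧ (swap k.succ a * swap k.castSucc b) k.castSucc = b ∧
      ∀ x, (swap k.succ a * swap k.castSucc b) x ≤ k.castSucc ↔ x ≤ k.castSucc := by decide +kernel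
  obtain ⟨e1, e2, e3⟩ := key k a b hab
  generalize swap k.succ a * swap k.castSucc b = τ at e1 e2 e3
  subst e1 e2
  rw [← ε_mul h hk σ e3, ← ε_mul h hk (_ * σ) e3, mul_assoc, ← Perm.mul_apply, ← Perm.mul_apply σ τ,
    ← mul_swap_eq_swap_mul, ε, ← MulAut.mul_apply, ← map_mul, E_P, map_mul, MulAut.mul_apply, h0, map_mul, ε,
    map_mul P (σ * τ), map_mul ρ (P (σ * τ)), MulAut.mul_apply, swap_comm, P_swap]

end

/-- linear combinations -/
def Φ {ι : Type*} [Fintype ι] (e : ι → V) (c : ι → ZMod 2) : V := ∏ i, e i ^ (c i).val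

theorem Φ_add (sq : ∀ v : V, v * v = 1) {ι : Type*} [Fintype ι] (e : ι → V) (c d : ι → ZMod 2) :
    Φ e (c + d) = Φ e c * Φ e d := by
  rw [Φ, Φ, Φ, ← Finset.prod_mul_distrib]
  refine Finset.prod_congr rfl fun i _ => ?_
  rw [← pow_add, Pi.add_apply, ZMod.val_add, ← pow_eq_pow_mod _ (by rw [pow_two, sq])]

theorem Φ_zero {ι : Type*} [Fintype ι] (e : ι → V) : Φ e 0 = 1 := by simp [Φ]

theorem Φ_single {ι : Type*} [Fintype ι] (e : ι → V) {c : ι → ZMod 2} {i : ι} (h1 : c i = 1)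
    (h : ∀ j, j ≠ i → c j = 0 ∨ e j = 1) : Φ e c = e i := by
  rw [Φ, Finset.prod_eq_single i (fun j _ hj => by rcases h j hj with e | e <;> simp [e]) (by simp), h1]
  exact pow_one _

theorem nat [Finite V] (h : Wt ρ v) (sq : ∀ v : V, v * v = 1) (irr : Irr ρ)
    (hk : ∀ i : Fin 4, i ≠ 0 → ρ (sw i.castSucc i.succ) v = v) : Nat.card V ≤ 32 := by
  by_cases hn : ρ (sw (0 : Fin 4).castSucc (0 : Fin 4).succ) v = v
  · exact (deg h sq irr fun i => (em (i = 0)).elim (fun e => e ▸ hn) (hk i)).trans (by norm_num)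
  set e : Fin 5 → V := fun i => ε ρ v (swap 0 i) with he
  let W : Subgroup V := ofMul (Set.range (Φ e)) ⟨0, Φ_zero e⟩ (by
    rintro _ ⟨c, rfl⟩ _ ⟨d, rfl⟩; exact ⟨c + d, Φ_add sq e c d⟩)
  have hW : ∀ σ, ε ρ v σ ∈ W := fun σ => by
    refine ⟨Pi.single (σ 0) 1, (Φ_single e (i := σ 0) (by simp) fun j hj => Or.inl (by simp [hj])).trans ?_⟩
    rw [he, ← mul_inv_cancel_left (swap 0 (σ 0)) σ, ε_mul h hk]
    · simp
    · intro x
      simp only [Fin.castSucc_zero, Fin.le_zero_iff, Perm.mul_apply, swap_inv]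
      rw [← (swap 0 (σ 0)).injective.eq_iff, swap_apply_self, swap_apply_left, σ.injective.eq_iff]
  have ht := top_of irr (W := W) (fun k => h.ne (ε_one.symm.trans (mem_bot.1 (k.le (hW 1))))) (by
    rintro a b _ ⟨c, rfl⟩
    rw [Φ, map_prod]
    refine prod_mem fun i _ => ?_
    rw [map_pow]
    refine pow_mem ?_ _
    obtain ⟨a, rfl⟩ := (swap 0 i).surjective a
    obtain ⟨b, rfl⟩ := (swap 0 i).surjective b
    by_cases hab : a ≤ (0 : Fin 4).castSucc ∨ ¬ b ≤ (0 : Fin 4).castSucc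
    · rw [he, E_ε h hk hab]; exact hW _
    · rw [he, E_ε' h hk sq hn hab]; exact mul_mem (hW _) (hW _))
  have := Nat.card_le_card_of_surjective (Φ e) fun w => (ht.ge (mem_top w) :)
  simpa using this

/-- a permutation with `0 ↦ i`, `1 ↦ j` -/
def pp (i j : Fin 5) : Perm (Fin 5) := swap 0 i * swap 1 (swap 0 i j)

theorem pp_spec : ∀ {i j : Fin 5}, i ≠ j → pp i j 0 = i ∧ pp i j 1 = j := by decide +kernel

theorem alt [Finite V] (h : Wt ρ v) (sq : ∀ v : V, v * v = 1) (irr : Irr ρ) (hc : 2 ^ 10 ≤ Nat.card V)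
    (hk : ∀ i : Fin 4, i ≠ 1 → ρ (sw i.castSucc i.succ) v = v) : ∃ f, Eqv ρ f := by
  have hn : ρ (sw (1 : Fin 4).castSucc (1 : Fin 4).succ) v ≠ v := fun hn => by
    have := deg h sq irr fun i => (em (i = 1)).elim (fun e => e ▸ hn) (hk i)
    omega
  have hle : ∀ x : Fin 5, x ≤ (1 : Fin 4).castSucc ↔ x = 0 ∨ x = 1 := by decide
  have hε : ∀ σ τ : Perm (Fin 5), (∀ x, (x = σ 0 ∨ x = σ 1) ↔ (x = τ 0 ∨ x = τ 1)) → ε ρ v σ = ε ρ v τ :=
    fun σ τ e => by
    rw [← mul_inv_cancel_left τ σ, ε_mul h hk]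
    intro x
    rw [hle, hle, Perm.mul_apply, Perm.inv_eq_iff_eq, Perm.inv_eq_iff_eq, ← e, σ.injective.eq_iff,
      σ.injective.eq_iff]
  let e : Fin 5 × Fin 5 → V := fun p => if p.1 < p.2 then ε ρ v (pp p.1 p.2) else 1
  let f : Alt → V := fun X => Φ e fun p => X.1 p.1 p.2
  have fadd : ∀ X Y, f (X + Y) = f X * f Y := fun X Y => Φ_add sq e _ _
  have f0 : f 0 = 1 := Φ_zero e
  have fw : ∀ σ : Perm (Fin 5), f (wd (σ 0) (σ 1)) = ε ρ v σ := fun σ => by
    have k : ∀ i j, i < j → f (wd i j) = ε ρ v (pp i j) := fun i j hij => by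
      refine (Φ_single e (i := (i, j)) (by simp [wd_apply, hij.ne]) fun p hp => ?_).trans (if_pos hij)
      by_cases hp' : p.1 < p.2
      · refine Or.inl ((wd_apply _ _ _ _).trans (if_neg ?_))
        rintro ⟨-, ⟨a, b⟩ | ⟨a, b⟩⟩
        · exact hp (Prod.ext a b)
        · rw [a, b] at hp'; exact lt_asymm hij hp'
      · exact Or.inr (if_neg hp')
    rcases lt_or_gt_of_ne (σ.injective.ne (show (0 : Fin 5) ≠ 1 by decide)) with l | l
    · rw [k _ _ l]
      exact hε _ _ fun x => by rw [(pp_spec l.ne).1, (pp_spec l.ne).2]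
    · rw [show wd (σ 0) (σ 1) = wd (σ 1) (σ 0) from Subtype.ext (Matrix.ext fun a b => by
        rw [wd_apply, wd_apply]; exact if_congr (and_congr_right' or_comm) rfl rfl), k _ _ l]
      exact hε _ _ fun x => by rw [(pp_spec l.ne).1, (pp_spec l.ne).2, or_comm]
  have act : ∀ (g : GN 5) X, f (g • X) = ρ g (f X) := fun g => by
    have := gen_GN (ofMul {g : GN 5 | ∀ X, f (g • X) = ρ g (f X)} (fun X => by rw [one_smul, map_one]; rfl)
      fun a ha b hb X => by rw [mul_smul, ha, hb, map_mul]; rfl) fun a b => ?_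
    · exact (this.ge (mem_top g) :)
    by_cases hab : a = b
    · rw [hab, E_self]; exact one_mem _
    refine alt_ind _ (by rw [smul_zero, f0, map_one]) (fun X Y hX hY => by
      rw [smul_add, fadd, fadd, hX, hY, map_mul]) fun i j hij => ?_
    obtain ⟨e1, e2⟩ := pp_spec hij.ne
    generalize pp i j = σ at e1 e2
    subst e1 e2
    obtain ⟨a, rfl⟩ := σ.surjective a
    obtain ⟨b, rfl⟩ := σ.surjective b
    rw [E_wd hab hij.ne]
    simp only [σ.injective.eq_iff, ← hle]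
    split_ifs with c
    · rw [fw, E_ε h hk c]
    · rw [fadd, fw, E_ε' h hk sq hn c, ← fw (_ * σ)]; rfl
  have ht := top_of irr (W := ofMul (Set.range f) ⟨0, f0⟩ (by
    rintro _ ⟨c, rfl⟩ _ ⟨d, rfl⟩; exact ⟨c + d, fadd c d⟩))
    (fun k => h.ne (mem_bot.1 (k.le ⟨_, (fw 1).trans ε_one⟩))) (by
      rintro a b _ ⟨X, rfl⟩; exact ⟨_, act _ X⟩)
  exact ⟨f, Function.Surjective.bijective_of_nat_card_le (fun w => (ht.ge (mem_top w) :))
    (card_Alt.trans_le hc), fadd, act⟩

end ModC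

variable {V : Type*} [Group V] [Finite V] {ρ : GN 5 →* MulAut V}

theorem Wt.nat {v : V} (h : Wt ρ v) (sq : ∀ v : V, v * v = 1) (irr : Irr ρ)
    (hk : ∀ i : Fin 4, i ≠ 0 → ρ (sw i.castSucc i.succ) v = v) : Nat.card V ≤ 32 := by
  letI : CommGroup V := { (inferInstance : Group V) with
    mul_comm := fun a b => by
      rw [← inv_eq_of_mul_eq_one_right (sq (a * b)), mul_inv_rev, inv_eq_of_mul_eq_one_right (sq a),
        inv_eq_of_mul_eq_one_right (sq b)] }
  exact ModC.nat h sq irr hk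

theorem Wt.alt {v : V} (h : Wt ρ v) (sq : ∀ v : V, v * v = 1) (irr : Irr ρ) (hc : 2 ^ 10 ≤ Nat.card V)
    (hk : ∀ i : Fin 4, i ≠ 1 → ρ (sw i.castSucc i.succ) v = v) : ∃ f, Eqv ρ f := by
  letI : CommGroup V := { (inferInstance : Group V) with
    mul_comm := fun a b => by
      rw [← inv_eq_of_mul_eq_one_right (sq (a * b)), mul_inv_rev, inv_eq_of_mul_eq_one_right (sq a),
        inv_eq_of_mul_eq_one_right (sq b)] }
  exact ModC.alt h sq irr hc hk


end CfsgLib.L5R
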