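import Mathlib
import Cfsg.Agent.Lib.L5R.ModA
import Cfsg.Agent.Lib.L5R.ModB
import Cfsg.Agent.Lib.L5R.ModC
import Cfsg.Agent.Lib.L5R.Spl
import Cfsg.Agent.Lib.L5R.Bas2

/-!
# irreducible modules of order `2^10` or `2^11`; coordinates (plans/L5R.md)
-/

set_option autoImplicit false
set_option maxHeartbeats 400000
set_option Elab.async false

namespace CfsgLib.L5R

open Subgroup Cfsg CfsgLib.Tech CfsgLib.Held CfsgLib.MOrb CfsgLib.L72 CfsgLib.LargeExtra CfsgLib.ExtraTwo

theorem mod {V : Type*} [Group V] [Finite V] {ρ : GN 5 →* MulAut V} (sq : ∀ v : V, v * v = 1) (irr : Irr ρ)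
    (h1 : 2 ^ 10 ≤ Nat.card V) (h2 : Nat.card V ≤ 2 ^ 11) :
    (∃ f, Eqv ρ f) ∨ ∃ f, Eqv (ρ.comp (io 5).toMonoidHom) f := by
  have : Nontrivial V := Finite.one_lt_card_iff_nontrivial.1 (by omega)
  obtain ⟨v, hv⟩ := exists_wt sq ρ
  obtain ⟨k, hk⟩ := hv.single sq irr h2
  have irr' : Irr (ρ.comp (io 5).toMonoidHom) := fun W hW => irr W fun g w hw => by
    have := hW (io 5 g) w hw
    rwa [MonoidHom.comp_apply, MulEquiv.coe_toMonoidHom, io_io] at this
  have hk' : ∀ i : Fin 4, i ≠ k.rev → (ρ.comp (io 5).toMonoidHom) (sw i.castSucc i.succ)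
      (ρ (sw 0 4 * sw 1 3) v) = ρ (sw 0 4 * sw 1 3) v := fun i hi =>
    (hv.tw.2 i).2 (hk _ fun e => hi (by rw [← e, Fin.rev_rev]))
  fin_cases k
  · have := hv.nat sq irr hk
    omega
  · exact Or.inl (hv.alt sq irr h1 hk)
  · exact Or.inr (hv.tw.1.alt sq irr' h1 hk')
  · have := hv.tw.1.nat sq irr' hk'
    omega

theorem mod_fr {G : Type*} [Group G] [Finite G] {A : Subgroup G} (π : normalizer (A : Set G) →* GN 5)
    (hs : Function.Surjective π) (hk : ∀ a, π a = 1 ↔ (a : G) ∈ A) {ρ : GN 5 →* MulAut A}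
    (hρ : ∀ (a : normalizer (A : Set G)) (x : A), (ρ (π a) x : G) = a * x * (a : G)⁻¹) {f : Alt → A}
    (hf : Eqv ρ f) : ∃ m : Fr G, m.A = A := by
  let ι : Multiplicative Alt →* normalizer (A : Set G) :=
    MonoidHom.mk' (fun v => ⟨f v.toAdd, le_normalizer (f _).2⟩) fun a b =>
      Subtype.ext (congrArg Subtype.val (hf.add a.toAdd b.toAdd) :)
  have hι : ∀ v : Alt, (ι (Multiplicative.ofAdd v) : G) = f v := fun _ => rfl
  have X : MultC.ModExt.MExt ι π := by
    refine ⟨hs, fun a b e => hf.bij.1 (Subtype.ext (congrArg Subtype.val e :)), fun a => ?_, fun a v => ?_⟩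
    · rw [hk]
      refine ⟨fun ha => ?_, ?_⟩
      · obtain ⟨v, hv⟩ := hf.bij.2 ⟨a, ha⟩
        exact ⟨v, Subtype.ext (by rw [hι, hv])⟩
      · rintro ⟨v, rfl⟩
        exact (f v).2
    · refine Subtype.ext ?_
      rw [coe_mul, coe_mul, hι, hι, hf.act, hρ, inv_mul_cancel_right]
  obtain ⟨H, hH⟩ := split X
  have hb : Function.Bijective (π.comp H.subtype) := by
    refine ⟨(injective_iff_map_eq_one _).2 fun a ha => ?_, fun g => ?_⟩
    · exact Subtype.ext (disjoint_def.1 hH.disjoint ha a.2)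
    · obtain ⟨a, rfl⟩ := hs g
      obtain ⟨⟨k, h⟩, e⟩ := hH.2 a
      refine ⟨h, ?_⟩
      rw [← e]
      change π h = π (k * h)
      rw [map_mul, MonoidHom.mem_ker.1 k.2, one_mul]
  let σ : GN 5 →* normalizer (A : Set G) := H.subtype.comp (MulEquiv.ofBijective _ hb).symm.toMonoidHom
  have hσ : ∀ g, π (σ g) = g := fun g => (MulEquiv.ofBijective _ hb).apply_symm_apply g
  let ψ : Mo →* normalizer (A : Set G) := MonoidHom.mk' (fun x => ι (Multiplicative.ofAdd x.x) * σ x.g)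
    fun a b => by
      have := X.conj (σ a.g) b.x
      rw [hσ] at this
      rw [mul_x, mul_g, ofAdd_add, map_mul, map_mul, mul_assoc (ι _) (σ a.g), ← mul_assoc (σ a.g), this]
      simp only [mul_assoc]
  have hψ : ∀ x, ψ x = ι (Multiplicative.ofAdd x.x) * σ x.g := fun _ => rfl
  have hπ : ∀ x, π (ψ x) = x.g := fun x => by rw [hψ, map_mul, (X.ker _).2 ⟨_, rfl⟩, hσ, one_mul]
  have inj : Function.Injective ψ := (injective_iff_map_eq_one _).2 fun x hx => by
    have h1 := hπ x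
    rw [hx, map_one] at h1
    rw [hψ, ← h1, map_one, mul_one, ← map_one ι] at hx
    exact Mo.ext (X.inj hx) h1.symm
  have sur : Function.Surjective ψ := fun a => by
    obtain ⟨v, hv⟩ := (X.ker (a * (σ (π a))⁻¹)).1 (by rw [map_mul, map_inv, hσ, mul_inv_cancel])
    exact ⟨⟨v, π a⟩, by rw [hψ, hv, inv_mul_cancel_right]⟩
  have hA : A0.map ((normalizer (A : Set G)).subtype.comp ψ) = A := by
    refine le_antisymm ?_ fun a ha => ?_
    · rintro _ ⟨x, hx, rfl⟩
      exact (hk _).1 ((hπ x).trans (mem_A0.1 hx))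
    · obtain ⟨x, hx⟩ := sur ⟨a, le_normalizer ha⟩
      exact ⟨x, mem_A0.2 ((hπ x).symm.trans ((hk _).2 (by rw [hx]; exact ha))), congrArg Subtype.val hx⟩
  refine ⟨⟨(normalizer (A : Set G)).subtype.comp ψ, (subtype_injective _).comp inj, ?_⟩, hA⟩
  rw [hA, MonoidHom.range_comp, MonoidHom.range_eq_top.2 sur, ← MonoidHom.range_eq_map, range_subtype]

theorem exists_fr {G : Type*} [Group G] [Finite G] (A : Subgroup G) (hA : IsElementaryAbelian 2 A)
    (hcard : Nat.card A = 2 ^ 10) (hL : Nonempty (XQ A ≃* Matrix.SpecialLinearGroup (Fin 5) (ZMod 2)))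
    (hirr : ∀ W : Subgroup G, W ≤ A → normalizer (A : Set G) ≤ normalizer (W : Set G) → W = ⊥ ∨ W = A) :
    ∃ m : Fr G, m.A = A := by
  obtain ⟨e⟩ := hL
  let e' := e.trans (MulEquiv.ofBijective (toSL 5) (toSL_bij 5)).symm
  let π : normalizer (A : Set G) →* GN 5 := e'.toMonoidHom.comp (QuotientGroup.mk' _)
  have hs : Function.Surjective π := e'.surjective.comp (QuotientGroup.mk'_surjective _)
  have hk : ∀ a, π a = 1 ↔ (a : G) ∈ A := fun a => by
    change e' (QuotientGroup.mk a) = 1 ↔ _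
    rw [MulEquiv.map_eq_one_iff, QuotientGroup.eq_one_iff, mem_subgroupOf]
  have hle : π.ker ≤ A.normalizerMonoidHom.ker := fun a ha => by
    ext x
    change (a : G) * x * (a : G)⁻¹ = x
    rw [mul_inv_eq_iff_eq_mul]
    exact congrArg Subtype.val (hA.1.is_comm.comm (⟨a, (hk a).1 ha⟩ : A) x)
  let ρ : GN 5 →* MulAut A := π.liftOfSurjective hs ⟨A.normalizerMonoidHom, hle⟩
  have hρ : ∀ (a : normalizer (A : Set G)) (x : A), (ρ (π a) x : G) = a * x * (a : G)⁻¹ := fun a x => by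
    rw [show ρ (π a) = A.normalizerMonoidHom a from MonoidHom.liftOfRightInverse_comp_apply _ _ _ _ a]
    rfl
  have irr : Irr ρ := fun W hW => by
    rcases hirr (W.map A.subtype) (map_subtype_le W) (fun a ha => mem_normalizer_of_forall (by
      rintro _ ⟨w, hw, rfl⟩
      exact ⟨_, hW (π ⟨a, ha⟩) w hw, hρ _ _⟩)) with h | h
    · exact Or.inl ((Subgroup.map_eq_bot_iff_of_injective W A.subtype_injective).1 h)
    · refine Or.inr (map_injective A.subtype_injective ?_)
      rw [h, ← MonoidHom.range_eq_map, range_subtype]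
  rcases mod (fun v : A => Subtype.ext (by rw [coe_mul, ← pow_two]; exact hA.2 v v.2)) irr hcard.ge
    (by rw [hcard]; norm_num) with ⟨f, hf⟩ | ⟨f, hf⟩
  · exact mod_fr π hs hk hρ hf
  · refine mod_fr ((io 5).toMonoidHom.comp π) ((io 5).surjective.comp hs) (fun a => ?_) (fun a x => ?_) hf
    · rw [← hk, MonoidHom.comp_apply, MulEquiv.coe_toMonoidHom, MulEquiv.map_eq_one_iff]
    · rw [← hρ]
      simp only [MonoidHom.comp_apply, MulEquiv.coe_toMonoidHom, io_io]


end CfsgLib.L5R
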