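import Mathlib
import Cfsg.Agent.Lib.L5R.Defs2
import Cfsg.Agent.Lib.Tech.Invol

/-!
# no offenders (plans/L5R.md)
-/

set_option autoImplicit false
set_option maxHeartbeats 400000
set_option Elab.async false

namespace CfsgLib.L5R

open Subgroup Cfsg CfsgLib.Tech CfsgLib.Held CfsgLib.MOrb CfsgLib.L72 CfsgLib.LargeExtra CfsgLib.ExtraTwo

variable {G : Type*} [Group G] [Finite G] {V S S0 T0 : Subgroup G} {d : G}

namespace Noax

variable {W Y : Subgroup G} {s b v w : G}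

omit [Finite G] in
theorem comm (h : NO V S S0 T0 d) (hv : v ∈ V) (hw : w ∈ V) : v * w = w * v := by
  rw [← inv_eq_of_mul_eq_one_right (h.sq _ (mul_mem hv hw)), mul_inv_rev, inv_eq_of_mul_eq_one_right (h.sq v hv),
    inv_eq_of_mul_eq_one_right (h.sq w hw)]

omit [Finite G] in
theorem act0 (h : NO V S S0 T0 d) (hs : s ∈ S0) (hw : w ∈ V) : s * (d * w * d⁻¹) * s⁻¹ = d * (s * w * s⁻¹) * d⁻¹ := by
  have := comm h (h.cen s hs) (conj_mem_of_mem_normalizer h.dn (conj_mem_of_mem_normalizer (h.norm (h.SS hs)) hw))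
  calc _ = s * d * s⁻¹ * d⁻¹ * (d * (s * w * s⁻¹) * d⁻¹) * (s * d * s⁻¹ * d⁻¹)⁻¹ := by group
    _ = _ := by rw [this]; group

omit [Finite G] in
theorem act1 (h : NO V S S0 T0 d) (hs : s ∈ S) (hs' : s ∉ S0) (hw : w ∈ V) :
    s * (d * w * d⁻¹) * s⁻¹ = d⁻¹ * (s * w * s⁻¹) * d := by
  have := comm h (h.inv s hs hs') (conj_mem_of_mem_normalizer' h.dn (conj_mem_of_mem_normalizer (h.norm hs) hw))
  calc _ = s * d * s⁻¹ * d * (d⁻¹ * (s * w * s⁻¹) * d) * (s * d * s⁻¹ * d)⁻¹ := by group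
    _ = _ := by rw [this]; group

omit [Finite G] in
theorem fpf2 (h : NO V S S0 T0 d) (hw : w ∈ V) (e : d * w * d⁻¹ = d⁻¹ * w * d) : w = 1 := by
  refine h.fpf w hw ?_
  calc d * w = d * d * (d⁻¹ * w * d) * d⁻¹ := by group
    _ = d ^ 3 * w * (d ^ 3)⁻¹ * d := by rw [← e, pow_three]; group
    _ = _ := by rw [h.d3]; group

theorem pow4 (h : NO V S S0 T0 d) (hW : W ≤ V) (hd : ∀ w ∈ W, d * w * d⁻¹ ∈ W) :
    Nat.card W ∈ [1, 4, 16, 64, 256, 1024, 4096] := by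
  let ρ := W.normalizerMonoidHom ⟨d, mem_normalizer_of_forall hd⟩
  have h3 : ρ ^ 3 ^ 1 = 1 := by
    rw [← map_pow, show (⟨d, mem_normalizer_of_forall hd⟩ : normalizer (W : Set G)) ^ 3 ^ 1 = 1 from Subtype.ext h.d3,
      map_one]
  have h1 := (isPGroup_zpowers_of_pow h3).card_modEq_card_fixedPoints W
  rw [show MulAction.fixedPoints (zpowers ρ) W = {1} from Set.eq_singleton_iff_unique_mem.2
    ⟨fun g => smul_one g, fun x hx => Subtype.ext (h.fpf x (hW x.2) (mul_inv_eq_iff_eq_mul.1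
      (congrArg Subtype.val (hx ⟨ρ, mem_zpowers ρ⟩))))⟩, Nat.card_unique (α := ({1} : Set W))] at h1
  obtain ⟨j, hj, e⟩ := (Nat.dvd_prime_pow Nat.prime_two).1 (h.card ▸ card_dvd_of_le hW)
  rw [e] at h1 ⊢
  revert h1
  interval_cases j <;> decide

theorem pow4c (h : NO V S S0 T0 d) (hY : Y ≤ S0) : cc V Y ∈ [1, 4, 16, 64, 256, 1024, 4096] :=
  pow4 h inf_le_left fun w hw => ⟨conj_mem_of_mem_normalizer h.dn hw.1, fun y hy => by
    rw [← mul_inv_eq_iff_eq_mul, act0 h (hY hy) hw.1, hw.2 y hy, mul_inv_cancel_right]⟩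

theorem cc_anti {Y Y' : Subgroup G} (h : Y ≤ Y') : cc V Y' ≤ cc V Y :=
  card_le_of_le (inf_le_inf_left _ (centralizer_le h))

theorem cc_ne (h : NO V S S0 T0 d) (hb : b ∈ Y) (hY : Y ≤ S) (hb' : b ∉ V) : cc V Y ≠ 4096 := fun e =>
  hb' (h.fai b (hY hb) fun _ hv => ((eq_of_le_of_card_ge (inf_le_left (b := centralizer (Y : Set G)))
    (h.card.trans e.symm).le).ge hv).2 b hb)

theorem semi (h : NO V S S0 T0 d) (hW : W ≤ V) (hd : ∀ w ∈ W, d * w * d⁻¹ ∈ W) (hs : s ∈ S) (hs' : s ∉ S0)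
    {C : Subgroup G} (hC : C ≤ W) (hc : ∀ c ∈ C, s * c = c * s) : Nat.card C * Nat.card C ≤ Nat.card W := by
  rw [← Nat.card_prod]
  refine Nat.card_le_card_of_injective (fun p : C × C => (⟨p.1 * (d * p.2 * d⁻¹), mul_mem (hC p.1.2) (hd _ (hC p.2.2))⟩ : W))
    fun p q e => ?_
  have e1 : (p.1 : G) * (d * p.2 * d⁻¹) = q.1 * (d * q.2 * d⁻¹) := congrArg Subtype.val e
  have hy := mul_mem q.2.2 (inv_mem p.2.2)
  have e2 : d * (q.2 * (p.2 : G)⁻¹) * d⁻¹ = (q.1 : G)⁻¹ * p.1 := by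
    calc _ = (q.1 : G)⁻¹ * (q.1 * (d * q.2 * d⁻¹)) * (d * p.2 * d⁻¹)⁻¹ := by group
      _ = _ := by rw [← e1]; group
  have e3 := fpf2 h (hW (hC hy)) (by
    have := act1 h hs hs' (hW (hC hy))
    rwa [hc _ hy, mul_inv_cancel_right, e2, hc _ (mul_mem (inv_mem q.1.2) p.1.2), mul_inv_cancel_right, ← e2] at this)
  have e4 : p.2 = q.2 := Subtype.ext (mul_inv_eq_one.1 e3).symm
  rw [e4] at e1
  exact Prod.ext (Subtype.ext (mul_right_cancel e1)) e4

theorem semic (h : NO V S S0 T0 d) (hY : Y ≤ S) (hY' : ¬ Y ≤ S0) : cc V Y * cc V Y ≤ cc V (Y ⊓ S0) := by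
  obtain ⟨s, hs, hs'⟩ := SetLike.not_le_iff_exists.1 hY'
  exact semi h inf_le_left (fun w hw => ⟨conj_mem_of_mem_normalizer h.dn hw.1, fun y hy => by
    rw [← mul_inv_eq_iff_eq_mul, act0 h hy.2 hw.1, hw.2 y hy, mul_inv_cancel_right]⟩) (hY hs) hs'
    (inf_le_inf_left _ (centralizer_le inf_le_left)) fun c hc => hc.2 s hs

omit [Finite G] in
theorem idx2 {A : Subgroup G} (h1 : V ≤ Y) (h2 : V ≤ A) (h : ∀ x ∈ Y, ∀ y ∈ Y, x ∉ A → y ∉ A → x * y ∈ A) :
    V.relIndex Y ≤ 2 * V.relIndex (Y ⊓ A) := by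
  rw [← relIndex_mul_relIndex V (Y ⊓ A) Y (le_inf h1 h2) inf_le_left, inf_relIndex_left, mul_comm]
  refine Nat.mul_le_mul_right _ (Nat.le_of_dvd two_pos (relIndex_dvd_two_iff.2 ?_))
  by_cases e : Y ≤ A
  · exact ⟨1, one_mem _, fun b hb => Or.inr (e hb)⟩
  · obtain ⟨a, ha, ha'⟩ := SetLike.not_le_iff_exists.1 e
    exact ⟨a, ha, fun b hb => or_iff_not_imp_right.2 fun hb' => h b hb a ha hb' ha'⟩

theorem idxS (h : NO V S S0 T0 d) (h1 : V ≤ Y) (h2 : Y ≤ S) : V.relIndex Y ≤ 2 * V.relIndex (Y ⊓ S0) :=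
  idx2 h1 (h.VT.trans h.TS) fun x hx y hy hx' hy' => by
    by_contra e
    have : Nontrivial V := Finite.one_lt_card_iff_nontrivial.1 (by rw [h.card]; norm_num)
    obtain ⟨w, hw⟩ := exists_ne (1 : V)
    have hw' := conj_mem_of_mem_normalizer (h.norm (h2 (mul_mem hx hy))) w.2
    have a1 := act1 h (h2 (mul_mem hx hy)) e w.2
    have a2 := act1 h (h2 hy) hy' w.2
    have a4 := act1 h (h2 hx) hx' (conj_mem_of_mem_normalizer' h.dn (conj_mem_of_mem_normalizer (h.norm (h2 hy)) w.2))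
    have a5 := fpf2 h hw' (by
      rw [← a1]
      calc d * (x * y * w * (x * y)⁻¹) * d⁻¹ = d * (x * (d * (d⁻¹ * (y * w * y⁻¹) * d) * d⁻¹) * x⁻¹) * d⁻¹ := by group
        _ = x * (d⁻¹ * (y * w * y⁻¹) * d) * x⁻¹ := by rw [a4]; group
        _ = _ := by rw [← a2]; group)
    exact hw (Subtype.ext (conj_eq_one_iff.1 a5))

omit [Finite G] in
theorem idxT (h : NO V S S0 T0 d) (h1 : V ≤ Y) (h2 : Y ≤ S0) : V.relIndex Y ≤ 2 * V.relIndex (Y ⊓ T0) :=
  idx2 h1 h.VT fun x hx y hy => h.idx x (h2 hx) y (h2 hy)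

/-- bounds for subgroups of `S0` -/
theorem bd (h : NO V S S0 T0 d) (h1 : V ≤ Y) (h2 : Y ≤ S0) (sq : ∀ y ∈ Y, y * y ∈ V) :
    V.relIndex Y ≤ 16 ∧ (3 ≤ V.relIndex Y → cc V Y ≤ 256) ∧ (15 ≤ V.relIndex Y → cc V Y ≤ 64) := by
  have a := idxT h h1 h2
  have a1 : cc V Y ≤ cc V (Y ⊓ T0) := cc_anti inf_le_left
  refine ⟨h.f4 Y h1 h2 sq, fun k => a1.trans (h.f2 _ (le_inf h1 h.VT) inf_le_right (fun y hy => sq y hy.1) fun e => ?_),
    fun k => a1.trans (h.f3 _ (le_inf h1 h.VT) inf_le_right (fun y hy => sq y hy.1) (by omega)).1⟩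
  rw [e, relIndex_self] at a
  omega

/-- the commutator map -/
def cm (h : NO V S S0 T0 d) (hb : b ∈ S) : V →* G := MonoidHom.mk' (fun v => v * b * (v : G)⁻¹ * b⁻¹) fun v w => by
  have := comm h (mul_mem w.2 (conj_mem_of_mem_normalizer (h.norm hb) (inv_mem w.2)))
    (conj_mem_of_mem_normalizer (h.norm hb) (inv_mem v.2))
  calc ((v * w : V) : G) * b * ((v * w : V) : G)⁻¹ * b⁻¹ = v * (w * (b * (w : G)⁻¹ * b⁻¹) * (b * (v : G)⁻¹ * b⁻¹)) := by
        rw [coe_mul]; group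
    _ = _ := by rw [this]; group

omit [Finite G] in
theorem cm_le (h : NO V S S0 T0 d) (hb : b ∈ S) : (cm h hb).range ≤ V := by
  rintro _ ⟨v, rfl⟩
  have := mul_mem v.2 (conj_mem_of_mem_normalizer (h.norm hb) (inv_mem v.2))
  rwa [← mul_assoc, ← mul_assoc] at this

omit [Finite G] in
theorem card_ker (h : NO V S S0 T0 d) (hb : b ∈ S) : Nat.card (cm h hb).ker = cc V (zpowers b) := by
  rw [cc, ← Nat.card_congr (subgroupOfEquivOfLe (inf_le_left (a := V))).toEquiv, inf_subgroupOf_left, Core.centralizer_zpowers]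
  congr 2
  ext v
  rw [mem_subgroupOf, mem_centralizer_singleton_iff, MonoidHom.mem_ker]
  exact mul_inv_eq_one.trans mul_inv_eq_iff_eq_mul

theorem key (h : NO V S S0 T0 d) (h1 : V ≤ Y) (h2 : Y ≤ S) (sq : ∀ y ∈ Y, y * y ∈ V) (hb : b ∈ Y)
    (hc : ∀ U ≤ V, (∀ v ∈ U, v * b * v⁻¹ * b⁻¹ ∈ centralizer (Y : Set G)) → Nat.card U ≤ V.relIndex Y * cc V Y) :
    Nat.card (cm h (h2 hb)).range * cc V (zpowers b) = 4096 ∧
    Nat.card ((cm h (h2 hb)).range ⊓ centralizer (Y : Set G) : Subgroup G) * cc V (zpowers b) ≤ V.relIndex Y * cc V Y ∧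
    ((cm h (h2 hb)).range ≠ ⊥ → 2 ≤ Nat.card ((cm h (h2 hb)).range ⊓ centralizer (Y : Set G) : Subgroup G)) := by
  refine ⟨?_, ?_, fun hn => ?_⟩
  · rw [← card_ker h (h2 hb), ← Core.card_comap_of_le_range _ le_rfl, ← show Nat.card V = 4096 from h.card,
      eq_top_iff.2 (show ⊤ ≤ (cm h (h2 hb)).range.comap (cm h (h2 hb)) from fun v _ => ⟨v, rfl⟩), Subgroup.card_top]
  · rw [← card_ker h (h2 hb), ← Core.card_comap_of_le_range _ inf_le_left, ← card_map_of_injective V.subtype_injective]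
    exact hc _ (map_subtype_le _) (by rintro _ ⟨v, hv, rfl⟩; exact hv.2)
  · obtain ⟨x, hx, ho, hx'⟩ := exists_mem_center_of_normalized (h.two.to_le h2) ((cm_le h _).trans h1)
      (fun y hy => mem_normalizer_of_forall (by
        rintro _ ⟨v, rfl⟩
        have hv := conj_mem_of_mem_normalizer (h.norm (h2 hy)) v.2
        refine ⟨⟨_, hv⟩, ?_⟩
        have e1 : y * b * y⁻¹ * b⁻¹ ∈ V := by
          have := mul_mem (mul_mem (sq _ (mul_mem hy hb)) (conj_mem_of_mem_normalizer' (h.norm (h2 hb))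
            (inv_mem (sq _ hy)))) (inv_mem (sq _ hb))
          convert this using 1
          group
        have e4 := comm h e1 (conj_mem_of_mem_normalizer (h.norm (h2 hb)) (inv_mem hv))
        change y * v * y⁻¹ * b * (y * v * y⁻¹)⁻¹ * b⁻¹ = y * (v * b * (v : G)⁻¹ * b⁻¹) * y⁻¹
        calc _ = y * v * y⁻¹ * ((y * b * y⁻¹ * b⁻¹) * (b * (y * v * y⁻¹)⁻¹ * b⁻¹) * (y * b * y⁻¹ * b⁻¹)⁻¹) := by
              rw [e4]; group
          _ = _ := by group)) hn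
    exact Finite.one_lt_card_iff_nontrivial.2 ⟨⟨⟨x, hx, hx'⟩, 1, fun e => ne_one_of_orderOf_two ho (congrArg Subtype.val e)⟩⟩

end Noax

open Noax

theorem NO.off (h : NO V S S0 T0 d) {Y : Subgroup G} (h1 : V ≤ Y) (h2 : Y ≤ S) (sq : ∀ y ∈ Y, y * y ∈ V)
    (hk : 2 ^ 12 ≤ V.relIndex Y * cc V Y) : Y = V := by
  by_contra e
  obtain ⟨b, hb, hb'⟩ := SetLike.not_le_iff_exists.1 fun k => e (le_antisymm k h1)
  by_cases hY : Y ≤ S0
  · obtain ⟨a1, a2, a3⟩ := bd h h1 hY sq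
    have a4 := pow4c h hY
    have a5 := cc_ne h hb h2 hb'
    simp only [List.mem_cons, List.not_mem_nil, or_false] at a4
    rcases a4 with a | a | a | a | a | a | a <;> rw [a] at hk a2 a3 <;> omega
  · have a1 := (bd h (le_inf h1 (h.VT.trans h.TS)) inf_le_right fun y hy => sq y hy.1).1
    have a2 := idxS h h1 h2
    have a3 := (semic h h2 hY).trans (card_le_of_le inf_le_left)
    rw [h.card] at a3
    have a4 : cc V Y ≤ 64 := by nlinarith
    nlinarith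

theorem NO.cfg (h : NO V S S0 T0 d) {Y : Subgroup G} (h1 : V ≤ Y) (h2 : Y ≤ S) (sq : ∀ y ∈ Y, y * y ∈ V)
    {b : G} (hb : b ∈ Y) (hb' : b ∉ V) (ha : 2 ^ 12 ≤ V.relIndex Y * cc V (zpowers b))
    (hc : ∀ U ≤ V, (∀ v ∈ U, v * b * v⁻¹ * b⁻¹ ∈ centralizer (Y : Set G)) → Nat.card U ≤ V.relIndex Y * cc V Y) :
    False := by
  obtain ⟨k1, k2, k3⟩ := key h h1 h2 sq hb hc
  have hz : zpowers b ≤ Y := zpowers_le.2 hb
  have n1 := cc_ne h (mem_zpowers b) (hz.trans h2) hb'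
  have k4 := k3 fun e => by rw [e, card_bot, one_mul] at k1; exact n1 k1
  have all : (∀ v ∈ V, v * b * v⁻¹ * b⁻¹ ∈ centralizer (Y : Set G)) → False := fun k =>
    hb' ((h.off h1 h2 sq (h.card ▸ hc V le_rfl k)).le hb)
  obtain ⟨a1, a2, a3⟩ := bd h (le_inf h1 (h.VT.trans h.TS)) inf_le_right fun y hy => sq y hy.1
  have a4 := idxS h h1 h2
  by_cases hb0 : b ∈ S0
  swap
  · have a5 := (semic h (hz.trans h2) fun k => hb0 (k (mem_zpowers b))).trans (card_le_of_le inf_le_left)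
    rw [h.card] at a5
    have a6 : cc V (zpowers b) ≤ 64 := by nlinarith
    nlinarith
  have a5 := pow4c h (zpowers_le.2 hb0)
  simp only [List.mem_cons, List.not_mem_nil, or_false] at a5
  by_cases hY : Y ≤ S0
  · rw [inf_eq_left.2 hY] at a1 a2 a3
    have hd : ∀ w ∈ (cm h (h2 hb)).range, d * w * d⁻¹ ∈ (cm h (h2 hb)).range := by
      rintro _ ⟨v, rfl⟩
      refine ⟨⟨_, conj_mem_of_mem_normalizer h.dn v.2⟩, ?_⟩
      change d * v * d⁻¹ * b * (d * v * d⁻¹)⁻¹ * b⁻¹ = d * (v * b * (v : G)⁻¹ * b⁻¹) * d⁻¹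
      calc _ = d * v * d⁻¹ * (b * (d * (v : G)⁻¹ * d⁻¹) * b⁻¹) := by group
        _ = _ := by rw [act0 h hb0 (inv_mem v.2)]; group
    have a6 := pow4 h (inf_le_left.trans (cm_le h (h2 hb))) (W := (cm h (h2 hb)).range ⊓ centralizer (Y : Set G))
      fun w hw => ⟨hd w hw.1, fun y hy => by
        rw [← mul_inv_eq_iff_eq_mul, act0 h (hY hy) (cm_le h _ hw.1), hw.2 y hy, mul_inv_cancel_right]⟩
    have a7 : 4 ≤ Nat.card ((cm h (h2 hb)).range ⊓ centralizer (Y : Set G) : Subgroup G) := by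
      simp only [List.mem_cons, List.not_mem_nil, or_false] at a6
      omega
    have a8 : cc V (zpowers b) = 256 ∨ cc V (zpowers b) = 1024 := by
      rcases a5 with a | a | a | a | a | a | a <;> rw [a] at ha <;> omega
    rcases a8 with a | a
    · rw [a] at ha k2
      have b1 : V.relIndex Y = 16 := by omega
      have b2 := idxT h h1 hY
      obtain ⟨b3, b4⟩ := h.f3 _ (le_inf h1 h.VT) inf_le_right (fun y hy => sq y hy.1) (by omega)
      have b5 : V ⊓ centralizer (Y : Set G) = V ⊓ centralizer ((Y ⊓ T0 : Subgroup G) : Set G) :=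
        eq_of_le_of_card_ge (inf_le_inf_left _ (centralizer_le inf_le_left)) (by
          change cc V (Y ⊓ T0) ≤ cc V Y
          rw [b1] at k2
          omega)
      have b6 : cc V (Y ⊓ T0) = 2 ^ 6 := by
        have : cc V (Y ⊓ T0) = cc V Y := by rw [cc, cc, b5]
        rw [b1] at k2
        omega
      exact all fun v hv => (b5.ge ⟨cm_le h (h2 hb) ⟨⟨v, hv⟩, rfl⟩,
        b4 b6 b (h2 hb) (fun w hw => (b5.ge hw).2 b hb) v hv⟩).2
    · rw [a] at k1
      have b1 := eq_of_le_of_card_ge (inf_le_left (a := (cm h (h2 hb)).range) (b := centralizer (Y : Set G))) (by omega)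
      exact all fun v hv => (b1.ge ⟨⟨v, hv⟩, rfl⟩).2
  · have b1 := semic h h2 hY
    have b2 : cc V (Y ⊓ S0) ≤ cc V (zpowers b) := cc_anti (zpowers_le.2 ⟨hb, hb0⟩)
    have a8 : cc V (zpowers b) = 256 ∨ cc V (zpowers b) = 1024 := by
      rcases a5 with a | a | a | a | a | a | a <;> rw [a] at ha <;> omega
    rcases a8 with a | a <;> rw [a] at ha k2 b2
    · by_cases b3 : 15 ≤ V.relIndex (Y ⊓ S0)
      · have b4 : cc V Y ≤ 8 := by have := a3 b3; nlinarith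
        nlinarith
      · have b4 : cc V Y ≤ 16 := by nlinarith
        nlinarith
    · have b4 : cc V Y ≤ 32 := by nlinarith
      nlinarith

end CfsgLib.L5R
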