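import Mathlib
import Cfsg.Agent.Lib.L5R.Bas2

/-!
# orbits on the involutions of `Q0` (plans/L5R.md)
-/

set_option autoImplicit false
set_option maxHeartbeats 400000
set_option Elab.async false

namespace CfsgLib.L5R

open Subgroup Cfsg CfsgLib.Tech CfsgLib.Held CfsgLib.MOrb CfsgLib.L72 CfsgLib.LargeExtra CfsgLib.ExtraTwo

namespace ORB

/-- an element of `H0` with its inverse -/
noncomputable def hk (p : ℕ × ℕ) : Bool := and (and (okC p.1 (cg p.2)) (okC p.2 (cg p.1)))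
  (and (inM 0x631800000000 p.1) (Nat.beq (mulC p.1 p.2) oneC))

/-- conjugation of codes -/
noncomputable def cjC (p : ℕ × ℕ) (c : ℕ) : ℕ := mulC (mulC p.1 c) p.2

theorem hk_spec {p : ℕ × ℕ} (h : hk p = true) :
    ∃ k ∈ H0, ∀ {m : Mo} {c : ℕ}, Cd m c → Cd (k * m * k⁻¹) (cjC p c) := by
  simp only [hk, Bool.and_eq_true, Nat.beq_eq] at h
  obtain ⟨⟨h1, h2⟩, h3, h4⟩ := h
  refine ⟨el p.1, (cd_el h1).mem_H0.2 h3, fun hm => ?_⟩
  rw [(cd_el h1).inv_eq (cd_el h2) h4]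
  exact ((cd_el h1).mul hm).mul (cd_el h2)

/-- the rank test -/
def rkB (c : ℕ) : Bool := decide (∀ j k : Fin 5, 2 ≤ j.val → 2 ≤ k.val →
  (c.testBit (25 + j.val) && c.testBit (30 + k.val)) = (c.testBit (25 + k.val) && c.testBit (30 + j.val)))

theorem rk_iff {m : Mo} {c : ℕ} (h : Cd m c) : rk1 m ↔ rkB c = true := by
  have e0 : ∀ j : Fin 5, 25 + (5 * (0 : Fin 5).val + j.val) = 25 + j.val := fun j => by simp
  have e1 : ∀ j : Fin 5, 25 + (5 * (1 : Fin 5).val + j.val) = 30 + j.val := fun j => by simp; omega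
  simp only [rk1, rkB, decide_eq_true_eq, h.bit_g, ← ite_and', ite_inj, e0, e1]

theorem rk_congr {a b : Mo} (e : a.g = b.g) : rk1 a ↔ rk1 b := by rw [rk1, rk1, e]

/-- the linear parts of the elements of `Q0` -/
def GQ : Subgroup Mo := pat pE pA
/-- a pattern -/
def pL : Pt := fun i j => decide (j.val ≤ i.val ∨ i.val ≤ 1)
/-- a pattern -/
def rL : Pt := fun i _ => decide (i.val ≤ 1)
/-- a complement of `Q0` in `Tz` -/
def L0 : Subgroup Mo := pat pL rL

instance (m : Mo) : Decidable (m ∈ L0) := inferInstanceAs (Decidable (m ∈ pat pL rL))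

theorem lp_GQ {q : Mo} (hq : q ∈ Q0) {c : ℕ} (h : Cd (io0 q.g) c) {f : ℕ → Bool}
    (hf : lp [27, 28, 29, 32, 33, 34] f = true) : f c = true :=
  h.loop (show io0 q.g ∈ GQ from ⟨hq.1, fun _ _ _ => rfl⟩) (by decide +kernel) hf

theorem lp_L0 {m : Mo} {c : ℕ} (h : Cd m c) (hm : m ∈ L0) {f : ℕ → Bool}
    (hf : lp [13, 14, 19, 38, 39, 44] f = true) : f c = true := h.loop hm (by decide +kernel) hf

theorem L0_le : L0 ≤ H0 := pat_le (by decide) (by decide)

theorem dec_Tz {j : Mo} (h : j ∈ Tz) : ∃ l ∈ L0, ∃ q ∈ Q0, j = l * q := by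
  have k : ∀ x, x ∈ L0 ∨ x ∈ Q0 → ∃ l ∈ L0, ∃ q ∈ Q0, x = l * q := by
    rintro x (e | e)
    exacts [⟨x, e, 1, one_mem _, (mul_one x).symm⟩, ⟨1, one_mem _, x, e, (one_mul x).symm⟩]
  have f : ∀ i j : Fin 5, i < j → (t i j ∈ L0 ∨ t i j ∈ Q0) ∧ (e i j ∈ Tz → e i j ∈ L0 ∨ e i j ∈ Q0) := by
    decide +kernel
  refine gen_up (K := ofMul {x | ∃ l ∈ L0, ∃ q ∈ Q0, x = l * q} (k 1 (.inl (one_mem _))) ?_)
    (by decide) (fun i j l _ => k _ (f i j l).1) (fun i j l a => k _ ((f i j l).2 a)) h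
  rintro _ ⟨l, hl, q, hq, rfl⟩ _ ⟨l', hl', q', hq', rfl⟩
  exact ⟨l * l', mul_mem hl hl', l'⁻¹ * q * l' * q',
    mul_mem (conj_mem_of_mem_normalizer' (H0_norm (L0_le hl')) hq) hq', by group⟩

/-- normalising the block -/
def L1 : List (ℕ × ℕ) :=
  [(571885666435072, 571885666435072), (571886740176896, 571886740176896), (712623154790400, 712623154790400),
  (571884659802112, 571886773731328), (712624228532224, 712624228532224), (998496178012160, 857758689656832),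
  (308002875768832, 862156736167936), (857758689656832, 998496178012160), (150222957182976, 713035471650816),
  (853359636512768, 853361750441984), (712622148157440, 712624262086656), (853361750441984, 853359636512768),
  (998497251753984, 857759763398656), (150224030924800, 713036545392640), (453138410635264, 866554782679040),
  (994372002775040, 712899139993600), (150221950550016, 713036578947072), (453139484377088, 866555856420864),
  (431971805167616, 713311456854016), (567762497830912, 576421151899648), (717021201301504, 717021201301504),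
  (730215340834816, 734613387345920), (576282706313216, 576284820242432), (567762564939776, 576421219008512),
  (857758756765696, 998496245121024), (712624262086656, 712622148157440), (567763571572736, 576422225641472),
  (308003949510656, 862157809909760), (730216414576640, 734614461087744), (989974962896896, 717158640254976),
  (1011965195452416, 735300582113280), (849237474541568, 998633616965632), (167815143227392, 735025704206336),
  (172213189738496, 717433518161920), (875900631515136, 999183372779520), (576282672758784, 576282672758784),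
  (712622114603008, 712622114603008), (567761491197952, 576422259195904), (308001869135872, 862157843464192),
  (730214334201856, 734614494642176), (567763605127168, 576420145266688), (150224064479232, 713034465017856),
  (286837276934144, 1003031663476736), (159293928112128, 312813239140352)]

/-- moving into `Uw` -/
def L2 : List (ℕ × ℕ) :=
  [(722106443628560, 295495931003908), (853360714465280, 853360714465280), (439948767395840, 303609191333888),
  (713311470116864, 431971814080512), (154894841414660, 449151642894848), (712623225045520, 712623223996928),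
  (150085585477632, 150085594251264), (857758698569728, 998496186925056), (171938378940416, 444754701582336)]

/-- moving `e₀ ∧ v` to `w0` -/
def L3 : List (ℕ × ℕ) :=
  [(571885666435072, 571885666435072), (567762497830912, 576421151899648), (576283712946176, 576283712946176),
  (150222957182976, 713035471650816), (712623154790400, 712623154790400), (989974962896896, 717158640254976),
  (717021201301504, 717021201301504)]

/-- generators of `Q0` -/
noncomputable def LQ : List ℕ := [tC 0 1, tC 0 2, tC 0 3, tC 0 4, tC 1 2, tC 1 3, tC 1 4, eC 0 2, eC 0 3, eC 0 4,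
  eC 1 2, eC 1 3, eC 1 4]

theorem tab0 : aL L1 hk = true ∧ aL L2 hk = true ∧ aL L3 hk = true ∧
    aL LQ (fun c => and (okC c (cg c)) (and (inM 0x3fff8c7ce7000 c) (Nat.beq (mulC c c) oneC))) = true ∧
    ∀ i j : Fin 5, i < j → (t i j ∈ Q0 → tC i j ∈ LQ) ∧ (e i j ∈ Q0 → eC i j ∈ LQ) := by decide +kernel

theorem tab1 : lp [27, 28, 29, 32, 33, 34] (fun c => eL L1 fun p => frc (cjC p c) fun d =>
    cond (rkB c) (or (Nat.beq d oneC) (Nat.beq d (eC 0 4))) (Nat.beq d (mulC (eC 0 3) (eC 1 4)))) = true := by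
  decide +kernel

theorem tab2 : aL [oneC, eC 0 4] (fun g => lp [1, 2, 3, 4, 7, 8, 9] fun x => frc (mulC x g) fun c =>
    imp (Nat.beq (mulC c c) oneC) (eL L2 fun p => inM 0x3ffffcf8c6300 (cjC p c))) = true := by
  decide +kernel

theorem tab3 : lp [13, 14, 19, 38, 39, 44] (fun d => imp (inM 0x3fff8c7ce7000 (mulC d d))
    (and (and (Nat.beq (mulC d d) oneC)
      (lp [27, 28, 29, 32, 33, 34] fun c => and (Nat.beq (mulC c c) oneC)
        (frc (mulC c d) fun x => frc (mulC x x) rkB)))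
      (and (aL LQ fun c => frc (cjC (d, d) c) fun x => Nat.beq (mulC c x) (mulC x c))
        (or (Nat.beq d oneC) (eL LQ fun c => frc (mulC c d) fun x => frc (mulC x x) fun y =>
          eL L3 fun p => Nat.beq (cjC p y) (tC 0 2)))))) = true := by
  decide +kernel

theorem stage1 {q : Mo} (hq : q ∈ Q0) : ∃ k ∈ H0,
    (rk1 q → io0 (k * q * k⁻¹).g = 1 ∨ io0 (k * q * k⁻¹).g = e 0 4) ∧
      (¬ rk1 q → (k * q * k⁻¹).g = E 0 3 * E 1 4) := by
  obtain ⟨c, hc⟩ := exists_cd (io0 q.g)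
  have h1 := lp_GQ hq hc tab1
  obtain ⟨p, hp, h2⟩ := (eL_iff _ _).1 h1
  obtain ⟨k, hk, h3⟩ := hk_spec ((aL_iff _ _).1 tab0.1 p hp)
  have h4 := h3 hc
  have h5 := (rk_congr (a := q) (b := io0 q.g) rfl).trans (rk_iff hc)
  have h6 : ∀ {m : Mo}, k * io0 q.g * k⁻¹ = m → (k * q * k⁻¹).g = m.g := fun e => e ▸ rfl
  rw [frc_eq] at h2
  refine ⟨k, hk, fun r => ?_, fun r => ?_⟩
  · rw [h5.1 r, cond_true, Bool.or_eq_true, Nat.beq_eq, Nat.beq_eq] at h2
    rcases h2 with e | e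
    · exact .inl (by rw [h6 (h4.eq_one.2 e)]; rfl)
    · exact .inr (by rw [h6 ((h4.eq_iff (cd_e (i := 0) (j := 4) (by decide))).2 e)]; rfl)
  · rw [Bool.eq_false_iff.2 fun e => r (h5.2 e), cond_false, Nat.beq_eq] at h2
    exact h6 ((h4.eq_iff ((cd_e (i := 0) (j := 3) (by decide)).mul
      (cd_e (i := 1) (j := 4) (by decide)))).2 h2)

theorem stage2 {q : Mo} (hq : q ∈ Q0) (sq : q * q = 1) (h : io0 q.g = 1 ∨ io0 q.g = e 0 4) :
    ∃ k ∈ H0, k * q * k⁻¹ ∈ Uw := by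
  obtain ⟨g, hg, h1⟩ : ∃ g ∈ [oneC, eC 0 4], Cd (io0 q.g) g := by
    rcases h with e | e <;> rw [e]
    exacts [⟨_, by simp, cd_one⟩, ⟨_, by simp, cd_e (i := 0) (j := 4) (by decide)⟩]
  obtain ⟨x, hx⟩ := exists_cd (th q.x)
  have h2 := hx.lp_W7 (show th q.x ∈ W7 from ⟨fun _ _ _ => rfl, hq.2⟩) ((aL_iff _ _).1 tab2 g hg)
  have h3 := hx.mul h1
  rw [th_mul_io0] at h3
  rw [frc_eq, imp_iff, Nat.beq_eq, eL_iff] at h2
  obtain ⟨p, hp, h4⟩ := h2 ((h3.mul h3).eq_one.1 sq)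
  obtain ⟨k, hk, h5⟩ := hk_spec ((aL_iff _ _).1 tab0.2.1 p hp)
  exact ⟨k, hk, (h5 h3).mem_Uw.2 h4⟩

/-- the elements of an extraspecial group that commute with their image under an involution -/
theorem es_tw {G : Type*} [Group G] {Q : Subgroup G} {z l a b : G} (h : ES Q z) (ll : l * l = 1)
    (lz : l * z = z * l) (hl : ∀ x ∈ Q, l * x * l⁻¹ ∈ Q) (ha : a ∈ Q) (hb : b ∈ Q)
    (ea : a * (l * a * l⁻¹) = l * a * l⁻¹ * a) (eb : b * (l * b * l⁻¹) = l * b * l⁻¹ * b) :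
    a * b * (l * (a * b) * l⁻¹) = l * (a * b) * l⁻¹ * (a * b) := by
  have k : ∀ x, l * (l * x * l⁻¹) * l⁻¹ = x := fun x => by
    calc _ = l * l * x * (l * l)⁻¹ := by group
      _ = x := by rw [ll]; group
  have kz : l * z * l⁻¹ = z := by rw [lz, mul_inv_cancel_right]
  rw [← conj_mul]
  generalize ha' : l * a * l⁻¹ = a' at ea ⊢
  generalize hb' : l * b * l⁻¹ = b' at eb ⊢
  have a1 : a' ∈ Q := ha' ▸ hl a ha
  rcases h.comm a ha b' (hb' ▸ hl b hb) with e | e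
  · have e' : a' * b = b * a' := by
      have := congrArg (fun x => l * x * l⁻¹) e
      simpa only [← conj_mul, ← hb', k, ha'] using this
    calc _ = a * (b * a') * b' := by group
      _ = a * a' * (b * b') := by rw [← e']; group
      _ = a' * (a * b') * b := by rw [ea, eb]; group
      _ = _ := by rw [e]; group
  · have e' : a' * b = z * (b * a') := by
      have := congrArg (fun x => l * x * l⁻¹) e
      simpa only [← conj_mul, ← hb', k, ha', kz] using this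
    calc _ = a * (z * (a' * b)) * b' := by rw [e', h.zz]; group
      _ = z * (a * a') * (b * b') := by rw [← mul_assoc a z, h.comm_z a ha]; group
      _ = a' * z * (a * b') * b := by rw [ea, eb, h.comm_z a' a1]; group
      _ = _ := by rw [e, mul_assoc a' z, h.zz]; group

theorem red {j : Mo} (h : j ∈ Tz) (sq : j * j ∈ Q0) : ∃ l ∈ L0, l * l ∈ Q0 ∧ (j ∉ Q0 → l ≠ 1) ∧
    ∀ q ∈ Q0, q * j * q⁻¹ * j⁻¹ = q * l * q⁻¹ * l⁻¹ ∨ q * j * q⁻¹ * j⁻¹ = q * l * q⁻¹ * l⁻¹ * z0 := by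
  obtain ⟨l, hl, r, hr, rfl⟩ := dec_Tz h
  refine ⟨l, hl, ?_, fun n e => n (by rwa [e, one_mul]), fun q hq => ?_⟩
  · have := mul_mem sq (inv_mem (mul_mem (conj_mem_of_mem_normalizer' (H0_norm (L0_le hl)) hr) hr))
    rwa [show l * r * (l * r) * (l⁻¹ * r * l * r)⁻¹ = l * l by group] at this
  · have e : q * (l * r) * q⁻¹ * (l * r)⁻¹ = q * l * q⁻¹ * (q * r * q⁻¹ * r⁻¹) * l⁻¹ := by group
    rcases es_Q0.commutator hq hr with c | c <;> rw [e, c]
    · exact .inl (by rw [mul_one])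
    · refine .inr ?_
      rw [mul_assoc _ z0, ← mem_H0.1 (inv_mem (L0_le hl)), ← mul_assoc]

theorem main {l : Mo} (hl : l ∈ L0) (sq : l * l ∈ Q0) :
    (∀ q ∈ Q0, rk1 (q * l * q⁻¹ * l⁻¹) ∧ q * l * q⁻¹ * l⁻¹ ∈ Q0 ∧
      q * l * q⁻¹ * l⁻¹ * (q * l * q⁻¹ * l⁻¹) = 1) ∧
    (l ≠ 1 → ∃ q ∈ Q0, ∃ k ∈ H0, k * (q * l * q⁻¹ * l⁻¹) * k⁻¹ = w0) := by
  obtain ⟨d, hd⟩ := exists_cd l
  have h1 := lp_L0 hd hl tab3
  rw [imp_iff] at h1
  have h2 := h1 ((hd.mul hd).mem_Q0.1 sq)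
  simp only [Bool.and_eq_true, Nat.beq_eq, aL_iff, Bool.or_eq_true, eL_iff] at h2
  obtain ⟨⟨h3, h4⟩, h5, h6⟩ := h2
  have ll : l * l = 1 := (hd.mul hd).eq_one.2 h3
  have li : l⁻¹ = l := inv_eq_of_mul_eq_one_right ll
  have lz := mem_H0.1 (L0_le hl)
  have nl : ∀ x ∈ Q0, l * x * l⁻¹ ∈ Q0 := fun x hx => conj_mem_of_mem_normalizer (H0_norm (L0_le hl)) hx
  refine ⟨fun q hq => ⟨?_, ?_, ?_⟩, fun l1 => ?_⟩
  · obtain ⟨c, hc⟩ := exists_cd (io0 q.g)
    have h7 := lp_GQ hq hc h4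
    rw [Bool.and_eq_true, Nat.beq_eq, frc_eq, frc_eq] at h7
    have h8 := (rk_iff ((hc.mul hd).mul (hc.mul hd))).2 h7.2
    have h9 : q.g⁻¹ = q.g := inv_eq_of_mul_eq_one_right (congrArg Mo.g ((hc.mul hc).eq_one.2 h7.1))
    refine (rk_congr ?_).2 h8
    rw [li]
    change q.g * l.g * q.g⁻¹ * l.g = q.g * l.g * (q.g * l.g)
    rw [h9, mul_assoc]
  · rw [mul_assoc q, mul_assoc q]
    exact mul_mem hq (nl _ (inv_mem hq))
  · have k : ∀ {x c}, Cd x c → c ∈ LQ → x ∈ Q0 → x ∈ Q0 ∧ x * (l * x * l⁻¹) = l * x * l⁻¹ * x :=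
      fun {x c} a b hx => ⟨hx, by
        have := h5 c b
        rw [frc_eq, Nat.beq_eq] at this
        rw [li]
        exact (a.comm_iff ((hd.mul a).mul hd)).2 this⟩
    have h7 := (gen_up (K := ofMul {x | x ∈ Q0 ∧ x * (l * x * l⁻¹) = l * x * l⁻¹ * x} ⟨one_mem _, by simp⟩
      fun a ha b hb => ⟨mul_mem ha.1 hb.1, es_tw es_Q0 ll lz nl ha.1 hb.1 ha.2 hb.2⟩) (by decide)
      (fun i j a b => k (cd_t a.ne) ((tab0.2.2.2.2 i j a).1 b) b)
      (fun i j a b => k (cd_e a.ne) ((tab0.2.2.2.2 i j a).2 b) b) hq).2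
    have h8 : l * q * l⁻¹ * (l * q * l⁻¹) = q * q := by
      rw [conj_mul]
      rcases es_Q0.sq hq with e | e <;> rw [e]
      · group
      · rw [lz, mul_inv_cancel_right]
    have h9 : (l * q * l⁻¹)⁻¹ * q = q * (l * q * l⁻¹)⁻¹ := by
      rw [inv_mul_eq_iff_eq_mul, ← mul_assoc, ← h7, mul_inv_cancel_right]
    calc _ = q * ((l * q * l⁻¹)⁻¹ * q) * (l * q * l⁻¹)⁻¹ := by group
      _ = q * q * (l * q * l⁻¹ * (l * q * l⁻¹))⁻¹ := by rw [h9]; group
      _ = 1 := by rw [h8]; group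
  · obtain ⟨c, hc, h7⟩ := h6.resolve_left fun e => l1 (hd.eq_one.2 e)
    rw [frc_eq, frc_eq, eL_iff] at h7
    obtain ⟨p, hp, h8⟩ := h7
    obtain ⟨k, hk, h9⟩ := hk_spec ((aL_iff _ _).1 tab0.2.2.1 p hp)
    have a := (aL_iff _ _).1 tab0.2.2.2.1 c hc
    simp only [Bool.and_eq_true, Nat.beq_eq] at a
    have b := cd_el a.1
    refine ⟨el c, b.mem_Q0.2 a.2.1, k, hk, ?_⟩
    rw [b.inv_eq b a.2.2, li, mul_assoc (el c * l)]
    exact ((h9 ((b.mul hd).mul (b.mul hd))).eq_iff (cd_t (i := 0) (j := 2) (by decide))).2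
      (Nat.eq_of_beq_eq_true h8)

end ORB

open ORB

theorem orb1 {q : Mo} (hq : q ∈ Q0) (sq : q * q = 1) (h : rk1 q) : ∃ k ∈ H0, k * q * k⁻¹ ∈ Uw := by
  obtain ⟨k, hk, h1, -⟩ := stage1 hq
  obtain ⟨l, hl, h2⟩ := stage2 (conj_mem_of_mem_normalizer (H0_norm hk) hq)
    (by rw [conj_mul, sq]; group) (h1 h)
  exact ⟨l * k, mul_mem hl hk, by rwa [show l * k * q * (l * k)⁻¹ = l * (k * q * k⁻¹) * l⁻¹ by group]⟩

theorem orb2 {q : Mo} (hq : q ∈ Q0) (sq : q * q = 1) (h : ¬ rk1 q) : ∃ k ∈ H0, (k * q * k⁻¹).g = E 0 3 * E 1 4 ∧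
    (k * q * k⁻¹).x.1 0 4 = (k * q * k⁻¹).x.1 0 3 * (k * q * k⁻¹).x.1 1 4 := by
  obtain ⟨k, hk, -, h1⟩ := stage1 hq
  have h2 := h1 h
  by_cases e : (k * q * k⁻¹).x.1 0 4 = (k * q * k⁻¹).x.1 0 3 * (k * q * k⁻¹).x.1 1 4
  · exact ⟨k, hk, h2, e⟩
  refine ⟨t 3 4 * k, mul_mem (by decide +kernel) hk, ?_⟩
  rw [show t 3 4 * k * q * (t 3 4 * k)⁻¹ = t 3 4 * (k * q * k⁻¹) * (t 3 4)⁻¹ by group, t_inv]
  generalize k * q * k⁻¹ = r at h2 e
  have h3 : (t 3 4 * r * t 3 4).x = r.x + (wd 3 4 + ((E 0 3 * E 1 4 : GN 5) • wd 3 4)) := by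
    simp only [mul_x, mul_g, t, th, one_smul, one_mul, h2]
    abel
  have h4 : (wd 3 4 + ((E 0 3 * E 1 4 : GN 5) • wd 3 4)).1 0 4 = 1 ∧
      (wd 3 4 + ((E 0 3 * E 1 4 : GN 5) • wd 3 4)).1 0 3 = 0 ∧
      (wd 3 4 + ((E 0 3 * E 1 4 : GN 5) • wd 3 4)).1 1 4 = 0 := by decide +kernel
  refine ⟨by simp only [mul_g, t, th, one_mul, mul_one, h2], ?_⟩
  rw [h3]
  generalize wd 3 4 + ((E 0 3 * E 1 4 : GN 5) • wd 3 4) = W at h4
  simp only [AddSubgroup.coe_add, Matrix.add_apply, h4.1, h4.2.1, h4.2.2, add_zero]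
  revert e
  generalize r.x.1 0 4 = a
  generalize r.x.1 0 3 * r.x.1 1 4 = b
  revert a b
  decide

theorem g1a {j : Mo} (h : j ∈ Tz) (sq : j * j ∈ Q0) {q : Mo} (hq : q ∈ Q0) :
    rk1 (q * j * q⁻¹ * j⁻¹) ∧ q * j * q⁻¹ * j⁻¹ * (q * j * q⁻¹ * j⁻¹) = 1 := by
  obtain ⟨l, hl, ll, -, h1⟩ := red h sq
  obtain ⟨h2, h3, h4⟩ := (main hl ll).1 q hq
  rcases h1 q hq with e | e <;> rw [e]
  · exact ⟨h2, h4⟩
  · refine ⟨(rk_congr (mul_one _)).2 h2, ?_⟩
    generalize q * l * q⁻¹ * l⁻¹ = c at h3 h4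
    rw [mul_assoc, ← mul_assoc z0, ← es_Q0.comm_z c h3, es_Q0.zz', h4]

theorem g1b {j : Mo} (h : j ∈ Tz) (h' : j ∉ Q0) (sq : j * j ∈ Q0) :
    ∃ q ∈ Q0, ∃ k ∈ H0, k * (q * j * q⁻¹ * j⁻¹) * k⁻¹ = w0 := by
  obtain ⟨l, hl, ll, l1, h1⟩ := red h sq
  obtain ⟨q, hq, k, hk, h2⟩ := (main hl ll).2 (l1 h')
  rcases h1 q hq with a | a
  · exact ⟨q, hq, k, hk, by rw [a, h2]⟩
  · refine ⟨q, hq, e 1 2 * k, mul_mem (by decide +kernel) hk, ?_⟩
    have h3 : e 1 2 * (w0 * z0) * e 1 2 = w0 :=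
      ((((cd_e (by decide)).mul ((cd_t (by decide)).mul (cd_t (by decide)))).mul
        (cd_e (by decide))).eq_iff (cd_t (by decide))).2 (by decide +kernel)
    rw [a, ← h3, ← h2, mul_inv_rev, e_inv]
    simp only [mul_assoc, mem_H0.1 (inv_mem hk)]

end CfsgLib.L5R
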