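import Mathlib
import Cfsg.Agent.Lib.L5R.Cj
import Cfsg.Agent.S0205
import Cfsg.Agent.Lib.AG.Basic
import Cfsg.Agent.Lib.Core.MinNormal
import Cfsg.Agent.Lib.Core.Fitting

/-!
# `V` is self-centralising and `O(N(V) / V) = 1` (plans/L5R.md)
-/

set_option autoImplicit false
set_option maxHeartbeats 400000
set_option Elab.async false

namespace CfsgLib.L5R

open Subgroup Cfsg CfsgLib.Tech CfsgLib.Held CfsgLib.MOrb CfsgLib.L72 CfsgLib.LargeExtra CfsgLib.ExtraTwo

variable {G : Type*} [Group G] [Finite G] {m : Fr G} {s : G}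

namespace Ox

theorem modEq {p : ℕ} [Fact p.Prime] {K U : Subgroup G} (hn : K ≤ normalizer (U : Set G))
    (hp : ∀ k ∈ K, ∀ u ∈ U, k ^ p * u = u * k ^ p) :
    Nat.card U ≡ Nat.card (U ⊓ centralizer (K : Set G) : Subgroup G) [MOD p] := by
  let ρ : K →* MulAut U := U.normalizerMonoidHom.comp (inclusion hn)
  have hρ : ∀ (k : K) (u : U), ((ρ k u : U) : G) = k * u * (k : G)⁻¹ := fun k u => rfl
  have hP : IsPGroup p ρ.range := by
    rintro ⟨_, k, rfl⟩
    refine ⟨1, Subtype.ext ?_⟩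
    change ρ k ^ p ^ 1 = 1
    rw [pow_one, ← map_pow]
    ext u
    rw [hρ]
    change (k : G) ^ p * u * ((k : G) ^ p)⁻¹ = u
    rw [hp k k.2 u u.2, mul_inv_cancel_right]
  refine (hP.card_modEq_card_fixedPoints U).trans (Eq.subst (motive := fun n => _ ≡ n [MOD p]) ?_ rfl)
  refine Nat.card_congr ⟨fun x => ⟨x.1, x.1.2, fun k hk => ?_⟩, fun x => ⟨⟨x.1, x.2.1⟩, ?_⟩, fun _ => rfl, fun _ => rfl⟩
  · have := congrArg Subtype.val (x.2 ⟨ρ ⟨k, hk⟩, ⟨k, hk⟩, rfl⟩)
    exact mul_inv_eq_iff_eq_mul.1 this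
  · rintro ⟨_, k, rfl⟩
    exact Subtype.ext (mul_inv_eq_iff_eq_mul.2 (x.2.2 k k.2))

theorem num {p j : ℕ} (hp : p.Prime) (h : 2 ^ 11 ≡ 1 [MOD p]) (hj : j < 11) (h' : 2 ^ j ≡ 1 [MOD p]) : j = 0 := by
  by_contra h0
  have a := (Nat.modEq_iff_dvd' (by norm_num)).1 h.symm
  have b := (Nat.modEq_iff_dvd' Nat.one_le_two_pow).1 h'.symm
  have c := Nat.dvd_gcd a b
  have : Nat.gcd (2 ^ 11 - 1) (2 ^ j - 1) = 1 := by interval_cases j <;> first | exact absurd rfl h0 | norm_num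
  exact hp.one_lt.ne' (Nat.dvd_one.1 (this ▸ c))

theorem four {X : Type*} [Group X] {O : Subgroup X} [hO : O.Normal] (hc : ∀ x ∈ O, ∀ y ∈ O, x * y = y * x)
    (h1 : O ≠ ⊥) {a b : X} (ha : a * a = 1) (hb : b * b = 1) :
    ∃ k ∈ O, k ≠ 1 ∧ (a * k = k * a ∨ b * k = k * b ∨ a * b * k = k * (a * b)) := by
  by_contra H
  push Not at H
  have key : ∀ c : X, c * c = 1 → (∀ k ∈ O, k ≠ 1 → c * k ≠ k * c) → ∀ k ∈ O, c * k * c⁻¹ = k⁻¹ := by
    intro c hc2 hk k hkO
    have m1 := hO.conj_mem k hkO c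
    by_contra ne
    refine hk (k * (c * k * c⁻¹)) (mul_mem hkO m1) (fun e => ne (eq_inv_of_mul_eq_one_right e)) ?_
    have ci : c⁻¹ = c := inv_eq_of_mul_eq_one_right hc2
    rw [hc k hkO _ m1, ci]
    calc c * (c * k * c * k) = c * c * (k * c * k) := by group
      _ = k * c * k * (c * c) := by rw [hc2, one_mul, mul_one]
      _ = k * (c * k * c) * c := by group
      _ = c * k * c * k * c := by have := hc k hkO _ m1; rw [ci] at this; rw [this]
  obtain ⟨⟨k, hk⟩, k1⟩ := ne_bot_iff_exists_ne_one.1 h1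
  have k1' : k ≠ 1 := fun e => k1 (Subtype.ext e)
  have e1 := key a ha (fun k hk h => (H k hk h).1) _ (inv_mem hk)
  have e2 := key b hb (fun k hk h => (H k hk h).2.1) _ hk
  refine (H k hk k1').2.2 ?_
  calc a * b * k = a * (b * k * b⁻¹) * a⁻¹ * (a * b) := by group
    _ = k * (a * b) := by rw [e2, e1, inv_inv]

theorem V_comm (h : SX m s) {x y : G} (hx : x ∈ m.V s) (hy : y ∈ m.V s) : x * y = y * x := by
  have a := h.V_sq _ (mul_mem hx hy)
  have ix : x⁻¹ = x := inv_eq_of_mul_eq_one_right (h.V_sq _ hx)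
  have iy : y⁻¹ = y := inv_eq_of_mul_eq_one_right (h.V_sq _ hy)
  rw [← inv_eq_of_mul_eq_one_right a, mul_inv_rev, ix, iy]

theorem V_two (h : SX m s) : IsPGroup 2 (m.V s) := IsPGroup.of_card h.card_V

theorem z_mem {W : Subgroup G} (h : SX m s) (hW : W ≤ m.V s) (h1 : W ≠ ⊥) (hn : m.S s ≤ normalizer (W : Set G)) :
    m.z ∈ W := by
  have := Core.inf_centralizer_ne_bot_of_isPGroup ((V_two h).to_le hW) h.syl.pgroup hn h1
  obtain ⟨⟨x, hx⟩, x1⟩ := ne_bot_iff_exists_ne_one.1 this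
  rcases h.cen_S (h.V_le (hW hx.1)) hx.2 with e | e
  · exact absurd (Subtype.ext e) x1
  · exact e ▸ hx.1

theorem not_V (h : SX m s) {x : Mo} (hx : x ∉ A2) : m.φ x ∉ m.V s := fun hv =>
  hx (Fr.φ_mem.1 (h.inf_N.le ⟨hv, x, rfl⟩))

theorem T_norm (h : SX m s) {x : Mo} (hx : x ∈ T0) : m.φ x ∈ normalizer (m.V s : Set G) :=
  h.S_norm (mem_sup_left (Fr.φ_mem.2 hx))

theorem Q_le (m : Fr G) (s : G) : m.Q ≤ m.S s :=
  (Fr.im_le.2 (pat_le (by decide) (by decide))).trans le_sup_left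

theorem z_V (m : Fr G) (s : G) : m.z ∈ m.V s := mem_sup_left (Fr.φ_mem.2 (by decide +kernel))

end Ox

open Ox

theorem SX.cenV (h : SX m s) (p : Pre m.Q m.z) : centralizer (m.V s : Set G) = m.V s := by
  have hVC : m.V s ≤ centralizer (m.V s : Set G) := fun x hx y hy => V_comm h hy hx
  have h1 := (h.syl.of_le h.S_norm le_top).inf_of_le_normalizer (Core.normalizer_le_normalizer_centralizer (m.V s : Set G))
  have e1 : m.S s ⊓ centralizer (m.V s : Set G) = m.V s :=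
    le_antisymm (fun x hx => h.cen_V hx.1 hx.2) (le_inf h.V_le hVC)
  rw [e1, inf_eq_right.2 (centralizer_le_normalizer _)] at h1
  have h2 := AG.sup_opr_of_central_sylow h1 le_rfl
  have h3 : AG.opr 2 (centralizer (m.V s : Set G)) = ⊥ := by
    refine eq_bot_iff.2 fun k hk => p.fpf (Nat.coprime_two_right.1 (Core.coprime_card_map_pPrimeCore _)) ?_ hk
      (AG.opr_le _ hk _ (z_V m s)).symm
    intro q hq
    rw [mem_normalizer_iff_cj, AG.cj_opr,
      mem_normalizer_iff_cj.1 (Core.normalizer_le_normalizer_centralizer _ (h.S_norm (Q_le m s hq)))]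
  rw [h3, sup_bot_eq] at h2
  exact h2.symm

theorem SX.ox (h : SX m s) (p : Pre m.Q m.z) : pPrimeCore 2 (XQ (m.V s)) = ⊥ := by
  by_contra h0
  have hodd : Odd (Nat.card (pPrimeCore 2 (XQ (m.V s)))) := Nat.coprime_two_right.1 (Core.coprime_card_pPrimeCore 2 _)
  have := Cfsg.Agent.S0205.result hodd
  obtain ⟨r, O, hr, hO, O1, hle, ⟨hc, hp⟩, -⟩ := Core.exists_elementaryAbelian_minimal_normal_le h0
  have := Fact.mk hr
  let π := QuotientGroup.mk' ((m.V s).subgroupOf (normalizer (m.V s : Set G)))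
  have hπ : ∀ x, π x = 1 ↔ (x : G) ∈ m.V s := fun x => QuotientGroup.eq_one_iff _
  let K : Subgroup G := (O.comap π).map (Subgroup.subtype _)
  have hKN : K ≤ normalizer (m.V s : Set G) := map_subtype_le _
  have hK : ∀ x : normalizer (m.V s : Set G), (x : G) ∈ K ↔ π x ∈ O := fun x =>
    mem_map_iff_mem (Subgroup.subtype_injective _)
  have hNK : normalizer (m.V s : Set G) ≤ normalizer (K : Set G) := Core.le_normalizer_map_subtype_of_normal _
  have pw : ∀ k ∈ K, k ^ r ∈ m.V s := fun k hk =>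
    (hπ (⟨k, hKN hk⟩ ^ r)).1 (by rw [map_pow]; exact hp _ ((hK ⟨k, hKN hk⟩).1 hk))
  have two : ∀ k ∈ K, ∀ n : ℕ, k ^ 2 ^ n = 1 → k ∈ m.V s := fun k hk n e => by
    refine (hπ ⟨k, hKN hk⟩).1 ?_
    have a : π ⟨k, hKN hk⟩ ^ 2 ^ n = 1 := by
      rw [← map_pow, show (⟨k, hKN hk⟩ : normalizer (m.V s : Set G)) ^ 2 ^ n = 1 from Subtype.ext e, map_one]
    have b := orderOf_dvd_natCard _ (hle ((hK ⟨k, hKN hk⟩).1 hk))
    exact orderOf_eq_one_iff.1 (Nat.eq_one_of_dvd_coprimes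
      ((Nat.coprime_two_right.2 hodd).pow_right n) b (orderOf_dvd_of_pow_eq_one a))
  have cardU : ∀ U : Subgroup G, U ≤ m.V s → U ≠ m.V s → ∃ j < 11, Nat.card U = 2 ^ j := fun U hU ne => by
    obtain ⟨j, hj, e⟩ := (Nat.dvd_prime_pow Nat.prime_two).1 (h.card_V ▸ card_dvd_of_le hU)
    refine ⟨j, lt_of_le_of_ne hj fun e' => ne (eq_of_le_of_card_ge hU ?_), e⟩
    rw [e, e', h.card_V]
  by_cases hC : m.V s ⊓ centralizer (K : Set G) = ⊥
  · have m1 := modEq (p := r) hKN fun k hk u hu => V_comm h (pw k hk) hu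
    rw [hC, card_bot, h.card_V] at m1
    have fpf : ∀ k ∈ K, k ∉ m.V s → m.V s ⊓ centralizer (zpowers k : Set G) = ⊥ := fun k hk hkV => by
      obtain ⟨j, hj, e⟩ := cardU (m.V s ⊓ centralizer (zpowers k : Set G)) inf_le_left fun e =>
        hkV ((h.cenV p).le fun v hv => ((e.ge hv).2 k (mem_zpowers k)).symm)
      have m2 := modEq (p := r) ((zpowers_le.2 hk).trans hKN) fun k' hk' u hu => V_comm h (pw k' (zpowers_le.2 hk hk')) hu
      rw [e, h.card_V] at m2
      rw [num hr m1 hj (m2.symm.trans m1)] at e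
      exact card_eq_one.1 e
    have fin : ∀ (x : Mo) (hx : x ∈ T0), x ∉ A2 → ∀ k ∈ O, k ≠ 1 →
        π ⟨m.φ x, T_norm h hx⟩ * k ≠ k * π ⟨m.φ x, T_norm h hx⟩ := by
      intro x hx hxA k hk k1 ec
      obtain ⟨k, rfl⟩ : ∃ k', π k' = k := QuotientGroup.mk'_surjective _ k
      have hk' := (hK k).2 hk
      have hv : (k : G)⁻¹ * m.φ x * k * (m.φ x)⁻¹ ∈ m.V s :=
        (hπ (k⁻¹ * ⟨m.φ x, T_norm h hx⟩ * k * (⟨m.φ x, T_norm h hx⟩)⁻¹)).1 (by
          rw [map_mul, map_mul, map_mul, map_inv, map_inv, mul_assoc _ _ (π k), ec]; group)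
      obtain ⟨j, hj, e⟩ := cardU (m.V s ⊓ centralizer ({m.φ x} : Set G)) inf_le_left fun e =>
        not_V h hxA ((h.cenV p).le fun v hv => mem_centralizer_singleton_iff.1 (e.ge hv).2)
      have nU : (k : G) ∈ normalizer ((m.V s ⊓ centralizer ({m.φ x} : Set G) : Subgroup G) : Set G) :=
        mem_normalizer_of_forall fun u hu => ⟨conj_mem_of_mem_normalizer k.2 hu.1, mem_centralizer_singleton_iff.2 (by
          have a := mem_centralizer_singleton_iff.1 hu.2
          have b := V_comm h hv hu.1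
          calc (k : G) * u * (k : G)⁻¹ * m.φ x = k * (u * ((k : G)⁻¹ * m.φ x * k * (m.φ x)⁻¹) * m.φ x) * (k : G)⁻¹ := by group
            _ = k * ((k : G)⁻¹ * m.φ x * k * (m.φ x)⁻¹ * (u * m.φ x)) * (k : G)⁻¹ := by rw [← b]; group
            _ = m.φ x * (k * u * (k : G)⁻¹) := by rw [a]; group)⟩
      have m2 := modEq (p := r) (zpowers_le.2 nU) fun k' hk'' u hu => V_comm h (pw k' (zpowers_le.2 hk' hk'')) hu.1
      rw [e, eq_bot_iff.2 ((inf_le_inf_right _ inf_le_left).trans (fpf k hk' (mt (hπ k).2 k1)).le), card_bot] at m2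
      rw [num hr m1 hj m2] at e
      have hz : m.z ∈ m.V s ⊓ centralizer ({m.φ x} : Set G) :=
        ⟨z_V m s, mem_centralizer_singleton_iff.2 (Fr.mem_H.1 (h.st.zc (mem_sup_left (Fr.φ_mem.2 hx)))).symm⟩
      exact p.es.ne_one (mem_bot.1 ((card_eq_one.1 e).le hz))
    have sq : ∀ (i : Fin 5) (hx : L5R.e i 4 ∈ T0), π ⟨m.φ (L5R.e i 4), T_norm h hx⟩ * π ⟨m.φ (L5R.e i 4), T_norm h hx⟩ = 1 :=
      fun i hx => by
        rw [← map_mul, hπ]
        change m.φ _ * m.φ _ ∈ _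
        rw [← map_mul, e_sq, map_one]; exact one_mem _
    obtain ⟨k, hk, k1, e | e | e⟩ := four (O := O) (fun x hx y hy => congrArg Subtype.val (hc.1.1 ⟨x, hx⟩ ⟨y, hy⟩)) O1
      (sq 0 (by decide +kernel)) (sq 1 (by decide +kernel))
    · exact fin (L5R.e 0 4) (by decide +kernel) (by decide +kernel) k hk k1 e
    · exact fin (L5R.e 1 4) (by decide +kernel) (by decide +kernel) k hk k1 e
    · refine fin (L5R.e 0 4 * L5R.e 1 4) (by decide +kernel) (by decide +kernel) k hk k1 ?_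
      rw [← map_mul] at e
      convert e using 3 <;> exact Subtype.ext (map_mul _ _ _)
  · have hz := z_mem h inf_le_left hC (h.S_norm.trans fun g hg => mem_normalizer_of_forall fun u hu =>
      ⟨conj_mem_of_mem_normalizer hg hu.1,
        conj_mem_of_mem_normalizer (Core.normalizer_le_normalizer_centralizer _ (hNK hg)) hu.2⟩)
    have kz : ∀ k ∈ K, k * m.z = m.z * k := hz.2
    have qk : ∀ k ∈ K, ∀ q ∈ m.Q, k * q * k⁻¹ * q⁻¹ ∈ m.V s ⊓ m.Q := fun k hk q hq => by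
      have a : k * q * k⁻¹ * q⁻¹ ∈ m.Q := mul_mem (p.norm k (kz k hk) q hq) (inv_mem hq)
      refine ⟨two _ ?_ 2 (p.es.pow_four a), a⟩
      have := mul_mem hk (conj_mem_of_mem_normalizer (hNK (h.S_norm (Q_le m s hq))) (inv_mem hk))
      simpa only [mul_assoc] using this
    have wk : ∀ k ∈ K, ∀ w ∈ m.V s ⊓ m.Q, k * k * w * (k * k)⁻¹ = w := fun k hk w hw => by
      have hw' : k * w * k⁻¹ ∈ m.V s := conj_mem_of_mem_normalizer (hKN hk) hw.1
      have zc : ∀ ζ, ζ = 1 ∨ ζ = m.z → ∀ x, x * m.z = m.z * x → x * ζ = ζ * x := by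
        rintro _ (rfl | rfl) x hx
        exacts [by simp, hx]
      have c : ∀ q ∈ m.Q, q * (w⁻¹ * (k * w * k⁻¹)) = w⁻¹ * (k * w * k⁻¹) * q := fun q hq => by
        have a := qk k hk q hq
        have b := p.es.commutator hw.2 hq
        have c1 := zc _ b k (kz k hk)
        have c2 := zc _ b _ (p.es.comm_z _ a.2)
        have c3 := V_comm h hw' a.1
        generalize hu : k * q * k⁻¹ * q⁻¹ = u at c2 c3
        have e1 : k * q * k⁻¹ = u * q := by rw [← hu]; group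
        have e2 : u * (k * w * k⁻¹ * q * (k * w * k⁻¹)⁻¹ * q⁻¹) = u * (w * q * w⁻¹ * q⁻¹) := by
          calc u * (k * w * k⁻¹ * q * (k * w * k⁻¹)⁻¹ * q⁻¹)
              = u * (k * w * k⁻¹) * q * (k * w * k⁻¹)⁻¹ * (u * q)⁻¹ * u := by group
            _ = k * w * k⁻¹ * (u * q) * (k * w * k⁻¹)⁻¹ * (u * q)⁻¹ * u := by rw [← c3]; group
            _ = k * (w * q * w⁻¹ * q⁻¹) * k⁻¹ * u := by rw [← e1]; group
            _ = u * (w * q * w⁻¹ * q⁻¹) := by rw [c1, c2]; group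
        have e3 := mul_right_cancel (mul_left_cancel e2)
        calc q * (w⁻¹ * (k * w * k⁻¹)) = w⁻¹ * (w * q * w⁻¹) * (k * w * k⁻¹) := by group
          _ = w⁻¹ * (k * w * k⁻¹) * q := by rw [← e3]; group
      have d := p.cent _ c
      have d1 := zc _ d k (kz k hk)
      have d2 : w⁻¹ * (k * w * k⁻¹) * (w⁻¹ * (k * w * k⁻¹)) = 1 := h.V_sq _ (mul_mem (inv_mem hw.1) hw')
      calc k * k * w * (k * k)⁻¹ = k * w * k⁻¹ * (k * (w⁻¹ * (k * w * k⁻¹)) * k⁻¹) := by group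
        _ = w * (w⁻¹ * (k * w * k⁻¹) * (w⁻¹ * (k * w * k⁻¹))) := by rw [d1]; group
        _ = w := by rw [d2, mul_one]
    have all : ∀ k ∈ K, k ∈ m.V s := fun k hk => by
      have hk2 := mul_mem hk hk
      have c : ∀ q ∈ m.Q, q * (k * k * (k * k)) = k * k * (k * k) * q := fun q hq => by
        have a := qk _ hk2 q hq
        have b := wk k hk _ a
        have d := h.V_sq _ a.1
        symm
        calc k * k * (k * k) * q = k * k * (k * k * q * (k * k)⁻¹ * q⁻¹) * (k * k)⁻¹ * (k * k * q * (k * k)⁻¹ * q⁻¹) * q * (k * k * (k * k)) := by group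
          _ = q * (k * k * (k * k)) := by rw [b, d, one_mul]
      refine two k hk 3 ?_
      rw [show k ^ 2 ^ 3 = k * k * (k * k) * (k * k * (k * k)) by simp [pow_succ, mul_assoc]]
      rcases p.cent _ c with e | e <;> rw [e]
      exacts [one_mul _, p.es.mul_self]
    refine O1 (eq_bot_iff.2 fun k hk => ?_)
    obtain ⟨k, rfl⟩ := QuotientGroup.mk'_surjective _ k
    exact (hπ k).2 (all _ ((hK k).2 hk))

theorem SX.irr (h : SX m s) (hX : IsSimpleGroup (XQ (m.V s)))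
    (hN : ¬ normalizer (m.V s : Set G) ≤ normalizer (m.im A2 : Set G)) {W : Subgroup G} (hW : W ≤ m.V s)
    (hn : normalizer (m.V s : Set G) ≤ normalizer (W : Set G)) : W = ⊥ ∨ W = m.V s := by
  by_cases h1 : W = ⊥
  · exact Or.inl h1
  right
  have hz := z_mem h hW h1 (h.S_norm.trans hn)
  have n1 : N1 ≤ normalizer (W.comap m.φ : Set Mo) := fun x hx =>
    mem_normalizer_iff.2 fun y => by
      change m.φ y ∈ W ↔ m.φ (x * y * x⁻¹) ∈ W
      rw [map_mul, map_mul, map_inv]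
      exact mem_normalizer_iff.1 (hn (h.N1_norm (Fr.φ_mem.2 hx))) _
  have hZ : Z0 ≤ W.comap m.φ := irr_Z0 n1 hz
  have hA : W.comap m.φ ≤ A2 := fun x hx => Fr.φ_mem.1 (h.inf_N.le ⟨hW hx, x, rfl⟩)
  rcases irr_A2 n1 hZ hA with e | e
  · exfalso
    have hWZ : W = m.im Z0 := by
      refine le_antisymm (fun x hx => ?_) (map_le_iff_le_comap.2 hZ)
      rcases h.mem_V.1 (hW hx) with ⟨a, -, rfl⟩ | ⟨a, -, ea⟩
      · exact Fr.φ_mem.2 (e.le hx)
      exfalso
      have hy : m.φ (t 0 4) ∈ normalizer (W : Set G) := hn (T_norm h (by decide +kernel))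
      have h2 := mul_mem (conj_mem_of_mem_normalizer hy hx) (inv_mem hx)
      have h3 : m.φ a * (m.φ (t 0 4))⁻¹ * (m.φ a)⁻¹ ∈ m.A :=
        conj_mem_of_mem_normalizer (m.range.le ⟨a, rfl⟩) (inv_mem (Fr.φ_mem.2 (by decide +kernel)))
      obtain ⟨b, hb, eb⟩ := h.swap.le (conj_mem_cj.2 h3)
      have ex : x = s * m.φ a := by rw [ea, ← mul_assoc, h.sq, one_mul]
      have h4 : m.φ (t 0 4 * b) ∈ W := by
        rw [map_mul, eb]
        convert h2 using 1
        rw [ex]; group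
      have h5 : t 0 4 * b ∈ A1 := (inf01.ge.trans inf_le_right) (e.le h4)
      exact absurd ((mul_mem_cancel_right hb).1 h5) (by decide +kernel)
    rw [hWZ] at hn
    let C : Subgroup (normalizer (m.V s : Set G)) := (centralizer (m.im Z0 : Set G)).subgroupOf _
    have cn : C.Normal := ⟨fun x hx g => mem_subgroupOf.2 (conj_mem_of_mem_normalizer
      (Core.normalizer_le_normalizer_centralizer _ (hn g.2)) (mem_subgroupOf.1 hx))⟩
    have hVC : (m.V s).subgroupOf _ ≤ C := fun x hx y hy => V_comm h (hW (hWZ.ge hy)) hx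
    have hR : ∀ x : Mo, m.φ x ∈ centralizer (m.im Z0 : Set G) ↔ x ∈ R0 := fun x => by
      rw [← cen_Z0]
      exact ⟨fun k a ha => m.inj (by rw [map_mul, map_mul]; exact k _ (Fr.φ_mem.2 ha)),
        fun k _ ⟨a, ha, e⟩ => by rw [← e, ← map_mul, ← map_mul, k a ha]⟩
    have cm : ∀ x, QuotientGroup.mk' ((m.V s).subgroupOf (normalizer (m.V s : Set G))) x ∈
        C.map (QuotientGroup.mk' _) → x ∈ C := fun x hx => by
      rwa [← mem_comap, comap_map_eq, QuotientGroup.ker_mk', sup_eq_left.2 hVC] at hx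
    rcases hX.eq_bot_or_eq_top_of_normal _ (cn.map _ (QuotientGroup.mk'_surjective _)) with e' | e'
    · have : (⟨m.φ (L5R.e 0 4), T_norm h (by decide +kernel)⟩ : normalizer (m.V s : Set G)) ∈ C :=
        (hR _).2 (by decide +kernel)
      exact not_V h (x := L5R.e 0 4) (by decide +kernel)
        (mem_subgroupOf.1 ((QuotientGroup.eq_one_iff _).1 (mem_bot.1 (e'.le (mem_map_of_mem _ this)))))
    · have := cm ⟨m.φ (L5R.e 0 1), T_norm h (by decide +kernel)⟩ (e'.ge (mem_top _))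
      exact absurd ((hR _).1 this) (by decide +kernel)
  · have hA' : m.im A2 ≤ W := map_le_iff_le_comap.2 e.ge
    by_cases hs : s ∈ W
    · exact le_antisymm hW (sup_le hA' (zpowers_le.2 hs))
    · refine absurd ?_ hN
      have : W = m.im A2 := le_antisymm (fun x hx => (h.mem_V.1 (hW hx)).resolve_right fun k =>
        hs ((mul_mem_cancel_right hx).1 (hA' k))) hA'
      exact this ▸ hn


end CfsgLib.L5R
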