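import Mathlib
import Cfsg.Agent.Lib.L5R.Bas2

/-!
# the group `D0` in the model (plans/L5R.md)
-/

set_option autoImplicit false
set_option maxHeartbeats 400000
set_option Elab.async false

namespace CfsgLib.L5R

open Subgroup Cfsg CfsgLib.Tech CfsgLib.Held CfsgLib.MOrb CfsgLib.L72 CfsgLib.LargeExtra CfsgLib.ExtraTwo

namespace Psm

theorem cd_ite {m : Mo} {c : ℕ} (h : Cd m c) (p : Prop) [Decidable p] :
    Cd (if p then m else 1) (cond (decide p) c oneC) := by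
  by_cases k : p <;> simp only [k, if_true, if_false, decide_true, decide_false, cond_true, cond_false]
  exacts [h, cd_one]

/-- the code of `mu v` -/
noncomputable def mc (v : Fin 4 → ZMod 2) : ℕ :=
  mulC (mulC (mulC (cond (decide (v 0 = 1)) (tC 0 3) oneC) (cond (decide (v 1 = 1)) (tC 0 4) oneC))
    (cond (decide (v 2 = 1)) (eC 0 3) oneC)) (cond (decide (v 3 = 1)) (eC 0 4) oneC)

theorem ct (i j : Fin 5) (h : i ≠ j := by decide) : Cd (t i j) (tC i j) := cd_t h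
theorem ce (i j : Fin 5) (h : i ≠ j := by decide) : Cd (e i j) (eC i j) := cd_e h
theorem cn (i j : Fin 5) (h : i ≠ j := by decide) : Cd (n i j) (nC i j) := cd_n h

theorem cd_mu (v : Fin 4 → ZMod 2) : Cd (mu v) (mc v) :=
  (((cd_ite (ct 0 3) _).mul (cd_ite (ct 0 4) _)).mul (cd_ite (ce 0 3) _)).mul (cd_ite (ce 0 4) _)

/-- the code of `n 0 1 * mu v * n 0 1` -/
noncomputable def nc (v : Fin 4 → ZMod 2) : ℕ := mulC (mulC (nC 0 1) (mc v)) (nC 0 1)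

theorem cd_nu (v : Fin 4 → ZMod 2) : Cd (n 0 1 * mu v * n 0 1) (nc v) := ((cn 0 1).mul (cd_mu v)).mul (cn 0 1)

/-- four bits of a code -/
def bv (c a₀ a₁ a₂ a₃ : ℕ) : Fin 4 → ZMod 2 := fun i =>
  cond (c.testBit (cond (Nat.ble i.val 1) (cond (Nat.ble i.val 0) a₀ a₁) (cond (Nat.ble i.val 2) a₂ a₃))) 1 0

theorem mu_sq (v : Fin 4 → ZMod 2) : mu v * mu v = 1 :=
  ((cd_mu v).mul (cd_mu v)).eq_one.2 (by revert v; decide +kernel)

theorem nu_sq (v : Fin 4 → ZMod 2) : n 0 1 * mu v * n 0 1 * (n 0 1 * mu v * n 0 1) = 1 :=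
  ((cd_nu v).mul (cd_nu v)).eq_one.2 (by revert v; decide +kernel)

theorem mem_cj_iff {g g' x : Mo} {a b c : ℕ} (h1 : g * g' = 1) (ha : Cd g a) (hb : Cd g' b) (hc : Cd x c) :
    x ∈ Q0 ⊓ cj g Q0 ↔ and (inM 0x3fff8c7ce7000 c) (inM 0x3fff8c7ce7000 (mulC (mulC b c) a)) = true := by
  rw [mem_inf, mem_cj, inv_eq_of_mul_eq_one_right h1, hc.mem_Q0, ((hb.mul hc).mul ha).mem_Q0, Bool.and_eq_true]

theorem en_inv : e 0 1 * n 0 2 * (n 0 2 * e 0 1) = 1 := by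
  rw [mul_assoc, ← mul_assoc (n 0 2), n_sq, one_mul, e_sq]

/-- the elements of `T0` that centralise `Uw / Z3` -/
def KK : Subgroup Mo := ofMul {x | x ∈ T0 ∧ ∀ v, x * mu v * x⁻¹ * mu v ∈ Z3}
  ⟨one_mem _, fun v => by rw [one_mul, inv_one, mul_one, mu_sq]; exact one_mem _⟩ fun a ha b hb =>
    ⟨mul_mem ha.1 hb.1, fun v => by
      have := mul_mem (conj_mem_of_mem_normalizer (T0_norm_Z3 ha.1) (hb.2 v)) (ha.2 v)
      rwa [show a * (b * mu v * b⁻¹ * mu v) * a⁻¹ * (a * mu v * a⁻¹ * mu v) =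
        a * b * mu v * b⁻¹ * (mu v * mu v) * a⁻¹ * mu v by group, mu_sq, mul_one, mul_assoc _ b⁻¹,
        ← mul_inv_rev] at this⟩

theorem mem_KK {x : Mo} {c : ℕ} (h : Cd x c) (h2 : x * x = 1) : x ∈ KK ↔ inM 0x3ef38c2000000 c = true ∧
    ∀ v, inM 0x3ffffff8c6318 (mulC (mulC (mulC c (mc v)) c) (mc v)) = true := by
  rw [← h.mem_T0]
  refine and_congr_right fun _ => forall_congr' fun v => ?_
  rw [inv_eq_of_mul_eq_one_right h2]
  exact (((h.mul (cd_mu v)).mul h).mul (cd_mu v)).mem_Z3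

theorem D0_le : D0 ≤ KK := gen_up (by decide)
  (fun i j hij k => (mem_KK (cd_t hij.ne) (t_sq i j)).2 (by
    have := (cd_t hij.ne).mem_D0.1 k
    clear k; revert i j; decide +kernel))
  (fun i j hij k => (mem_KK (cd_e hij.ne) (e_sq i j)).2 (by
    have := (cd_e hij.ne).mem_D0.1 k
    clear k; revert i j; decide +kernel))

theorem mem_D0 {x : Mo} (hx : x ∈ F0) (h1 : x.g.1 3 4 = 0) (h2 : x.x.1 3 4 = 0) : x ∈ D0 := by
  refine ⟨fun i j k => ?_, fun i j k => ?_⟩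
  · by_cases e : i = 3 ∧ j = 4
    · obtain ⟨rfl, rfl⟩ := e
      exact h1
    · exact hx.1 i j (by revert i j; decide)
  · have : i = j ∨ (i = 3 ∧ j = 4) ∨ (i = 4 ∧ j = 3) := by revert i j; decide
    rcases this with rfl | ⟨rfl, rfl⟩ | ⟨rfl, rfl⟩
    exacts [x.x.2.2 i, h2, (x.x.2.1 4 3).trans h2]

theorem mul_34 {x y : Mo} (hx : x ∈ F0) (hy : y ∈ F0) :
    (x * y).g.1 3 4 = x.g.1 3 4 + y.g.1 3 4 ∧ (x * y).x.1 3 4 = x.x.1 3 4 + y.x.1 3 4 := by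
  have h1 : ∀ j, x.g.1 4 j = (1 : Mat) 4 j := fun j => hx.1 4 j (by revert j; decide)
  have h2 : ∀ j, j ≠ 4 → x.g.1 3 j = (1 : Mat) 3 j := fun j hj => hx.1 3 j (by revert j; decide)
  have h3 : y.g.1 4 4 = 1 := hy.1 4 4 rfl
  constructor
  · change (x.g.1 * y.g.1) 3 4 = _
    simp [Matrix.mul_apply, Fin.sum_univ_five, h2, h3, add_comm]
  · change x.x.1 3 4 + (x.g.1 * y.x.1 * x.g.1.transpose) 3 4 = _
    simp [Matrix.mul_apply, Fin.sum_univ_five, h1, h2, y.x.2.2, Matrix.one_apply]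

end Psm

open Psm

theorem mem_Uw {x : Mo} : x ∈ Uw ↔ ∃ v, ∃ ζ ∈ Z3, x = mu v * ζ := by
  refine ⟨fun h => ?_, ?_⟩
  · obtain ⟨c, hc⟩ := exists_cd x
    have := hc.lp_Uw h (f := fun c => inM 0x3ffffff8c6318 (mulC (mc (bv c 3 4 28 29)) c)) (by decide +kernel)
    exact ⟨_, _, ((cd_mu _).mul hc).mem_Z3.2 this, by rw [← mul_assoc, mu_sq, one_mul]⟩
  · rintro ⟨v, ζ, h, rfl⟩
    exact mul_mem ((cd_mu v).mem_Uw.2 (by revert v; decide +kernel)) (pat_le (by decide) (by decide) h)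

theorem mu_add (u v : Fin 4 → ZMod 2) : mu (u + v) = mu u * mu v :=
  ((cd_mu _).eq_iff ((cd_mu u).mul (cd_mu v))).2 (by revert u v; decide +kernel)

theorem mu_inj {v : Fin 4 → ZMod 2} (h : mu v ∈ Z3) : v = 0 := by
  have := (cd_mu v).mem_Z3.1 h
  clear h; revert v; decide +kernel

theorem n02_z0 : n 0 2 * z0 * (n 0 2)⁻¹ = r0 := by
  rw [n_inv]
  exact ((((cn 0 2).mul (ct 0 1)).mul (cn 0 2)).eq_iff (ct 1 2)).2 (by decide +kernel)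

theorem e01_r0 : e 0 1 * r0 * (e 0 1)⁻¹ = w0 * r0 := by
  rw [e_inv]
  exact ((((ce 0 1).mul (ct 1 2)).mul (ce 0 1)).eq_iff ((ct 0 2).mul (ct 1 2))).2 (by decide +kernel)

theorem mem_Ur {x : Mo} : x ∈ Q0 ⊓ cj (n 0 2) Q0 ↔ ∃ v, ∃ ζ ∈ Z3, x = n 0 1 * mu v * n 0 1 * ζ := by
  refine ⟨fun h => ?_, ?_⟩
  · obtain ⟨c, hc⟩ := exists_cd x
    have := hc.lp_Q0 h.1 (f := fun c => imp (and (inM 0x3fff8c7ce7000 c)
      (inM 0x3fff8c7ce7000 (mulC (mulC (nC 0 2) c) (nC 0 2))))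
      (inM 0x3ffffff8c6318 (mulC (nc (bv c 8 9 33 34)) c))) (by decide +kernel)
    exact ⟨_, _, ((cd_nu _).mul hc).mem_Z3.2 ((imp_iff _ _).1 this
      ((mem_cj_iff (n_sq 0 2) (cn 0 2) (cn 0 2) hc).1 h)), by rw [← mul_assoc, nu_sq, one_mul]⟩
  · rintro ⟨v, ζ, h, rfl⟩
    obtain ⟨c, hc⟩ := exists_cd ζ
    exact mul_mem ((mem_cj_iff (n_sq 0 2) (cn 0 2) (cn 0 2) (cd_nu v)).2 (by revert v; decide +kernel))
      ((mem_cj_iff (n_sq 0 2) (cn 0 2) (cn 0 2) hc).2 (hc.lp_Z3 h (f := fun c => and (inM 0x3fff8c7ce7000 c)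
        (inM 0x3fff8c7ce7000 (mulC (mulC (nC 0 2) c) (nC 0 2)))) (by decide +kernel)))

theorem mem_Ud {x : Mo} : x ∈ Q0 ⊓ cj (e 0 1 * n 0 2) Q0 ↔ ∃ v, ∃ ζ ∈ Z3, x = mu v * (n 0 1 * mu v * n 0 1) * ζ := by
  have k := fun {x : Mo} {c : ℕ} (hc : Cd x c) => mem_cj_iff en_inv ((ce 0 1).mul (cn 0 2)) ((cn 0 2).mul (ce 0 1)) hc
  refine ⟨fun h => ?_, ?_⟩
  · obtain ⟨c, hc⟩ := exists_cd x
    have := hc.lp_Q0 h.1 (f := fun c => imp (and (inM 0x3fff8c7ce7000 c)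
      (inM 0x3fff8c7ce7000 (mulC (mulC (mulC (nC 0 2) (eC 0 1)) c) (mulC (eC 0 1) (nC 0 2)))))
      (inM 0x3ffffff8c6318 (mulC (nc (bv c 3 4 28 29)) (mulC (mc (bv c 3 4 28 29)) c)))) (by decide +kernel)
    exact ⟨_, _, ((cd_nu _).mul ((cd_mu _).mul hc)).mem_Z3.2 ((imp_iff _ _).1 this ((k hc).1 h)), by
      rw [mul_assoc, ← mul_assoc (n 0 1 * _ * _), nu_sq, one_mul, ← mul_assoc, mu_sq, one_mul]⟩
  · rintro ⟨v, ζ, h, rfl⟩
    obtain ⟨c, hc⟩ := exists_cd ζ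
    exact mul_mem ((k ((cd_mu v).mul (cd_nu v))).2 (by revert v; decide +kernel))
      ((k hc).2 (hc.lp_Z3 h (f := fun c => and (inM 0x3fff8c7ce7000 c)
        (inM 0x3fff8c7ce7000 (mulC (mulC (mulC (nC 0 2) (eC 0 1)) c) (mulC (eC 0 1) (nC 0 2))))) (by decide +kernel)))

theorem mu_indep {u v : Fin 4 → ZMod 2} (h : mu u * (n 0 1 * mu v * n 0 1) ∈ Z3) : u = 0 ∧ v = 0 := by
  have := ((cd_mu u).mul (cd_nu v)).mem_Z3.1 h
  clear h; revert u v; decide +kernel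

theorem mu_comm (u v : Fin 4 → ZMod 2) :
    mu u * (n 0 1 * mu v * n 0 1) = (n 0 1 * mu v * n 0 1) * mu u ↔ B4 u v = 0 := by
  rw [(cd_mu u).comm_iff (cd_nu v)]
  revert u v; decide +kernel

theorem cen_Z3 {q : Mo} (hq : q ∈ Q0) (h : q ∈ Y0) : ∃ u v, ∃ ζ ∈ Z3, q = mu u * (n 0 1 * mu v * n 0 1) * ζ := by
  obtain ⟨c, hc⟩ := exists_cd q
  have := hc.lp_Q0 hq (f := fun c => imp (inM 0xe739ce000000 c)
    (inM 0x3ffffff8c6318 (mulC (nc (bv c 8 9 33 34)) (mulC (mc (bv c 3 4 28 29)) c)))) (by decide +kernel)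
  exact ⟨_, _, _, ((cd_nu _).mul ((cd_mu _).mul hc)).mem_Z3.2 ((imp_iff _ _).1 this (hc.mem_Y0.1 h)), by
    rw [mul_assoc, ← mul_assoc (n 0 1 * _ * _), nu_sq, one_mul, ← mul_assoc, mu_sq, one_mul]⟩

theorem D0_mu {x : Mo} (hx : x ∈ D0) (v : Fin 4 → ZMod 2) : x * mu v * x⁻¹ * mu v ∈ Z3 := (D0_le hx).2 v

theorem F0_dec {x : Mo} (hx : x ∈ F0) : x ∈ D0 ∨ x * e 3 4 ∈ D0 ∨ x * t 3 4 ∈ D0 ∨ x * (e 3 4 * t 3 4) ∈ D0 := by
  have h1 : e 3 4 ∈ F0 := by decide +kernel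
  have h2 : t 3 4 ∈ F0 := by decide +kernel
  have h3 := mul_34 h1 h2
  have e1 : (e 3 4).g.1 3 4 = 1 ∧ (e 3 4).x.1 3 4 = 0 ∧ (t 3 4).g.1 3 4 = 0 ∧ (t 3 4).x.1 3 4 = 1 := by
    decide +kernel
  have k : ∀ a : ZMod 2, a = 0 ∨ a + 1 = 0 := by decide
  rcases k (x.g.1 3 4) with a | a <;> rcases k (x.x.1 3 4) with b | b
  · exact .inl (mem_D0 hx a b)
  · exact .inr (.inr (.inl (mem_D0 (mul_mem hx h2) (by rw [(mul_34 hx h2).1, e1.2.2.1, add_zero, a])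
      (by rw [(mul_34 hx h2).2, e1.2.2.2, b]))))
  · exact .inr (.inl (mem_D0 (mul_mem hx h1) (by rw [(mul_34 hx h1).1, e1.1, a])
      (by rw [(mul_34 hx h1).2, e1.2.1, add_zero, b])))
  · exact .inr (.inr (.inr (mem_D0 (mul_mem hx (mul_mem h1 h2))
      (by rw [(mul_34 hx (mul_mem h1 h2)).1, h3.1, e1.1, e1.2.2.1, add_zero, a])
      (by rw [(mul_34 hx (mul_mem h1 h2)).2, h3.2, e1.2.1, e1.2.2.2, zero_add, b]))))

theorem F0_mu {x : Mo} (hx : x ∈ F0) (h : ∀ v, x * mu v * x⁻¹ * mu v ∈ Z3) : x ∈ D0 := by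
  have hK : x ∈ KK := ⟨pat_le (by decide) (by decide) hx, h⟩
  have k : ∀ y, x * y ∈ D0 → y ∈ KK := fun y hy => by simpa using mul_mem (inv_mem hK) (D0_le hy)
  rcases F0_dec hx with a | a | a | a
  · exact a
  · exact absurd ((mem_KK (ce 3 4) (e_sq 3 4)).1 (k _ a)) (by decide +kernel)
  · exact absurd ((mem_KK (ct 3 4) (t_sq 3 4)).1 (k _ a)) (by decide +kernel)
  · have c := (ce 3 4).mul (ct 3 4)
    exact absurd ((mem_KK c ((c.mul c).eq_one.2 (by decide +kernel))).1 (k _ a)) (by decide +kernel)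

theorem mu_val (v : Fin 4 → ZMod 2) : e 3 4 * mu v * e 3 4 = mu (pa3.1.mulVec v) ∧
    t 3 4 * mu v * t 3 4 * mu (pa4.1.mulVec v) ∈ Z3 ∧ n 3 4 * mu v * n 3 4 = mu (pn3.1.mulVec v) := by
  rw [(((ce 3 4).mul (cd_mu v)).mul (ce 3 4)).eq_iff (cd_mu _),
    ((((ct 3 4).mul (cd_mu v)).mul (ct 3 4)).mul (cd_mu _)).mem_Z3,
    (((cn 3 4).mul (cd_mu v)).mul (cn 3 4)).eq_iff (cd_mu _)]
  revert v; decide +kernel

theorem L_mu {x : Mo} (hx : x ∈ [e 1 2, e 2 1]) (v : Fin 4 → ZMod 2) : x * mu v = mu v * x := by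
  simp only [List.mem_cons, List.not_mem_nil, or_false] at hx
  rcases hx with rfl | rfl
  · exact ((ce 1 2).comm_iff (cd_mu v)).2 (by revert v; decide +kernel)
  · exact ((ce 2 1).comm_iff (cd_mu v)).2 (by revert v; decide +kernel)

theorem cen_d4 {x : Mo} (hx : x ∈ D0) (h : x * d4 = d4 * x) : x ∈ Z3 := by
  obtain ⟨c, hc⟩ := exists_cd x
  have hd : Cd d4 (nat_lit 862156736167936) := by
    have := (ce 3 4).mul (ce 4 3)
    rwa [show mulC (eC (3 : Fin 5) (4 : Fin 5)) (eC (4 : Fin 5) (3 : Fin 5)) = nat_lit 862156736167936 by decide +kernel] at this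
  exact hc.mem_Z3.2 ((imp_iff _ _).1 (hc.lp_D0 hx (f := fun c => imp
    (Nat.beq (mulC c (nat_lit 862156736167936)) (mulC (nat_lit 862156736167936) c)) (inM 0x3ffffff8c6318 c)) (by decide +kernel))
    (Nat.beq_eq.mpr ((hc.comm_iff hd).1 h)))

theorem fix_Z3 {x : Mo} (hx : x ∈ Z3) (h : ∀ y ∈ [e 0 1, e 1 2, n 1 2], x * y = y * x) : x = 1 := by
  obtain ⟨c, hc⟩ := exists_cd x
  have := hc.lp_Z3 hx (f := fun c => imp (Nat.beq (mulC c (eC 0 1)) (mulC (eC 0 1) c))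
    (imp (Nat.beq (mulC c (eC 1 2)) (mulC (eC 1 2) c)) (imp (Nat.beq (mulC c (nC 1 2)) (mulC (nC 1 2) c))
      (Nat.beq c oneC)))) (by decide +kernel)
  simp only [imp_iff, Nat.beq_eq] at this
  exact hc.eq_one.2 (this ((hc.comm_iff (ce 0 1)).1 (h _ (by simp))) ((hc.comm_iff (ce 1 2)).1 (h _ (by simp)))
    ((hc.comm_iff (cn 1 2)).1 (h _ (by simp))))

end CfsgLib.L5R
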