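import Mathlib
import Cfsg.Agent.Lib.L5R.Defs2

/-!
# the subgroup `S₃ × S₃` of `Sp(4, 2)` (plans/L5R.md)
-/

set_option autoImplicit false
set_option maxHeartbeats 400000
set_option Elab.async false

namespace CfsgLib.L5R

open Subgroup Cfsg CfsgLib.Tech CfsgLib.Held CfsgLib.MOrb CfsgLib.L72 CfsgLib.LargeExtra CfsgLib.ExtraTwo

namespace SP4

/-- `c` is the code of `g ⊕ 0` -/
def C4 (g : GN 4) (c : ℕ) : Prop := c < 2 ^ 25 ∧ (∀ i j : Fin 4, g.1 i j = dec c i.castSucc j.castSucc) ∧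
  ∀ i, dec c i (Fin.last 4) = 0 ∧ dec c (Fin.last 4) i = 0

instance (g : GN 4) (c : ℕ) : Decidable (C4 g c) :=
  decidable_of_iff (c < 2 ^ 25 ∧ (∀ i j : Fin 4, decide (g.1 i j = dec c i.castSucc j.castSucc) = true) ∧
    ∀ i : Fin 5, (decide (dec c i (Fin.last 4) = 0) && decide (dec c (Fin.last 4) i = 0)) = true)
    (by simp only [C4, Bool.and_eq_true, decide_eq_true_eq])

variable {g h : GN 4} {c d : ℕ}

theorem C4.mul (a : C4 g c) (b : C4 h d) : C4 (g * h) (mul c d) := by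
  refine ⟨mul_lt _ _, fun i j => ?_, fun i => ?_⟩
  · rw [dec_mul, Units.val_mul, Matrix.mul_apply, Matrix.mul_apply, Fin.sum_univ_castSucc (n := 4),
      (a.2.2 _).1, zero_mul, add_zero]
    exact Finset.sum_congr rfl fun k _ => by rw [a.2.1, b.2.1]
  · simp only [dec_mul, Matrix.mul_apply, (a.2.2 _).2, (b.2.2 _).1, mul_zero, zero_mul,
      Finset.sum_const_zero, and_self]

theorem C4.eq_iff (a : C4 g c) (b : C4 h d) : g = h ↔ c = d := by
  refine ⟨fun e => dec_inj a.1 b.1 (Matrix.ext fun i j => ?_), fun e => Units.ext (Matrix.ext fun i j => ?_)⟩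
  · induction i using Fin.lastCases with
    | last => rw [(a.2.2 _).2, (b.2.2 _).2]
    | cast i =>
      induction j using Fin.lastCases with
      | last => rw [(a.2.2 _).1, (b.2.2 _).1]
      | cast j => rw [← a.2.1, ← b.2.1, e]
  · rw [a.2.1, b.2.1, e]

theorem exists_c4 (g : GN 4) : ∃ c, C4 g c := by
  refine ⟨enc (Matrix.of fun i j => if e : i.val < 4 ∧ j.val < 4 then g.1 ⟨i, e.1⟩ ⟨j, e.2⟩ else 0),
    enc_lt _, fun i j => ?_, fun i => ?_⟩ <;> simp [dec_enc]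

theorem c4_one : C4 1 266305 := by decide +kernel

theorem c4_E : ∀ {i j : Fin 4}, i ≠ j → C4 (E i j) (266305 + 2 ^ (5 * i.val + j.val)) := by
  decide +kernel

theorem C4.to (a : C4 g c) (e : c = d) : C4 g d := e ▸ a

theorem c4_sw {i j : Fin 4} (e : i ≠ j) : C4 (sw i j) (mul (mul (266305 + 2 ^ (5 * i.val + j.val))
    (266305 + 2 ^ (5 * j.val + i.val))) (266305 + 2 ^ (5 * i.val + j.val))) :=
  ((c4_E e).mul (c4_E e.symm)).mul (c4_E e)

theorem c_pa3 : C4 pa3 397379 :=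
  ((c4_E (by decide)).mul (c4_E (by decide))).to (by decide +kernel)
theorem c_pa4 : C4 pa4 266441 :=
  ((c4_E (by decide)).mul (c4_E (by decide))).to (by decide +kernel)
theorem c_pn3 : C4 pn3 139298 :=
  ((c4_sw (by decide)).mul (c4_sw (by decide))).to (by decide +kernel)
theorem c_pnu : C4 pnu 34952 :=
  ((c4_sw (by decide)).mul (c4_sw (by decide))).to (by decide +kernel)
theorem c_pd : C4 pd 143458 := (c_pa3.mul ((c_pn3.mul c_pa3).mul c_pn3)).to (by decide +kernel)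
theorem c_pw : C4 pw 35017 := (c_pa4.mul c_pnu).to (by decide +kernel)

/-- powers of codes -/
noncomputable def pw4 (c : ℕ) (k : ℕ) : ℕ := Nat.rec 266305 (fun _ r => mul r c) k

theorem C4.pow (a : C4 g c) (k : ℕ) : C4 (g ^ k) (pw4 c k) := by
  induction k with
  | zero => rw [pow_zero]; exact c4_one
  | succ k ih => rw [pow_succ]; exact ih.mul a

/-- evaluation of a word -/
noncomputable def ev (gs w : List ℕ) : ℕ := List.rec 266305 (fun i _ r => mul (gs.getD i 266305) r) w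

theorem in_ev {K : Subgroup (GN 4)} {gs : List ℕ} (h : ∀ c ∈ gs, ∃ g ∈ K, C4 g c) (w : List ℕ) :
    ∃ g ∈ K, C4 g (ev gs w) := by
  induction w with
  | nil => exact ⟨1, one_mem _, c4_one⟩
  | cons i w ih =>
    obtain ⟨g, hg, a⟩ := ih
    obtain ⟨k, hk, b⟩ : ∃ k ∈ K, C4 k (gs.getD i 266305) := by
      rw [List.getD_eq_getElem?_getD]
      cases e : gs[i]? with
      | none => exact ⟨1, one_mem _, c4_one⟩
      | some x => exact h x (List.mem_of_getElem? e)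
    exact ⟨k * g, mul_mem hk hg, b.mul a⟩

/-- the codes of `D12` -/
def L12 : List ℕ :=
  [266305, 397379, 266441, 139298, 397519, 143458, 139558, 401443, 143846, 274529, 401711, 274921]

/-- the codes of `F36` -/
def L36 : List ℕ := [266305, 397379, 266441, 139298, 34952, 397519, 143458, 100492, 139558, 301192,
  401443, 66820, 35017, 143846, 497804, 274529, 68996, 100559, 401711, 206084, 301121, 99596, 66854,
  274921, 212356, 497731, 36232, 69094, 501004, 205858, 99631, 310664, 212066, 36329, 500771, 310369]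

theorem in12 (hc : c ∈ L12) : ∃ g ∈ D12, C4 g c := by
  have e : L12 = List.map (ev [397379, 266441, 139298]) [[], [0], [1], [2], [1, 0], [2, 0], [2, 1],
    [0, 2], [2, 1, 0], [0, 2, 0], [0, 2, 1], [0, 2, 1, 0]] := by decide +kernel
  obtain ⟨w, -, rfl⟩ := List.mem_map.1 (e ▸ hc)
  refine in_ev ?_ w
  simp only [List.forall_mem_cons]
  exact ⟨⟨_, subset_closure (by simp), c_pa3⟩, ⟨_, subset_closure (by simp), c_pa4⟩,
    ⟨_, subset_closure (by simp), c_pn3⟩, by simp⟩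

theorem in36 (hc : c ∈ L36) : ∃ g ∈ F36, C4 g c := by
  have e : L36 = List.map (ev [397379, 266441, 139298, 34952]) [[], [0], [1], [2], [3], [1, 0], [2, 0],
    [3, 0], [2, 1], [3, 1], [0, 2], [3, 2], [1, 3], [2, 1, 0], [3, 1, 0], [0, 2, 0], [3, 2, 0],
    [1, 3, 0], [0, 2, 1], [3, 2, 1], [1, 3, 1], [3, 0, 2], [1, 3, 2], [0, 2, 1, 0], [3, 2, 1, 0],
    [1, 3, 1, 0], [3, 0, 2, 0], [1, 3, 2, 0], [3, 0, 2, 1], [1, 3, 2, 1], [1, 3, 0, 2],
    [3, 0, 2, 1, 0], [1, 3, 2, 1, 0], [1, 3, 0, 2, 0], [1, 3, 0, 2, 1], [1, 3, 0, 2, 1, 0]] := by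
    decide +kernel
  obtain ⟨w, -, rfl⟩ := List.mem_map.1 (e ▸ hc)
  refine in_ev ?_ w
  simp only [List.forall_mem_cons]
  exact ⟨⟨_, subset_closure (by simp), c_pa3⟩, ⟨_, subset_closure (by simp), c_pa4⟩,
    ⟨_, subset_closure (by simp), c_pn3⟩, ⟨_, subset_closure (by simp), c_pnu⟩, by simp⟩

theorem tab36 : aL L36 (fun c => aL L36 fun d => mL (mul c d) L36) = true ∧
    aL L36 (fun c => or (mL c L12) (eL L12 fun a => eL L12 fun b => Nat.beq (mul (mul a c) b) 34952)) = true := by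
  decide +kernel

theorem of36 (hg : g ∈ F36) : ∃ c ∈ L36, C4 g c := by
  have := tab36.1
  simp only [aL_iff, mL_iff] at this
  refine (closure_le (ofMul {g | ∃ c ∈ L36, C4 g c} ⟨_, by decide, c4_one⟩ ?_)).2 ?_ hg
  · rintro a ⟨c, hc, a1⟩ b ⟨d, hd, b1⟩
    exact ⟨_, this c hc d hd, a1.mul b1⟩
  · rintro _ (rfl | rfl | rfl | rfl)
    exacts [⟨_, by decide, c_pa3⟩, ⟨_, by decide, c_pa4⟩, ⟨_, by decide, c_pn3⟩, ⟨_, by decide, c_pnu⟩]

/-- the test -/
noncomputable def chk (c : ℕ) : Bool := imp (Nat.beq (mul (tr c) (mul 66820 c)) 66820)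
  (or (mL c L36) (eL L12 fun a => frc (mul a c) fun x => frc (mul x x) fun y =>
    and (not (Nat.beq y 266305)) (Nat.beq (mul y y) 266305)))

theorem tabS : allP [0, 1, 2, 3, 5, 6, 7, 8, 10, 11, 12, 13, 15, 16, 17, 18] chk 0 = true := by
  decide +kernel

theorem C4.sp (a : C4 g c) (hg : Sp4 g) : Held.mul (tr c) (Held.mul 66820 c) = 66820 := by
  refine dec_inj (mul_lt _ _) (by norm_num) (Matrix.ext fun i j => ?_)
  have J : dec 66820 = !![0, 0, 1, 0, 0; 0, 0, 0, 1, 0; 1, 0, 0, 0, 0; 0, 1, 0, 0, 0; 0, 0, 0, 0, 0] := by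
    decide +kernel
  have e : (dec (Held.mul (tr c) (Held.mul 66820 c))) i j = dec c 0 i * dec c 2 j + dec c 1 i * dec c 3 j +
      dec c 2 i * dec c 0 j + dec c 3 i * dec c 1 j := by
    rw [dec_mul, dec_mul, dec_tr, J]
    simp [Matrix.mul_apply, Fin.sum_univ_five, Matrix.vecMul, dotProduct]
  rw [e]
  clear e
  induction i using Fin.lastCases with
  | last => simp only [(a.2.2 _).1, zero_mul, add_zero]; revert j; decide +kernel
  | cast i =>
    induction j using Fin.lastCases with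
    | last => simp only [(a.2.2 _).1, mul_zero, add_zero]; revert i; decide +kernel
    | cast j =>
      have h2 : B4 (Pi.single i 1) (Pi.single j 1) = dec 66820 i.castSucc j.castSucc := by
        revert i j; decide +kernel
      have h1 := hg (Pi.single i 1) (Pi.single j 1)
      rw [← h2, ← h1, B4]
      simp only [Matrix.mulVec_single_one, Matrix.col_apply, a.2.1]
      rfl

end SP4

open SP4

theorem sp4 {g : GN 4} (hg : Sp4 g) : g ∈ F36 ∨ ∃ a ∈ D12, (a * g) ^ 2 ≠ 1 ∧ (a * g) ^ 4 = 1 := by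
  obtain ⟨c, a⟩ := exists_c4 g
  have h1 := allP_sound (n := c) tabS fun k hk => by
    rw [Nat.zero_testBit]
    by_cases h4 : k < 25
    · obtain ⟨i, j, rfl⟩ := bit_of_lt h4
      have h5 : i = Fin.last 4 ∨ j = Fin.last 4 := by revert i j; decide
      have h6 : dec c i j = 0 := by
        rcases h5 with rfl | rfl
        exacts [(a.2.2 _).2, (a.2.2 _).1]
      cases e : c.testBit (5 * i.val + j.val)
      · rfl
      · simp [dec, e] at h6
    · exact bit_high a.1 h4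
  simp only [chk, imp_iff, Nat.beq_eq, Bool.or_eq_true, mL_iff, eL_iff, frc_eq, Bool.and_eq_true,
    Bool.not_eq_true', ← Bool.not_eq_true] at h1
  rcases h1 (a.sp hg) with h2 | ⟨d, hd, h2, h3⟩
  · obtain ⟨k, hk, b⟩ := in36 h2
    exact .inl ((a.eq_iff b).2 rfl ▸ hk)
  · obtain ⟨k, hk, b⟩ := in12 hd
    have h4 := (b.mul a).mul (b.mul a)
    refine .inr ⟨k, hk, fun e => h2 ((h4.eq_iff c4_one).1 (by rwa [← sq])), ?_⟩
    rw [show (k * g) ^ 4 = k * g * (k * g) * (k * g * (k * g)) by simp only [pow_succ, pow_zero, one_mul, mul_assoc]]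
    exact ((h4.mul h4).eq_iff c4_one).2 h3

theorem f36 {g : GN 4} (hg : g ∈ F36) : g ∈ D12 ∨ ∃ a ∈ D12, ∃ b ∈ D12, a * g * b = pnu := by
  obtain ⟨c, hc, a⟩ := of36 hg
  have := tab36.2
  simp only [aL_iff, mL_iff, eL_iff, Bool.or_eq_true, Nat.beq_eq] at this
  rcases this c hc with h | ⟨x, hx, y, hy, h⟩
  · obtain ⟨k, hk, b⟩ := in12 h
    exact .inl ((a.eq_iff b).2 rfl ▸ hk)
  · obtain ⟨k, hk, b⟩ := in12 hx
    obtain ⟨l, hl, b'⟩ := in12 hy
    exact .inr ⟨k, hk, l, hl, (((b.mul a).mul b').eq_iff c_pnu).2 h⟩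

theorem pw_three : pw ^ 3 = 1 := ((c_pw.pow 3).eq_iff c4_one).2 (by decide +kernel)

theorem pd_three : pd ^ 3 = 1 := ((c_pd.pow 3).eq_iff c4_one).2 (by decide +kernel)

theorem pd_pw : pd * pw = pw * pd := ((c_pd.mul c_pw).eq_iff (c_pw.mul c_pd)).2 (by decide +kernel)

theorem mem_O9 {g : GN 4} : g ∈ O9 ↔ ∃ i j : ℕ, g = pd ^ i * pw ^ j := by
  refine ⟨fun hg => ?_, ?_⟩
  · refine (closure_le (ofMul {g | ∃ i j : ℕ, g = pd ^ i * pw ^ j} ⟨0, 0, by simp⟩ ?_)).2 ?_ hg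
    · rintro _ ⟨i, j, rfl⟩ _ ⟨k, l, rfl⟩
      refine ⟨i + k, j + l, ?_⟩
      rw [pow_add, pow_add, mul_assoc, mul_assoc, ← mul_assoc (pw ^ j), ← mul_assoc (pd ^ k),
        (Commute.pow_pow (show Commute pd pw from pd_pw) k j).eq]
    · rintro _ (rfl | rfl)
      exacts [⟨1, 0, by simp⟩, ⟨0, 1, by simp⟩]
  · rintro ⟨i, j, rfl⟩
    exact mul_mem (pow_mem (subset_closure (by simp)) i) (pow_mem (subset_closure (by simp)) j)

theorem card_O9 : Nat.card O9 = 9 := by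
  have inj : ∀ p q : Fin 3 × Fin 3, Held.mul (pw4 143458 p.1) (pw4 35017 p.2) =
      Held.mul (pw4 143458 q.1) (pw4 35017 q.2) → p = q := by decide +kernel
  rw [← Nat.card_eq_of_bijective (fun p : Fin 3 × Fin 3 =>
    (⟨pd ^ p.1.val * pw ^ p.2.val, mem_O9.2 ⟨_, _, rfl⟩⟩ : O9)) ⟨fun p q e => inj p q
      ((((c_pd.pow _).mul (c_pw.pow _)).eq_iff ((c_pd.pow _).mul (c_pw.pow _))).1
        (congrArg Subtype.val e)), fun ⟨g, hg⟩ => ?_⟩]
  · simp
  · obtain ⟨i, j, rfl⟩ := mem_O9.1 hg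
    refine ⟨(⟨i % 3, Nat.mod_lt _ (by norm_num)⟩, ⟨j % 3, Nat.mod_lt _ (by norm_num)⟩), Subtype.ext ?_⟩
    change pd ^ (i % 3) * pw ^ (j % 3) = _
    rw [← pow_eq_pow_mod i pd_three, ← pow_eq_pow_mod j pw_three]

theorem pa4_pw : pa4 * pw * pa4⁻¹ = pw⁻¹ := by
  rw [mul_inv_eq_iff_eq_mul, eq_inv_mul_iff_mul_eq]
  exact ((c_pw.mul (c_pa4.mul c_pw)).eq_iff c_pa4).2 (by decide +kernel)

theorem pa3_pw : pa3 * pw * pa3⁻¹ = pw := by
  rw [mul_inv_eq_iff_eq_mul]
  exact ((c_pa3.mul c_pw).eq_iff (c_pw.mul c_pa3)).2 (by decide +kernel)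

theorem pn3_pw : pn3 * pw * pn3⁻¹ = pw := by
  rw [mul_inv_eq_iff_eq_mul]
  exact ((c_pn3.mul c_pw).eq_iff (c_pw.mul c_pn3)).2 (by decide +kernel)

theorem pa4_sq : pa4 * pa4 = 1 := ((c_pa4.mul c_pa4).eq_iff c4_one).2 (by decide +kernel)

theorem pnu_val : pnu.1.mulVec ![1, 0, 0, 0] = ![0, 0, 0, 1] ∧ pnu.1.mulVec ![0, 1, 0, 0] = ![0, 0, 1, 0] := by
  rw [show pnu.1 = Matrix.of fun i j => dec 34952 i.castSucc j.castSucc from Matrix.ext c_pnu.2.1]
  decide +kernel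

end CfsgLib.L5R
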