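import Mathlib
import Cfsg.Agent.Lib.L5R.Nr

/-!
# normalising the element that interchanges `A` and `A1` (plans/L5R.md)
-/

set_option autoImplicit false
set_option maxHeartbeats 400000
set_option Elab.async false

namespace CfsgLib.L5R

open Subgroup Cfsg CfsgLib.Tech CfsgLib.Held CfsgLib.MOrb CfsgLib.L72 CfsgLib.LargeExtra CfsgLib.ExtraTwo

variable {G : Type*} [Group G] [Finite G] {m : Fr G}

namespace Sxa

/-- the last column of the module part -/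
def cu (x : Mo) : Fin 5 → ZMod 2 := fun i => x.x.1 i 4
/-- the last column of the linear part -/
def cv (x : Mo) : Fin 5 → ZMod 2 := fun i => x.g.1 i 4 + (1 : Mat) i 4
/-- `θ(w ∧ e₄)` -/
def tw (w : Fin 5 → ZMod 2) : Mo := th (wv w (Pi.single 4 1))

variable {x y : Mo} {w : Fin 5 → ZMod 2}

theorem R0_N1 : R0 ≤ N1 := pat_le (by decide) (by decide)
theorem A0_R0 : A0 ≤ R0 := pat_le (by decide) (by decide)
theorem A1_R0 : A1 ≤ R0 := pat_le (by decide) (by decide)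
theorem two (w : Fin 5 → ZMod 2) : w + w = 0 := by ext i; exact CharTwo.add_self_eq_zero _

theorem cu4 (x : Mo) : cu x 4 = 0 := x.x.2.2 4
theorem row4 (h : x ∈ N1) (j : Fin 5) : x.g.1 4 j = (1 : Mat) 4 j := h.1 4 j rfl
theorem cv4 (h : x ∈ N1) : cv x 4 = 0 := by rw [cv, row4 h]; exact CharTwo.add_self_eq_zero _

theorem R_fix (h : x ∈ R0) (hw : w 4 = 0) : x.g.1.mulVec w = w := by
  conv_rhs => rw [← Matrix.one_mulVec w]
  ext i
  change ∑ j, x.g.1 i j * w j = ∑ j, (1 : Mat) i j * w j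
  refine Finset.sum_congr rfl fun j _ => ?_
  by_cases e : j = 4
  · simp [e, hw]
  · exact congrArg (· * w j) (h.1 i j (by revert i j; decide))

theorem cu_mul (h : x ∈ N1) (y : Mo) : cu (x * y) = cu x + x.g.1.mulVec (cu y) := by
  ext i
  change x.x.1 i 4 + (x.g.1 * y.x.1 * x.g.1.transpose) i 4 = x.x.1 i 4 + _
  congr 1
  rw [Matrix.mul_apply]
  simp only [Matrix.transpose_apply, row4 h, Matrix.one_apply, mul_ite, mul_one, mul_zero,
    Finset.sum_ite_eq, Finset.mem_univ, if_true]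
  rfl

theorem cv_mul (x y : Mo) : cv (x * y) = cv x + x.g.1.mulVec (cv y) := by
  ext i
  change (x.g.1 * y.g.1) i 4 + _ = x.g.1 i 4 + (1 : Mat) i 4 + ∑ j, x.g.1 i j * (y.g.1 j 4 + (1 : Mat) j 4)
  simp only [mul_add, Finset.sum_add_distrib, ← Matrix.mul_apply, Matrix.mul_one]
  have : (2 : ZMod 2) = 0 := rfl
  linear_combination (-x.g.1 i 4) * this

theorem cu_R (h : x ∈ R0) (y : Mo) : cu (x * y) = cu x + cu y := by
  rw [cu_mul (R0_N1 h), R_fix h (cu4 y)]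

theorem cv_R (h : x ∈ R0) (hy : y ∈ N1) : cv (x * y) = cv x + cv y := by
  rw [cv_mul, R_fix h (cv4 hy)]

theorem conj_R (h : x ∈ N1) (hy : y ∈ R0) : x * y * x⁻¹ ∈ R0 :=
  conj_mem_of_mem_normalizer (mem_N1.1 h) hy

theorem cu_conj (h : x ∈ N1) (hy : y ∈ R0) : cu (x * y * x⁻¹) = x.g.1.mulVec (cu y) := by
  have := cu_R (conj_R h hy) x
  rw [inv_mul_cancel_right, cu_mul h, add_comm] at this
  exact (add_right_cancel this).symm

theorem cv_conj (h : x ∈ N1) (hy : y ∈ R0) : cv (x * y * x⁻¹) = x.g.1.mulVec (cv y) := by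
  have := cv_R (conj_R h hy) h
  rw [inv_mul_cancel_right, cv_mul, add_comm] at this
  exact (add_right_cancel this).symm

theorem mem1 : x ∈ A1 ↔ x ∈ R0 ∧ cu x = 0 :=
  ⟨fun h => ⟨A1_R0 h, funext fun i => h.2 i 4 rfl⟩, fun h => ⟨h.1.1, fun i j e => by
    obtain rfl : j = 4 := by revert i j; decide
    exact congrFun h.2 i⟩⟩

theorem mem0 : x ∈ A0 ↔ x ∈ R0 ∧ cv x = 0 :=
  ⟨fun h => ⟨A0_R0 h, funext fun i => by rw [cv, h.1 i 4 rfl]; exact CharTwo.add_self_eq_zero _⟩,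
    fun h => ⟨fun i j _ => by
      by_cases e : j = 4
      · subst e
        exact CharTwo.add_eq_zero.1 (congrFun h.2 i)
      · exact h.1.1 i j (by revert i j; decide), h.1.2⟩⟩

theorem mem2 : x ∈ A2 ↔ x ∈ R0 ∧ cu x = cv x := by
  refine mem_A2.trans (and_congr_right fun h => ⟨fun k => funext fun i => ?_, fun k i hi => ?_⟩)
  · by_cases e : i = 4
    · rw [e, cu4, cv4 (R0_N1 h)]
    · rw [cu, cv, k i e, Matrix.one_apply_ne e, add_zero]
  · have := congrFun k i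
    rwa [cu, cv, Matrix.one_apply_ne hi, add_zero] at this

theorem memZ (h : x ∈ R0) (h1 : cu x = 0) (h2 : cv x = 0) : x ∈ Z0 :=
  inf01 ▸ mem_inf.2 ⟨mem0.2 ⟨h, h2⟩, mem1.2 ⟨h, h1⟩⟩

theorem memZ' (hx : x ∈ R0) (hy : y ∈ R0) (h1 : cu x = cu y) (h2 : cv x = cv y) : x * y⁻¹ ∈ Z0 := by
  have k := mul_mem hx (inv_mem hy)
  have k1 := cu_R k y
  have k2 := cv_R k (R0_N1 hy)
  rw [inv_mul_cancel_right] at k1 k2
  exact memZ k (by simpa [h1] using k1) (by simpa [h2] using k2)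

theorem tw_mem (w : Fin 5 → ZMod 2) : tw w ∈ A0 := mem_A0.2 rfl

theorem tw_add (v w : Fin 5 → ZMod 2) : tw (v + w) = tw v * tw w := by
  rw [tw, tw, tw, ← th_add]
  congr 1
  ext i j
  change _ = (wv v _).1 i j + (wv w _).1 i j
  simp only [wv, Matrix.of_apply, Pi.add_apply]
  ring

theorem cu_tw (hw : w 4 = 0) : cu (tw w) = w := by
  ext i
  simp [cu, tw, th, wv, hw]

/-- a model of conjugation by an element that interchanges `A` and `A1` -/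
structure Sw (a : Mo → Mo) : Prop where
  mul : ∀ x ∈ N1, ∀ y ∈ N1, a (x * y) = a x * a y
  n1 : ∀ x ∈ N1, a x ∈ N1
  a0 : ∀ x ∈ A0, a x ∈ A1
  a1 : ∀ x ∈ A1, a x ∈ A0
  a2 : ∀ x ∈ A2, a x ∈ A2
  bk : ∀ x ∈ N1, a x ∈ A0 → x ∈ A1

theorem exists_sw {g : G} (hg : g ∈ normalizer (m.R : Set G)) (h : cj g m.A = m.im A1) :
    ∃ a, Sw a ∧ ∀ x ∈ N1, m.φ (a x) = g * m.φ x * g⁻¹ := by
  have k : ∀ x, ∃ y, x ∈ N1 → y ∈ N1 ∧ m.φ y = g * m.φ x * g⁻¹ := fun x => by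
    by_cases hx : x ∈ N1
    · obtain ⟨y, hy, e⟩ := conj_mem_of_mem_normalizer (Fr.nr_N1 hg) (Fr.φ_mem.2 hx)
      exact ⟨y, fun _ => ⟨hy, e⟩⟩
    · exact ⟨1, fun e => absurd e hx⟩
  choose a ha using k
  have h1 : cj g (m.im A1) = m.A := by
    rcases Fr.nr hg with ⟨y, hy, rfl⟩ | k
    · rw [Fr.mem_N.1 ⟨y, rfl⟩] at h
      exact absurd (le_antisymm (Fr.im_le.1 h.le) (Fr.im_le.1 h.ge)) ne01
    · exact k.2
  have key : ∀ {K L : Subgroup Mo}, cj g (m.im K) = m.im L → ∀ x ∈ N1, (a x ∈ L ↔ x ∈ K) :=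
    fun e x hx => by rw [← Fr.φ_mem (m := m), (ha x hx).2, ← e, conj_mem_cj, Fr.φ_mem]
  refine ⟨a, ⟨fun x hx y hy => m.inj ?_, fun x hx => (ha x hx).1,
    fun x hx => (key h x (R0_N1 (A0_R0 hx))).2 hx, fun x hx => (key h1 x (R0_N1 (A1_R0 hx))).2 hx,
    fun x hx => (key (Fr.nr_A2 hg) x (R0_N1 (A2_le_R0 hx))).2 hx, fun x hx => (key h1 x hx).1⟩,
    fun x hx => (ha x hx).2⟩
  rw [map_mul, (ha _ (mul_mem hx hy)).2, (ha x hx).2, (ha y hy).2, map_mul, conj_mul]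

namespace Sw

variable {a : Mo → Mo} (h : Sw a)
include h

/-- the dependence on the first column only -/
theorem cv_eq (hy : y ∈ R0) : cv (a y) = cv (a (tw (cu y))) := by
  have t0 := tw_mem (cu y)
  have k : tw (cu y) * y ∈ A1 := mem1.2 ⟨mul_mem (A0_R0 t0) hy, by
    rw [cu_R (A0_R0 t0), cu_tw (cu4 y), two]⟩
  have := (mem0.1 (h.a1 _ k)).2
  rw [h.mul _ (R0_N1 (A0_R0 t0)) _ (R0_N1 hy), cv_R (A1_R0 (h.a0 _ t0)) (h.n1 _ (R0_N1 hy))] at this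
  rw [← add_zero (cv (a (tw _))), ← this, ← add_assoc, two, zero_add]

theorem exists_γ : ∃ γ ∈ N1, ∀ y ∈ R0, cv (a y) = γ.g.1.mulVec (cu y) := by
  have tN := fun w => R0_N1 (A0_R0 (tw_mem w))
  let F : (Fin 5 → ZMod 2) →+ Fin 5 → ZMod 2 := AddMonoidHom.mk'
    (fun w => cv (a (tw w)) + Pi.single 4 (w 4)) fun v w => by
      rw [tw_add, h.mul _ (tN v) _ (tN w), cv_R (A1_R0 (h.a0 _ (tw_mem v))) (h.n1 _ (tN w)),
        Pi.add_apply, Pi.single_add]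
      abel
  have F4 : ∀ w, F w 4 = w 4 := fun w => by
    change cv (a (tw w)) 4 + (Pi.single 4 (w 4) : Fin 5 → ZMod 2) 4 = _
    rw [cv4 (h.n1 _ (tN w)), zero_add, Pi.single_eq_same]
  have F0 : ∀ w, w 4 = 0 → F w = cv (a (tw w)) := fun w e => by
    change cv (a (tw w)) + Pi.single 4 (w 4) = _
    rw [e, Pi.single_zero, add_zero]
  have hM : ∀ w, (LinearMap.toMatrix' (F.toZModLinearMap 2)).mulVec w = F w := fun w => by
    rw [← Matrix.toLin'_apply, Matrix.toLin'_toMatrix']; rfl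
  generalize LinearMap.toMatrix' (F.toZModLinearMap 2) = M at hM
  obtain ⟨γ, rfl⟩ : IsUnit M := Matrix.mulVec_injective_iff_isUnit.1 (by
    rw [show M.mulVec = F from funext hM]
    refine (injective_iff_map_eq_zero F).2 fun w e => ?_
    have e4 : w 4 = 0 := by rw [← F4 w, e]; rfl
    rw [F0 w e4] at e
    rw [← cu_tw e4]
    exact (mem1.1 (h.bk _ (tN w) (mem0.2 ⟨A1_R0 (h.a0 _ (tw_mem w)), e⟩))).2)
  refine ⟨io0 γ, ⟨fun i j e => ?_, fun _ _ _ => rfl⟩, fun y hy => ?_⟩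
  · obtain rfl : i = 4 := by revert i; decide +revert
    have := congrFun (hM (Pi.single j 1)) 4
    rw [F4, Matrix.mulVec_single_one] at this
    exact this.trans (by rw [Matrix.one_apply, Pi.single_apply])
  · rw [h.cv_eq hy, ← F0 _ (cu4 y), ← hM]; rfl

variable (k : ∀ y ∈ R0, cv (a y) = cu y)
include k

theorem p1 (hx : x ∈ N1) : a x * x⁻¹ ∈ R0 := by
  have key : ∀ w, w 4 = 0 → (x⁻¹ * a x).g.1.mulVec w = w := fun w hw => by
    have t0 := A0_R0 (tw_mem w)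
    have e : a (x * tw w * x⁻¹) = a x * a (tw w) * (a x)⁻¹ := by
      rw [eq_mul_inv_iff_mul_eq, ← h.mul _ (R0_N1 (conj_R hx t0)) _ hx, inv_mul_cancel_right,
        h.mul _ hx _ (R0_N1 t0)]
    have e1 := k _ (conj_R hx t0)
    rw [e, cv_conj (h.n1 x hx) (A1_R0 (h.a0 _ (tw_mem w))), k _ t0, cu_conj hx t0, cu_tw hw] at e1
    rw [mul_g, Units.val_mul, ← Matrix.mulVec_mulVec, e1, Matrix.mulVec_mulVec, ← Units.val_mul,
      ← mul_g, inv_mul_cancel]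
    exact Matrix.one_mulVec w
  have k1 : x⁻¹ * a x ∈ R0 := by
    refine ⟨fun i j e => ?_, fun i j e => absurd e (by simp [pN])⟩
    by_cases e4 : j = 4
    · obtain rfl : i = 4 := by subst e4; revert i; decide
      exact row4 (mul_mem (inv_mem hx) (h.n1 x hx)) j
    · have := congrFun (key (Pi.single j 1) (Pi.single_eq_of_ne' e4 _)) i
      rw [Matrix.mulVec_single_one] at this
      exact this.trans (by rw [Matrix.one_apply, Pi.single_apply])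
  simpa [mul_assoc] using conj_R hx k1

theorem p2 (hy : y ∈ A2) : a y * y⁻¹ ∈ Z0 := by
  obtain ⟨h1, h2⟩ := mem2.1 hy
  obtain ⟨h3, h4⟩ := mem2.1 (h.a2 y hy)
  exact memZ' h3 h1 (h4.trans (k y h1)) ((k y h1).trans h2)

theorem cu_eq (hy : y ∈ A1) : cu (a y) = cv y := by
  have yR := A1_R0 hy
  have t0 := tw_mem (cv y)
  have e := cu_tw (cv4 (R0_N1 yR))
  have e1 : cu (tw (cv y) * y) = cv y := by rw [cu_R (A0_R0 t0), e, (mem1.1 hy).2, add_zero]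
  have k1 : tw (cv y) * y ∈ A2 := mem2.2 ⟨mul_mem (A0_R0 t0) yR, by
    rw [e1, cv_R (A0_R0 t0) (R0_N1 yR), (mem0.1 t0).2, zero_add]⟩
  have := (mem2.1 (h.a2 _ k1)).2
  rwa [k _ (A2_le_R0 k1), e1, h.mul _ (R0_N1 (A0_R0 t0)) _ (R0_N1 yR), cu_R (A1_R0 (h.a0 _ t0)),
    (mem1.1 (h.a0 _ t0)).2, zero_add] at this

theorem p3 {i j : Fin 5} (hij : i < j) (hj : j ≠ 4) : a (t i j) = t i j := by
  have f : ∀ i : Fin 5, i ≠ 4 → t i 4 ∈ A0 ∧ e i 4 ∈ A1 ∧ cu (t i 4) = cv (e i 4) := by decide +kernel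
  have g : t i j * (e j 4 * t i 4) = t i 4 * e j 4 ∧ t i j * (t j 4 * e i 4) = e i 4 * t j 4 ∧ t i j ∈ Z0 := by
    revert i j; decide +kernel
  obtain ⟨i0, i1, i2⟩ := f i (by omega)
  obtain ⟨j0, j1, j2⟩ := f j hj
  have z1 := memZ' (A1_R0 (h.a0 _ i0)) (A1_R0 i1) ((mem1.1 (h.a0 _ i0)).2.trans (mem1.1 i1).2.symm)
    ((k _ (A0_R0 i0)).trans i2)
  have z2 := memZ' (A0_R0 (h.a1 _ j1)) (A0_R0 j0) ((h.cu_eq k j1).trans j2.symm)
    ((mem0.1 (h.a1 _ j1)).2.trans (mem0.1 j0).2.symm)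
  have e1 := congrArg a g.1
  have iN := R0_N1 (A0_R0 i0)
  have jN := R0_N1 (A1_R0 j1)
  rw [h.mul _ (R0_N1 (A2_le_R0 (Z0_le_A2 g.2.2))) _ (mul_mem jN iN), h.mul _ jN _ iN, h.mul _ iN _ jN,
    ← inv_mul_cancel_right (a (t i 4)) (e i 4), ← inv_mul_cancel_right (a (e j 4)) (t j 4)] at e1
  generalize a (t i 4) * (e i 4)⁻¹ = p at z1 e1
  generalize a (e j 4) * (t j 4)⁻¹ = q at z2 e1
  have c1 := cen_Z0.2 (A0_R0 j0) p z1
  have c2 := cen_Z0.2 (A1_R0 i1) q z2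
  have c3 := cen_Z0.2 (A2_le_R0 (Z0_le_A2 z2)) p z1
  have c4 := cen_Z0.2 (A2_le_R0 (Z0_le_A2 g.2.2)) _ (mul_mem z1 z2)
  refine mul_right_cancel (b := p * q * (t j 4 * e i 4)) ?_
  calc _ = a (t i j) * (q * (p * t j 4) * e i 4) := by rw [c3]; group
    _ = p * (e i 4 * q) * t j 4 := by rw [c1, ← mul_assoc q, mul_assoc (q * _), e1]; group
    _ = p * q * t i j * (t j 4 * e i 4) := by rw [← c2, mul_assoc (p * q), g.2.1]; group
    _ = _ := by rw [c4]; group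

end Sw

end Sxa

open Sxa in
theorem Fr.sxa {g : G} (hg : g ∈ normalizer (m.R : Set G)) (h : cj g m.A = m.im A1) :
    ∃ k ∈ normalizer (m.R : Set G), cj k m.A = m.im A1 ∧ (∀ x ∈ m.im N1, k * x * k⁻¹ * x⁻¹ ∈ m.R) ∧
      (∀ a ∈ m.im A2, k * a * k⁻¹ * a⁻¹ ∈ m.im Z0) ∧ ∀ a ∈ m.im Z0, k * a = a * k := by
  obtain ⟨a, ha, e⟩ := exists_sw hg h
  obtain ⟨γ, hγ, k⟩ := ha.exists_γ
  have γ' := inv_mem hγ
  have hk : m.φ γ⁻¹ * g ∈ normalizer (m.R : Set G) := mul_mem (mem_normalizer_iff_cj.2 (by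
    rw [Fr.cj_im, mem_normalizer_iff_cj.1 (mem_N1.1 γ')])) hg
  have h' : cj (m.φ γ⁻¹ * g) m.A = m.im A1 := by
    rw [cj_mul, h, Fr.cj_im, mem_normalizer_iff_cj.1 (N1_norm_A1 γ')]
  obtain ⟨b, hb, e'⟩ := exists_sw hk h'
  have k' : ∀ y ∈ R0, cv (b y) = cu y := fun y hy => by
    have e1 : b y = γ⁻¹ * a y * γ⁻¹⁻¹ := m.inj (by
      rw [e' y (R0_N1 hy), map_mul, map_mul, e y (R0_N1 hy), map_inv m.φ γ⁻¹]; group)
    have aR : a y ∈ R0 := Fr.φ_mem.1 (e y (R0_N1 hy) ▸ conj_mem_of_mem_normalizer hg (Fr.φ_mem.2 hy))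
    rw [e1, cv_conj γ' aR, k y hy, Matrix.mulVec_mulVec, ← Units.val_mul, ← mul_g, inv_mul_cancel]
    exact Matrix.one_mulVec _
  refine ⟨_, hk, h', ?_, ?_, ?_⟩
  · rintro _ ⟨x, hx, rfl⟩
    rw [← e' x hx, ← map_inv, ← map_mul]
    exact Fr.φ_mem.2 (hb.p1 k' hx)
  · rintro _ ⟨x, hx, rfl⟩
    rw [← e' x (R0_N1 (A2_le_R0 hx)), ← map_inv, ← map_mul]
    exact Fr.φ_mem.2 (hb.p2 k' hx)
  · rintro _ ⟨x, hx, rfl⟩
    refine (mem_centralizer_singleton_iff.1 (gen_up (K := (centralizer {m.φ γ⁻¹ * g}).comap m.φ)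
      (by decide) (fun i j hij ht => ?_) (fun i j hij he => ?_) hx)).symm
    · have hj : j ≠ 4 := by revert i j; decide +kernel
      have := e' _ (R0_N1 (A2_le_R0 (Z0_le_A2 ht)))
      rw [hb.p3 k' hij hj, eq_mul_inv_iff_mul_eq] at this
      exact mem_centralizer_singleton_iff.2 this
    · exact absurd he (by revert i j; decide +kernel)


end CfsgLib.L5R
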