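import Mathlib
import Cfsg.Agent.Lib.L5R.Nr

/-!
# the involution `s` (plans/L5R.md)
-/

set_option autoImplicit false
set_option maxHeartbeats 400000
set_option Elab.async false

namespace CfsgLib.L5R

open Subgroup Cfsg CfsgLib.Tech CfsgLib.Held CfsgLib.MOrb CfsgLib.L72 CfsgLib.LargeExtra CfsgLib.ExtraTwo

namespace Sxb

/-- a Singer cycle on `U₄` -/
noncomputable def f : Mo := el 0x2041250000000

theorem cf : Cd f 0x2041250000000 := cd_el (b := 0x100a083) (by decide +kernel)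

theorem cinv {x : Mo} {c d b : ℕ} (h : Cd x c) (k : okC d b = true) (e : mulC c d = oneC) : Cd x⁻¹ d :=
  h.inv_eq (cd_el k) e ▸ cd_el k

theorem cfi : Cd f⁻¹ 0x2014106000000 := cinv (b := 0x1020928) cf (by decide +kernel) (by decide +kernel)

theorem cf4 : Cd (f * f * (f * f)) 0x20c32d2000000 :=
  (show mulC (mulC 0x2041250000000 0x2041250000000) (mulC 0x2041250000000 0x2041250000000) = 0x20c32d2000000 by
    decide +kernel) ▸ (cf.mul cf).mul (cf.mul cf)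

theorem cf4i : Cd (f * f * (f * f))⁻¹ 0x20f38dc000000 :=
  cinv (b := 0x1061969) cf4 (by decide +kernel) (by decide +kernel)

theorem f_mem : f ∈ N1 := cf.mem_N1.2 (by decide +kernel)

theorem fpf {r : Mo} (hr : r ∈ R0) (h : f * r = r * f) : r = 1 := by
  obtain ⟨c, hc⟩ := exists_cd r
  have k := hc.lp_R0 hr (f := fun c => or (not (Nat.beq (mulC 0x2041250000000 c) (mulC c 0x2041250000000)))
    (Nat.beq c oneC)) (by decide +kernel)
  rw [(cf.comm_iff hc).1 h] at k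
  exact hc.eq_one.2 (by simpa using k)

/-- the polynomial `x⁴ + x + 1` in `f` -/
noncomputable def P (a : Mo) : Mo := f * f * (f * f) * a * (f * f * (f * f))⁻¹ * (f * a * f⁻¹) * a

/-- its code -/
noncomputable def pC (c : ℕ) : ℕ := mulC (mulC (mulC (mulC 0x20c32d2000000 c) 0x20f38dc000000)
  (mulC (mulC 0x2041250000000 c) 0x2014106000000)) c

theorem cP {a : Mo} {c : ℕ} (h : Cd a c) : Cd (P a) (pC c) :=
  (((cf4.mul h).mul cf4i).mul ((cf.mul h).mul cfi)).mul h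

theorem P_A2 {a : Mo} (ha : a ∈ A2) : P a ∈ Z0 := by
  obtain ⟨c, hc⟩ := exists_cd a
  have k := hc.lp_R0 (A2_le_R0 ha) (f := fun c => or (not (inA2 c)) (inM 0x3ffffff084210 (pC c))) (by decide +kernel)
  rw [hc.mem_A2.1 ha] at k
  exact (cP hc).mem_Z0.2 (by simpa using k)

theorem P_inj {a : Mo} (ha : a ∈ Z0) (h : P a = 1) : a = 1 := by
  obtain ⟨c, hc⟩ := exists_cd a
  have k := hc.lp_Z0 ha (f := fun c => or (not (Nat.beq (pC c) oneC)) (Nat.beq c oneC)) (by decide +kernel)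
  rw [(cP hc).eq_one.1 h] at k
  exact hc.eq_one.2 (by simpa using k)

theorem R0_le : R0 ≤ N1 := pat_le (by decide) (by decide)

theorem comm_A2 {r a : Mo} (hr : r ∈ R0) (ha : a ∈ A2) : r * a * r⁻¹ * a⁻¹ ∈ Z0 := by
  rw [← sup02] at hr
  obtain ⟨b, hb, c, hc, rfl⟩ := mem_sup_of_normal_left.1 hr
  have e : b * c * a * (b * c)⁻¹ * a⁻¹ = b * a * b⁻¹ * a⁻¹ := by
    have k := A2_sq _ (mul_mem hc ha)
    have e : c * a = a * c := by
      rw [← inv_eq_of_mul_eq_one_right k, _root_.mul_inv_rev, inv_eq_of_mul_eq_one_right (A2_sq _ ha),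
        inv_eq_of_mul_eq_one_right (A2_sq _ hc)]
    rw [mul_assoc b, e]; group
  rw [e, ← inf02]
  refine mem_inf.2 ⟨?_, mul_mem (conj_mem_of_mem_normalizer (N1_norm_A2 (R0_le (sup02.le (mem_sup_left hb)))) ha) (inv_mem ha)⟩
  rw [mul_assoc, mul_assoc, ← mul_assoc a]
  exact mul_mem hb (by simpa using normal_A0.conj_mem _ (inv_mem hb) a)

theorem shuffle {H : Type*} [Group H] {a4 b4 a1 b1 a b : H} (c1 : a4 * b1 = b1 * a4) (c2 : a4 * b = b * a4)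
    (c3 : a1 * b = b * a1) : b4 * a4 * (b1 * a1) * (b * a) = b4 * b1 * b * (a4 * a1 * a) :=
  calc _ = b4 * (a4 * b1) * (a1 * b) * a := by group
    _ = b4 * b1 * (a4 * b) * a1 * a := by rw [c1, c3]; group
    _ = _ := by rw [c2]; group

theorem P_mul {a b : Mo} (hb : b ∈ Z0) (ha : a ∈ A2) : P (b * a) = P b * P a := by
  have c : ∀ x ∈ N1, ∀ y ∈ N1, y * a * y⁻¹ * (x * b * x⁻¹) = x * b * x⁻¹ * (y * a * y⁻¹) := fun x hx y hy =>
    (cen_Z0.2 (A2_le_R0 (conj_mem_of_mem_normalizer (N1_norm_A2 hy) ha)) _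
      (conj_mem_of_mem_normalizer (N1_norm_Z0 hx) hb)).symm
  have f4 := mul_mem (mul_mem f_mem f_mem) (mul_mem f_mem f_mem)
  have c2 := c 1 (one_mem _) _ f4
  have c3 := c 1 (one_mem _) _ f_mem
  rw [one_mul, inv_one, mul_one] at c2 c3
  rw [P, ← conj_mul, ← conj_mul (b := f) (a := b)]
  exact shuffle (c _ f_mem _ f4) c2 c3

theorem conj_P {H : Type*} [Group H] {s f : H} (h : s * f = f * s) (a : H) :
    s * (f * f * (f * f) * a * (f * f * (f * f))⁻¹ * (f * a * f⁻¹) * a) * s⁻¹ =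
      f * f * (f * f) * (s * a * s⁻¹) * (f * f * (f * f))⁻¹ * (f * (s * a * s⁻¹) * f⁻¹) * (s * a * s⁻¹) := by
  have e : MulAut.conj s f = f := mul_inv_eq_iff_eq_mul.2 h
  change MulAut.conj s _ = _
  simp only [map_mul, map_inv, e]
  rfl

end Sxb

variable {G : Type*} [Group G] [Finite G] {m : Fr G}

theorem Fr.sxb {k : G} (hk : k ∈ normalizer (m.R : Set G)) (h : cj k m.A = m.im A1)
    (h1 : ∀ x ∈ m.im N1, k * x * k⁻¹ * x⁻¹ ∈ m.R) (h2 : ∀ a ∈ m.im A2, k * a * k⁻¹ * a⁻¹ ∈ m.im Z0)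
    (h3 : ∀ a ∈ m.im Z0, k * a = a * k) : ∃ s, SX m s := by
  have im_nm : ∀ {K : Subgroup Mo} {x : Mo}, x ∈ normalizer (K : Set Mo) → m.φ x ∈ normalizer (m.im K : Set G) :=
    fun hx => le_normalizer_map _ (mem_map_of_mem _ hx)
  have ne : m.A ≠ m.im A1 := fun e => ne01 (map_injective m.inj e)
  have fN : m.φ Sxb.f ∈ m.im N1 := Fr.φ_mem.2 Sxb.f_mem
  have fR : m.φ Sxb.f ∈ normalizer (m.R : Set G) := im_nm (mem_N1.1 Sxb.f_mem)
  have fpf : ∀ r ∈ m.R, m.φ Sxb.f * r = r * m.φ Sxb.f → r = 1 := by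
    rintro _ ⟨r, hr, rfl⟩ e
    rw [Sxb.fpf hr (m.inj (by simpa using e)), map_one]
  obtain ⟨⟨r, hr⟩, er⟩ : ∃ r : m.R, (r : G)⁻¹ * (m.φ Sxb.f * r * (m.φ Sxb.f)⁻¹) =
      k * m.φ Sxb.f * k⁻¹ * (m.φ Sxb.f)⁻¹ := by
    let c : m.R → m.R := fun r => ⟨_, mul_mem (inv_mem r.2) (conj_mem_of_mem_normalizer fR r.2)⟩
    have hc : Function.Injective c := fun r r' e => Subtype.ext (by
      have e' : (r : G)⁻¹ * (m.φ Sxb.f * r * (m.φ Sxb.f)⁻¹) = (r' : G)⁻¹ * (m.φ Sxb.f * r' * (m.φ Sxb.f)⁻¹) :=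
        congrArg Subtype.val e
      refine mul_inv_eq_one.1 (fpf _ (mul_mem r.2 (inv_mem r'.2)) ?_)
      calc _ = r * ((r : G)⁻¹ * (m.φ Sxb.f * r * (m.φ Sxb.f)⁻¹)) * m.φ Sxb.f * (r' : G)⁻¹ := by group
        _ = _ := by rw [e']; group)
    obtain ⟨r, e⟩ := Finite.injective_iff_surjective.1 hc ⟨_, h1 _ fN⟩
    exact ⟨r, congrArg Subtype.val e⟩
  obtain ⟨r, hr, rfl⟩ := hr
  have rN := Sxb.R0_le hr
  obtain ⟨s, hs⟩ : ∃ s, s = m.φ r * k := ⟨_, rfl⟩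
  have sf : s * m.φ Sxb.f = m.φ Sxb.f * s := by
    calc _ = m.φ r * (k * m.φ Sxb.f * k⁻¹ * (m.φ Sxb.f)⁻¹) * m.φ Sxb.f * k := by rw [hs]; group
      _ = _ := by rw [← er, hs]; group
  have nR : s ∈ normalizer (m.R : Set G) := hs ▸ mul_mem (im_nm (le_normalizer hr)) hk
  have sw : cj s m.A = m.im A1 := by
    rw [hs, cj_mul, h, mem_normalizer_iff_cj.1 (im_nm (N1_norm_A1 rN))]
  have nA : ∀ g ∈ m.im N1, cj g m.A = m.A := fun g hg => Fr.mem_N.1 (Fr.im_le_N hg)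
  have sw' : cj s (m.im A1) = m.A := ((Fr.nr nR).resolve_left fun e => ne ((nA _ e).symm.trans sw)).2
  have s1 : ∀ x ∈ m.im N1, s * x * s⁻¹ * x⁻¹ ∈ m.R := fun x hx => by
    have e : s * x * s⁻¹ * x⁻¹ = m.φ r * (k * x * k⁻¹ * x⁻¹) * (x * (m.φ r)⁻¹ * x⁻¹) := by rw [hs]; group
    obtain ⟨y, hy, rfl⟩ := hx
    exact e ▸ mul_mem (mul_mem (Fr.φ_mem.2 hr) (h1 _ ⟨y, hy, rfl⟩))
      (conj_mem_of_mem_normalizer (im_nm (mem_N1.1 hy)) (inv_mem (Fr.φ_mem.2 hr)))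
  have s2 : ∀ a ∈ A2, ∃ b ∈ Z0, s * m.φ a * s⁻¹ = m.φ (b * a) := fun a ha => by
    have e : s * m.φ a * s⁻¹ * (m.φ a)⁻¹ = m.φ r * (k * m.φ a * k⁻¹ * (m.φ a)⁻¹) * (m.φ r)⁻¹ *
        m.φ (r * a * r⁻¹ * a⁻¹) := by simp only [hs, map_mul, map_inv]; group
    obtain ⟨b, hb, eb⟩ : s * m.φ a * s⁻¹ * (m.φ a)⁻¹ ∈ m.im Z0 := e ▸ mul_mem (conj_mem_of_mem_normalizer
      (im_nm (N1_norm_Z0 rN)) (h2 _ (Fr.φ_mem.2 ha))) (Fr.φ_mem.2 (Sxb.comm_A2 hr ha))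
    exact ⟨b, hb, by rw [map_mul, eb, inv_mul_cancel_right]⟩
  have s3 : ∀ a ∈ Z0, s * m.φ a = m.φ a * s := fun a ha => by
    rw [hs, mul_assoc, h3 _ (Fr.φ_mem.2 ha), ← mul_assoc, ← map_mul, ← cen_Z0.2 hr a ha, map_mul, mul_assoc]
  have all : ∀ g ∈ normalizer (m.R : Set G), g ∈ m.im N1 ∨ s * g ∈ m.im N1 := fun g hg =>
    (Fr.nr hg).imp_right fun e => (Fr.nr (mul_mem nR hg)).resolve_right fun e' => ne (by
      rw [← e'.1, cj_mul, e.1, sw'])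
  have sq : s * s = 1 := by
    obtain ⟨y, -, ey⟩ := (all s nR).resolve_left fun e => ne ((nA _ e).symm.trans sw)
    refine fpf _ (ey ▸ Fr.φ_mem.2 (cen_Z0.1 fun a ha => m.inj ?_)) ?_
    · rw [map_mul, map_mul, ey, mul_assoc s, s3 a ha, ← mul_assoc, ← mul_assoc, s3 a ha]
    · rw [mul_assoc, sf, ← mul_assoc, ← mul_assoc, sf]
  have cen : ∀ a ∈ m.im A2, s * a = a * s := by
    rintro _ ⟨a, ha, rfl⟩
    obtain ⟨b, hb, eb⟩ := s2 a ha
    have e5 : s * m.φ (Sxb.P a) * s⁻¹ = m.φ (Sxb.P b * Sxb.P a) := by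
      rw [← Sxb.P_mul hb ha]
      simp only [Sxb.P, map_mul, map_inv] at eb ⊢
      rw [← eb]
      exact Sxb.conj_P sf _
    rw [s3 _ (Sxb.P_A2 ha), mul_inv_cancel_right] at e5
    rw [Sxb.P_inj hb (by simpa using m.inj e5), one_mul] at eb
    exact mul_inv_eq_iff_eq_mul.1 eb
  refine ⟨s, sq, nR, sw, cen, fun x hx => ?_, all⟩
  obtain ⟨y, -, ey⟩ := s1 x hx
  obtain ⟨x, hx, rfl⟩ := hx
  refine ey ▸ Fr.φ_mem.2 (cen_A2 fun a ha => m.inj ?_)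
  have c1 := cen _ (Fr.φ_mem.2 ha)
  have c2 := cen _ (conj_mem_of_mem_normalizer' (im_nm (N1_norm_A2 hx)) (Fr.φ_mem.2 ha))
  rw [map_mul, map_mul, ey]
  calc _ = m.φ a * s * m.φ x * s⁻¹ * (m.φ x)⁻¹ := by group
    _ = s * m.φ x * s⁻¹ * (s * ((m.φ x)⁻¹ * m.φ a * m.φ x)) * s⁻¹ * (m.φ x)⁻¹ := by rw [← c1]; group
    _ = _ := by rw [c2]; group

end CfsgLib.L5R
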