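import Mathlib
import Cfsg.Agent.Lib.L5R.Cj

/-!
# the local structure of `N(V) / V` (plans/L5R.md)
-/

set_option autoImplicit false
set_option maxHeartbeats 400000
set_option Elab.async false

namespace CfsgLib.L5R

open Subgroup Cfsg CfsgLib.Tech CfsgLib.Held CfsgLib.MOrb CfsgLib.L72 CfsgLib.LargeExtra CfsgLib.ExtraTwo

variable {G : Type*} [Group G] [Finite G] {m : Fr G} {s : G}

namespace Xd

theorem mem_R0g {x : Mo} : x ∈ R0 ↔ x.g ∈ E4 :=
  ⟨fun h => h.1, fun h => ⟨h, fun _ _ e => absurd e (by simp [pN])⟩⟩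

theorem E4_le_U5 : E4 ≤ U5 := fun _ h i j e => h i j (by revert i j; decide)

theorem U5_le_P4 : U5 ≤ P4 := fun _ h i j e => h i j (by revert i j; decide)

theorem dec {K : Subgroup (GN 5)} (hK : E4 ≤ K) {x : Mo} (hx : x.g ∈ K) : ∃ a ∈ A2, ∃ g ∈ K, x = a * io0 g := by
  obtain ⟨τ, hτ, e⟩ := Bas1.exists_g (P := pE4) (by decide) (by decide) fun i j => x.x.1 i j
  refine ⟨⟨x.x, τ⟩, ⟨mem_R0g.2 hτ, fun i hi => (e i 4 (by revert i; decide)).symm⟩, τ⁻¹ * x.g,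
    mul_mem (inv_mem (hK hτ)) hx, Mo.ext ?_ ?_⟩
  · change x.x = x.x + τ • (0 : Alt)
    simp
  · change x.g = τ * (τ⁻¹ * x.g)
    simp

theorem io0_A2 {g : GN 5} (h : io0 g ∈ A2) : g = 1 := by
  refine Units.ext (Matrix.ext fun i j => ?_)
  by_cases e : pE4 i j = true
  · exact h.1.1 i j e
  · obtain ⟨hi, rfl⟩ : i ≠ 4 ∧ j = 4 := by revert i j; decide
    have := h.2 i hi
    change (0 : ZMod 2) = g.1 i 4 at this
    rw [← this, Units.val_one, Matrix.one_apply_ne hi]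

/-- the complement inside `N(V)` -/
def ps0 (h : SX m s) : P4 →* normalizer (m.V s : Set G) :=
  ((m.φ.comp io0).comp P4.subtype).codRestrict _ fun g => h.N1_norm ⟨io0 g, mem_N1g.2 g.2, rfl⟩

/-- the embedding of `P4` -/
def ps (h : SX m s) : P4 →* XQ (m.V s) := (QuotientGroup.mk' _).comp (ps0 h)

theorem ps_eq (h : SX m s) (g : P4) (y : normalizer (m.V s : Set G)) :
    ps h g = QuotientGroup.mk y ↔ (m.φ (io0 g))⁻¹ * y ∈ m.V s := QuotientGroup.eq

omit [Finite G] in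
theorem s_mem (s : G) : s ∈ m.V s := mem_sup_right (mem_zpowers s)

theorem mem_ps (h : SX m s) {K : Subgroup (GN 5)} (hK : E4 ≤ K) (hP : K ≤ P4) (y : normalizer (m.V s : Set G)) :
    (QuotientGroup.mk y : XQ (m.V s)) ∈ (K.subgroupOf P4).map (ps h) ↔
      (y : G) ∈ m.im (K.comap pi) ∨ s * y ∈ m.im (K.comap pi) := by
  have h2 : m.im A2 ≤ m.im (K.comap pi) := Fr.im_le.2 fun a ha => hK (mem_R0g.1 (A2_le_R0 ha))
  have k : ∀ u : G, u ∈ m.im (K.comap pi) → ∃ g : P4, g.1 ∈ K ∧ (m.φ (io0 g))⁻¹ * u ∈ m.V s := by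
    rintro _ ⟨x, hx, rfl⟩
    obtain ⟨a, ha, g, hg, rfl⟩ := dec hK hx
    refine ⟨⟨g, hP hg⟩, hg, ?_⟩
    rw [map_mul, ← mul_assoc]
    exact conj_mem_of_mem_normalizer' (ps0 h ⟨g, hP hg⟩).2 (mem_sup_left ⟨a, ha, rfl⟩)
  constructor
  · rintro ⟨g, hg, e⟩
    have hg' : m.φ (io0 g) ∈ m.im (K.comap pi) := ⟨io0 g, hg, rfl⟩
    rcases h.mem_V.1 ((ps_eq h g y).1 e) with a | a
    · exact Or.inl ((mul_mem_cancel_left (inv_mem hg')).1 (h2 a))
    · refine Or.inr ?_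
      have := mul_mem (mul_mem (h2 (h.com _ ⟨io0 g, mem_N1g.2 g.2, rfl⟩)) hg') (h2 a)
      simpa [mul_assoc] using this
  · rintro (a | a)
    · obtain ⟨g, hg, e⟩ := k _ a
      exact ⟨g, hg, (ps_eq h g y).2 e⟩
    · obtain ⟨g, hg, e⟩ := k _ a
      refine ⟨g, hg, (ps_eq h g y).2 ?_⟩
      have := mul_mem e (inv_mem (conj_mem_of_mem_normalizer' y.2 (s_mem (m := m) s)))
      simpa [mul_assoc] using this

theorem comap_P4 : P4.comap pi = N1 := by ext x; exact mem_N1g.symm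

theorem comap_U5 : U5.comap pi = T0 := by ext x; exact mem_T0.symm

theorem mem_range (h : SX m s) (y : normalizer (m.V s : Set G)) :
    (QuotientGroup.mk y : XQ (m.V s)) ∈ (ps h).range ↔ (y : G) ∈ m.im N1 ∨ s * y ∈ m.im N1 := by
  rw [← comap_P4, ← mem_ps h (E4_le_U5.trans U5_le_P4) le_rfl, subgroupOf_self, MonoidHom.range_eq_map]

theorem norm_le (h : SX m s) {K : Subgroup (GN 5)} (hK : E4 ≤ K) (hU : K ≤ U5) :
    normalizer (((K.subgroupOf P4).map (ps h) : Subgroup _) : Set (XQ (m.V s))) ≤ (ps h).range := by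
  intro x hx
  obtain ⟨y, rfl⟩ := QuotientGroup.mk_surjective x
  set P := (((K.subgroupOf P4).map (ps h)).comap (QuotientGroup.mk' _)).map (normalizer (m.V s : Set G)).subtype
  have hP := hU.trans U5_le_P4
  have h1 : m.R ≤ P := fun r hr => by
    have hr' : r ∈ m.im (K.comap pi) := Fr.im_le.2 (fun a ha => hK (mem_R0g.1 ha)) hr
    exact ⟨⟨r, h.N1_norm (Fr.im_le.2 (fun a ha => mem_N1g.2 (hP ha)) hr')⟩, (mem_ps h hK hP _).2 (Or.inl hr'), rfl⟩
  have h2 : P ≤ m.S s := by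
    rintro _ ⟨u, hu, rfl⟩
    have hT : m.im (K.comap pi) ≤ m.T := Fr.im_le.2 fun a ha => mem_T0.2 (hU ha)
    exact h.mem_S.2 (((mem_ps h hK hP _).1 hu).imp (@hT _) (@hT _))
  refine (mem_range h y).2 (h.all _ (h.nR_of h1 h2 (mem_normalizer_of_forall ?_)))
  rintro _ ⟨u, hu, rfl⟩
  exact ⟨y * u * y⁻¹, conj_mem_of_mem_normalizer (x := QuotientGroup.mk u) hx hu, rfl⟩

end Xd

theorem SX.xd (h : SX m s) (hN : ¬ normalizer (m.V s : Set G) ≤ normalizer (m.im A2 : Set G)) :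
    ∃ ψ : P4 →* XQ (m.V s), XD ψ := by
  refine ⟨Xd.ps h, (injective_iff_map_eq_one _).2 fun g e => ?_, ⟨le_top, ?_, ?_⟩,
    Xd.norm_le h le_rfl Xd.E4_le_U5, Xd.norm_le h Xd.E4_le_U5 le_rfl, fun e => hN fun y hy => ?_⟩
  · have h1 : m.φ (io0 g) ∈ m.V s := (QuotientGroup.eq_one_iff (Xd.ps0 h g)).1 e
    have h2 : m.φ (io0 g) ∈ m.im A2 := h.inf_N ▸ ⟨h1, _, rfl⟩
    exact Subtype.ext (Xd.io0_A2 (Fr.φ_mem.1 h2))
  · exact (syl_U5.pgroup.comap_of_injective _ P4.subtype_injective).map _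
  · have e : ((U5.subgroupOf P4).map (Xd.ps h)).comap (QuotientGroup.mk' _) =
        (m.S s).subgroupOf (normalizer (m.V s : Set G)) := by
      ext y
      rw [mem_subgroupOf, h.mem_S, Fr.T, ← Xd.comap_U5]
      exact Xd.mem_ps h Xd.E4_le_U5 Xd.U5_le_P4 y
    rw [relIndex_top_right, ← index_comap_of_surjective _ (QuotientGroup.mk'_surjective _), e]
    exact (h.syl.of_le h.S_norm le_top).not_dvd
  · have h1 : m.im N1 ≤ normalizer (m.im A2 : Set G) := by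
      rintro _ ⟨x, hx, rfl⟩
      rw [mem_normalizer_iff_cj, Fr.cj_im, mem_normalizer_iff_cj.1 (N1_norm_A2 hx)]
    have h2 : s ∈ normalizer (m.im A2 : Set G) :=
      mem_normalizer_of_forall fun a ha => by rwa [h.cen a ha, mul_inv_cancel_right]
    rcases (Xd.mem_range h ⟨y, hy⟩).1 (e ▸ mem_top _) with a | a
    · exact h1 a
    · exact (mul_mem_cancel_left h2).1 (h1 a)


end CfsgLib.L5R
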